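import Cfsg.Agent.Ch.Unip

/-! Bruhat decomposition and centralisers of torus elements. -/

set_option linter.unusedSectionVars false

namespace Ch
open Finset

variable {ι : Type} [Fintype ι] [DecidableEq ι]

namespace CG
open RS
variable {R : RS ι} {F : Type*} [Field F] {I : Type} [Fintype I] [DecidableEq I]
  {G : Type*} [Group G] (C : CG R F I G)

def Cell (g : G) (w : Aut ι) : Prop :=
  ∃ u1 ∈ C.U R.Pp, ∃ n, C.Rep n w ∧ ∃ u2 ∈ C.U R.Pp, g = u1 * n * u2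

variable {C}

theorem al_mem_Pp (i : ι) : al i ∈ R.Pp := mem_Pp.mpr ⟨R.al_mem i, al_nonneg i⟩

theorem Rep.x_mul {n : G} {w : Aut ι} (h : C.Rep n w) {r : La ι} (hr : r ∈ R.Φ)
    (h0 : 0 ≤ w⁻¹ r) (c : F) : ∃ u ∈ C.U R.Pp, C.x r c * n = n * u := by
  obtain ⟨η, _, hη⟩ := h.inv.x r hr
  refine ⟨_, x_mem_U (mem_Pp.mpr ⟨W_mem (inv_mem h.mem_W) hr, h0⟩) (η * c), ?_⟩
  rw [eq_comm, ← eq_inv_mul_iff_mul_eq, ← mul_assoc, hη, inv_mul_cancel_right]

theorem x_neg_eq (i : ι) {c : F} (hc : c ≠ 0) : C.x (-al i) (-c) =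
    C.x (al i) (-c⁻¹) * (C.h (coch (R.c (al i)) (Units.mk0 c hc)⁻¹) * C.n i) *
      C.x (al i) (-c⁻¹) := by
  rw [← C.nl, ← C.x_inv (R.al_mem i)]
  simp [mul_assoc]

theorem Cell.n_mul [Finite F] {g : G} {w : Aut ι} (h : C.Cell g w) (i : ι) :
    ∃ w', C.Cell (C.n i * g) w' := by
  obtain ⟨u1, hu1, n, hn, u2, hu2, rfl⟩ := h
  obtain ⟨a1, ha1, a2, ha2, rfl⟩ := U_split (s_al_mem i) hu1
  obtain ⟨c, rfl⟩ := mem_U_Sn_s ha2
  have h1 := (rep_n i).conj_Sp ha1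
  suffices ∃ w', C.Cell (C.n i * C.x (al i) c * n) w' by
    obtain ⟨w', v1, hv1, n', hn', v2, hv2, h⟩ := this
    refine ⟨w', _, mul_mem h1 hv1, n', hn', _, mul_mem hv2 hu2, ?_⟩
    rw [mul_assoc _ v1, mul_assoc _ (v1 * n'), ← mul_assoc (v1 * n'), ← h]
    group
  by_cases h0 : 0 ≤ w⁻¹ (al i)
  · obtain ⟨u, hu, h⟩ := hn.x_mul (R.al_mem i) h0 c
    exact ⟨_, 1, one_mem _, _, (rep_n i).mul hn, u, hu, by rw [mul_assoc, h]; group⟩
  by_cases hc : c = 0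
  · exact ⟨_, 1, one_mem _, _, (rep_n i).mul hn, 1, one_mem _, by
      simp [hc, C.x_zero (R.al_mem i)]⟩
  obtain ⟨u, hu, h⟩ := ((rep_n i).mul hn).x_mul (R.al_mem i) (by
    rw [mul_inv_rev, LinearEquiv.mul_apply, s_inv (R.al_mem i), s_self (R.al_mem i), map_neg]
    exact neg_nonneg_of_not (W_mem (inv_mem hn.mem_W) (R.al_mem i)) h0) (-c⁻¹)
  refine ⟨_, _, x_mem_U (al_mem_Pp i) (-c⁻¹), _,
    ((rep_n i).mul ((rep_n i).mul hn)).h_mul (coch (R.c (al i)) (Units.mk0 c hc)⁻¹), u, hu, ?_⟩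
  have e := C.n_al i c
  change C.n i * _ = _ * C.n i at e
  rw [e, x_neg_eq i hc, mul_assoc, mul_assoc, h]
  group

theorem bruhat [Finite F] (hgen : C.X = ⊤) (g : G) : ∃ w, C.Cell g w := by
  let K : Submonoid G :=
    { carrier := {y | ∀ g, (∃ w, C.Cell g w) → ∃ w, C.Cell (y * g) w}
      one_mem' := fun g hg => by simpa using hg
      mul_mem' := fun {a b} ha hb g hg => by rw [mul_assoc]; exact ha _ (hb g hg) }
  have hU : ∀ u ∈ C.U R.Pp, u ∈ K := by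
    rintro u hu _ ⟨w, u1, hu1, n, hn, u2, hu2, rfl⟩
    exact ⟨w, _, mul_mem hu hu1, n, hn, u2, hu2, by group⟩
  have hh : ∀ χ, C.h χ ∈ K := by
    rintro χ _ ⟨w, u1, hu1, n, hn, u2, hu2, rfl⟩
    exact ⟨w, _, h_conj_U χ (fun _ hr => (mem_Pp.mp hr).1) hu1, _, hn.h_mul χ, u2, hu2, by group⟩
  have hn : ∀ i, C.n i ∈ K := by
    rintro i g ⟨w, hw⟩
    exact hw.n_mul i
  have hR : ∀ g w, C.Rep g w → g ∈ K := fun g w h =>
    Rep.ind (p := fun g _ => g ∈ K) (one_mem _) (fun χ _ _ _ h => mul_mem (hh χ) h)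
      (fun i _ _ _ h => mul_mem (hn i) h) h
  have hx : ∀ r ∈ R.Φ, ∀ a, C.x r a ∈ K := by
    intro r hr a
    obtain ⟨w, hw, i, rfl⟩ := exists_simple hr
    obtain ⟨n, hn⟩ := C.exists_rep hw
    obtain ⟨η, h0, hη⟩ := hn.x _ (R.al_mem i)
    have : C.x (w (al i)) a = n * C.x (al i) (η⁻¹ * a) * n⁻¹ := by
      rw [hη, mul_inv_cancel_left₀ h0, mul_inv_cancel_right]
    rw [this]
    exact mul_mem (mul_mem (hR _ _ hn) (hU _ (x_mem_U (al_mem_Pp i) _))) (hR _ _ hn.inv)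
  have hg : g ∈ K := by
    have : g ∈ C.X := hgen ▸ Subgroup.mem_top g
    induction this using Subgroup.closure_induction'' with
    | one => exact one_mem _
    | mem x hx' => obtain ⟨r, hr, a, rfl⟩ := hx'; exact hx r hr a
    | inv_mem x hx' => obtain ⟨r, hr, a, rfl⟩ := hx'; rw [C.x_inv hr]; exact hx r hr _
    | mul x y _ _ h1 h2 => exact mul_mem h1 h2
  simpa using hg 1 ⟨1, 1, one_mem _, 1, rep_one, 1, one_mem _, by simp⟩

theorem N_unique [Finite F] {n n' u1 u2 u1' u2' : G} {w w' : Aut ι} (hn : C.Rep n w)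
    (hn' : C.Rep n' w') (h1 : u1 ∈ C.U R.Pp) (h2 : u2 ∈ C.U R.Pp) (h1' : u1' ∈ C.U R.Pp)
    (h2' : u2' ∈ C.U R.Pp) (h : u1 * n * u2 = u1' * n' * u2') : n = n' := by
  obtain ⟨a, ha, b, hb, hab⟩ := U_split hn.mem_W (mul_mem h2 (inv_mem h2'))
  have hU := inv_mem (mul_mem (mul_mem (inv_mem h1') h1) (hn.conj_Sp ha))
  set U := (u1'⁻¹ * u1 * (n * a * n⁻¹))⁻¹ with hUdef
  have hv := hn.conj_Sn hb
  have e : n * b * n⁻¹ * (n * n'⁻¹) = U := by
    have : n' = u1'⁻¹ * u1 * n * (u2 * u2'⁻¹) := by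
      rw [mul_assoc u1'⁻¹, ← mul_assoc, mul_assoc u1'⁻¹, h]; group
    rw [this, hab, hUdef]; group
  have hw := (hn.mul hn'.inv).lu (χ := 1) hv (Pp_pos hU) (by rw [C.h_one, one_mul, e])
  have hr := hn.mul hn'.inv
  rw [hw] at hr
  obtain ⟨χ, hχ⟩ := hr.exists_h
  have hv1 := low_up (χ := χ⁻¹) hv (Pp_pos (h_conj_U χ (fun _ hr => (mem_Pp.mp hr).1) hU)) (by
    rw [C.h_inv, ← e, hχ]; group)
  rw [hv1, one_mul, hχ] at e
  have := h_eq_one (χ := χ) (e ▸ Pp_pos hU)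
  rw [← hχ] at this
  exact mul_inv_eq_one.mp this

theorem Cell.normal [Finite F] {g : G} {w : Aut ι} (h : C.Cell g w) :
    ∃ u ∈ C.U R.Pp, ∃ n, C.Rep n w ∧ ∃ u' ∈ C.U (R.Sn w), g = u * n * u' := by
  obtain ⟨u1, hu1, n, hn, u2, hu2, rfl⟩ := h
  obtain ⟨a, ha, b, hb, rfl⟩ := U_split hn.mem_W hu2
  exact ⟨_, mul_mem hu1 (hn.conj_Sp ha), n, hn, b, hb, by group⟩

theorem normal_unique {n u1 u2 u1' u2' : G} {w : Aut ι} (hn : C.Rep n w)
    (h1 : u1 ∈ C.U R.Pp) (h2 : u2 ∈ C.U (R.Sn w)) (h1' : u1' ∈ C.U R.Pp)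
    (h2' : u2' ∈ C.U (R.Sn w)) (h : u1 * n * u2 = u1' * n * u2') : u1 = u1' ∧ u2 = u2' := by
  have := low_up (χ := 1) (hn.conj_Sn (mul_mem h2 (inv_mem h2')))
    (Pp_pos (mul_mem (inv_mem h1) h1')) (by
      rw [C.h_one, one_mul, eq_inv_mul_iff_mul_eq, ← mul_assoc, ← mul_assoc, ← mul_assoc, h]
      group)
  rw [mul_inv_eq_one, mul_eq_left, mul_inv_eq_one] at this
  subst this
  exact ⟨mul_right_cancel (mul_right_cancel h), rfl⟩

theorem card_cent [Finite F] [DecidableEq F] (hgen : C.X = ⊤) (χ : Chr ι F) :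
    Nat.card (Subgroup.centralizer ({C.h χ} : Set G)) =
      (Nat.card F - 1) ^ Fintype.card ι * Nat.card F ^ #(R.Pp.filter (χ · = 1)) *
        R.poin (R.Pp.filter (χ · = 1)) (R.Wc χ) (Nat.card F) := by
  classical
  have := C.finiteG
  have hfin : Finite (Chr ι F) := Finite.of_injective _ C.h_inj
  have hσ : ∀ w : R.fin (R.Wc χ), ∃ n, C.Rep n w := fun w =>
    C.exists_rep ((mem_fin (Wc_le χ)).mp w.2).1
  choose σ hσ using hσ
  have hPΦ : ∀ r ∈ R.Pp, r ∈ R.Φ := fun _ hr => (mem_Pp.mp hr).1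
  have hSΦ : ∀ w, ∀ r ∈ R.Sn w, r ∈ R.Φ := fun _ _ hr => (mem_Sn.mp hr).1.1
  let f : (Σ w : R.fin (R.Wc χ), C.U (R.Pp.filter (χ · = 1)) × Chr ι F ×
      C.U ((R.Sn w).filter (χ · = 1))) → Subgroup.centralizer ({C.h χ} : Set G) := fun y =>
    ⟨y.2.1 * (C.h y.2.2.1 * σ y.1) * y.2.2.2, by
      rw [Subgroup.mem_centralizer_singleton_iff]
      have h1 := comm_of_U χ hPΦ y.2.1.2
      have h2 := comm_of_U χ (hSΦ _) y.2.2.2.2
      have h3 := ((hσ y.1).h_mul y.2.2.1).h_comm χ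
      rw [((mem_fin (Wc_le χ)).mp y.1.2).2] at h3
      exact (Commute.mul_right (Commute.mul_right h1 h3) h2).symm⟩
  have hf : Function.Bijective f := by
    constructor
    · rintro ⟨w, u, ψ, u'⟩ ⟨w2, u2, ψ2, u2'⟩ h
      have h : (u : G) * (C.h ψ * σ w) * u' = u2 * (C.h ψ2 * σ w2) * u2' :=
        congrArg Subtype.val h
      have m1 := U_mono (C := C) (filter_subset _ _) u.2
      have m2 := U_mono (C := C) (filter_subset _ _) u2.2
      have m3 := U_mono (C := C) (filter_subset _ _) u'.2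
      have m4 := U_mono (C := C) (filter_subset _ _) u2'.2
      have hn := N_unique ((hσ w).h_mul ψ) ((hσ w2).h_mul ψ2) m1 (Sn_le _ m3) m2 (Sn_le _ m4) h
      have hw : w = w2 := Subtype.ext (((hσ w).h_mul ψ).unique (hn ▸ (hσ w2).h_mul ψ2))
      subst hw
      have hψ := C.h_inj (mul_right_cancel hn)
      subst hψ
      obtain ⟨e1, e2⟩ := normal_unique ((hσ w).h_mul ψ) m1 m3 m2 m4 h
      rw [Subtype.ext e1, Subtype.ext e2]
    · rintro ⟨g, hg⟩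
      obtain ⟨w, hw⟩ := bruhat hgen g
      obtain ⟨u, hu, n, hn, u', hu', rfl⟩ := hw.normal
      rw [Subgroup.mem_centralizer_singleton_iff] at hg
      have c1 := h_conj_U χ hPΦ hu
      have c2 := h_conj_U χ (hSΦ w) hu'
      have c3 : C.Rep (C.h χ * n * (C.h χ)⁻¹) w := by
        rw [← C.h_inv]; exact (hn.h_mul χ).mul_h _
      have e : C.h χ * u * (C.h χ)⁻¹ * (C.h χ * n * (C.h χ)⁻¹) * (C.h χ * u' * (C.h χ)⁻¹) =
          u * n * u' := by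
        have := mul_inv_eq_iff_eq_mul.mpr hg.symm
        refine Eq.trans ?_ this
        group
      have e1 := N_unique c3 hn c1 (Sn_le _ c2) hu (Sn_le _ hu') e
      rw [e1] at e
      obtain ⟨e2, e3⟩ := normal_unique hn c1 c2 hu hu' e
      have hwc : w ∈ R.fin (R.Wc χ) := by
        refine (mem_fin (Wc_le χ)).mpr ⟨hn.mem_W, C.h_inj ?_⟩
        rw [hn.h_comm, mul_inv_eq_iff_eq_mul] at e1
        exact mul_left_cancel e1
      obtain ⟨ψ, hψ⟩ := hn.exists_h_mul (hσ ⟨w, hwc⟩)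
      exact ⟨⟨⟨w, hwc⟩, ⟨u, cent_U χ closed_Pp u hu (mul_inv_eq_iff_eq_mul.mp e2)⟩, ψ,
        ⟨u', cent_U χ (closed_Sn hn.mem_W) u' hu' (mul_inv_eq_iff_eq_mul.mp e3)⟩⟩,
        Subtype.ext (by simp only [f, ← hψ])⟩
  rw [← Nat.card_eq_of_bijective f hf, Nat.card_sigma, poin, mul_sum,
    ← sum_coe_sort (R.fin (R.Wc χ))]
  refine sum_congr rfl fun w _ => ?_
  rw [Nat.card_prod, Nat.card_prod, card_U (closed_Pp.filter χ),
    card_U ((closed_Sn ((mem_fin (Wc_le χ)).mp w.2).1).filter χ), card_Chr]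
  have : #((R.Sn w).filter (χ · = 1)) = len (R.Pp.filter (χ · = 1)) w := by
    unfold len
    congr 1
    ext r
    simp only [mem_filter, mem_Sn, mem_Pp]
    tauto
  rw [this]
  ring

end CG
end Ch
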