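import Cfsg.Agent.Ch.Weyl

/-! Poincaré polynomials of reflection subgroups by orbit chains; action on characters. -/

set_option linter.unusedSectionVars false

namespace Ch
open Finset

variable {ι : Type} [Fintype ι] [DecidableEq ι]

namespace RS
variable {R : RS ι}

variable (R) in
noncomputable def fin (H : Subgroup (Aut ι)) : Finset (Aut ι) := by
  classical exact R.finiteW.toFinset.filter (· ∈ H)

theorem mem_fin {H : Subgroup (Aut ι)} (hH : H ≤ R.W) {w : Aut ι} : w ∈ R.fin H ↔ w ∈ H := by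
  simp only [fin, mem_filter, Set.Finite.mem_toFinset, SetLike.mem_coe]
  exact ⟨fun h => h.2, fun h => ⟨hH h, h⟩⟩

theorem card_fin {H : Subgroup (Aut ι)} (hH : H ≤ R.W) : #(R.fin H) = Nat.card H := by
  rw [← Nat.card_eq_finsetCard]
  exact Nat.card_congr (Equiv.subtypeEquivRight fun w => mem_fin hH)

variable (R) in
noncomputable def poin (P : Finset (La ι)) (H : Subgroup (Aut ι)) (q : ℕ) : ℕ :=
  ∑ w ∈ R.fin H, q ^ len P w

theorem poin_one (P : Finset (La ι)) {H : Subgroup (Aut ι)} (hH : H ≤ R.W) :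
    R.poin P H 1 = Nat.card H := by
  simp [poin, card_fin hH]

theorem Sys.poin_empty {P : Finset (La ι)} (hS : R.Sys P ∅) (q : ℕ) :
    R.poin P (R.WD ∅) q = 1 := by
  classical
  have : R.fin (R.WD ∅) = {1} := by
    ext w
    rw [mem_fin hS.le_W]
    simp [WD]
  rw [poin, this, sum_singleton]
  have : len P 1 = 0 := by
    unfold len
    rw [card_eq_zero, filter_eq_empty_iff]
    intro r hr
    simpa using (hS.mem r hr).2
  rw [this, pow_zero]

theorem Sys.chain {P Δ : Finset (La ι)} (hS : R.Sys P Δ) {θ : La ι} (hθ : θ ∈ R.Φ)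
    (hdom : ∀ a ∈ Δ, 0 ≤ R.c θ a) (O : Finset (La ι))
    (hO : ∀ v, v ∈ O ↔ ∃ w ∈ R.WD Δ, w θ = v) (q : ℕ) :
    R.poin P (R.WD Δ) q = (∑ v ∈ O, q ^ #(P.filter fun r => R.c v r < 0)) *
      R.poin (P.filter (R.c θ · = 0)) (R.WD (Δ.filter (R.c θ · = 0))) q := by
  classical
  have hS' := hS.filter hdom
  set P' := P.filter (R.c θ · = 0) with hP'
  set Δ' := Δ.filter (R.c θ · = 0) with hΔ'
  have hle : R.WD Δ' ≤ R.WD Δ :=
    Subgroup.closure_mono (Set.image_mono (coe_subset.mpr (filter_subset _ _)))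
  have hfix : ∀ u ∈ R.WD Δ', u θ = θ := by
    intro u hu
    refine WD_ind hS'.subΦ (p := fun u => u θ = θ) rfl ?_ hu
    intro a ha w _ ih
    rw [LinearEquiv.mul_apply, ih, s_apply (hS'.subΦ ha),
      orth_symm hθ (hS'.subΦ ha) (mem_filter.mp ha).2]
    simp
  -- length splitting
  have hsplit : ∀ w ∈ R.WD Δ, len P w = #(P.filter fun r => R.c (w θ) r < 0) + len P' w := by
    intro w hw
    have hwW := hS.le_W hw
    unfold len
    rw [← card_filter_add_card_filter_not (s := P.filter fun r => ¬ 0 ≤ w r)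
      (fun r => R.c θ r = 0), add_comm]
    congr 1
    · refine card_nbij' (fun r => -w r) (fun r => -w⁻¹ r) ?_ ?_ (fun r _ => by simp)
        (fun r _ => by simp)
      · intro r hr
        obtain ⟨h1, h3⟩ := mem_filter.mp (mem_coe.mp hr)
        obtain ⟨h1, h2⟩ := mem_filter.mp h1
        refine mem_coe.mpr (mem_filter.mpr ⟨hS.neg_mem_of_not hw h1 h2, ?_⟩)
        have := hS.dom hdom h1
        simp only
        rw [map_neg, c_W hwW hθ]
        omega
      · intro r hr
        obtain ⟨h1, h2⟩ := mem_filter.mp (mem_coe.mp hr)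
        rw [c_W' hwW hθ] at h2
        have h3 : -w⁻¹ r ∈ P := by
          refine (hS.pm (inv_mem hw) r h1).resolve_left fun h => ?_
          have := hS.dom hdom h
          omega
        refine mem_coe.mpr (mem_filter.mpr ⟨mem_filter.mpr ⟨h3, ?_⟩, ?_⟩)
        · simp only
          rw [map_neg, apply_inv_apply]
          exact not_neg_nonneg (hS.mem r h1).1 (hS.mem r h1).2
        · simp only
          rw [map_neg]; omega
    · congr 1
      ext r
      simp only [hP', mem_filter]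
      tauto
  rw [poin, ← sum_fiberwise_of_maps_to (s := R.fin (R.WD Δ)) (t := O) (g := fun w => w θ)
    (fun w hw => (hO _).mpr ⟨w, (mem_fin hS.le_W).mp hw, rfl⟩), sum_mul]
  refine sum_congr rfl fun v hv => ?_
  obtain ⟨w0, hw0, hmin⟩ := exists_min_image ((R.fin (R.WD Δ)).filter (fun w => w θ = v))
    (len P') (by
      obtain ⟨w, hw, h⟩ := (hO v).mp hv
      exact ⟨w, mem_filter.mpr ⟨(mem_fin hS.le_W).mpr hw, h⟩⟩)
  obtain ⟨hw0, hv0⟩ := mem_filter.mp hw0
  rw [mem_fin hS.le_W] at hw0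
  have hpos : ∀ a ∈ Δ', 0 ≤ w0 a := by
    intro a ha
    by_contra hn
    have h1 := hS'.len_mul_s (hS.le_W hw0) ha hn
    have h2 := hmin (w0 * R.s a) (mem_filter.mpr ⟨(mem_fin hS.le_W).mpr
      (mul_mem hw0 (hle (s_mem_WD ha))), by
        rw [LinearEquiv.mul_apply, hfix _ (s_mem_WD ha), hv0]⟩)
    omega
  rw [poin, mul_sum]
  symm
  refine sum_nbij' (fun u => w0 * u) (fun w => w0⁻¹ * w) ?_ ?_ (fun u _ => by simp)
    (fun u _ => by simp) ?_
  · intro u hu
    rw [mem_fin hS'.le_W] at hu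
    exact mem_filter.mpr ⟨(mem_fin hS.le_W).mpr (mul_mem hw0 (hle hu)), by
      rw [LinearEquiv.mul_apply, hfix u hu, hv0]⟩
  · intro w hw
    obtain ⟨hw, hv'⟩ := mem_filter.mp hw
    rw [mem_fin hS.le_W] at hw
    rw [mem_fin hS'.le_W]
    have hm := mul_mem (inv_mem hw0) hw
    refine hS.stab hdom hm fun μ => ?_
    have : (w0⁻¹ * w) θ = θ := by rw [LinearEquiv.mul_apply, hv', ← hv0, inv_apply_apply]
    nth_rewrite 1 [← this]
    exact c_W (hS.le_W hm) hθ μ
  · intro u hu
    rw [mem_fin hS'.le_W] at hu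
    rw [hsplit _ (mul_mem hw0 (hle hu)), LinearEquiv.mul_apply, hfix u hu, hv0, pow_add]
    congr 2
    unfold len
    congr 1
    refine filter_congr fun r hr => not_congr ?_
    rw [LinearEquiv.mul_apply]
    constructor
    · intro h
      exact hS'.pos_of_gen hpos (hS'.mem_of_pos hu hr h)
    · intro h
      by_contra hn
      have := hS'.pos_of_gen hpos (hS'.neg_mem_of_not hu hr hn)
      rw [map_neg] at this
      exact not_neg_nonneg (W_mem (hS.le_W hw0) (W_mem (hS'.le_W hu) (hS'.mem r hr).1)) h this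

end RS

/-! ### characters -/

variable {F : Type*} [Field F]

abbrev Chr (ι : Type) (F : Type*) [Field F] := AddChar (La ι) F

theorem chr_ne (χ : Chr ι F) (μ : La ι) : χ μ ≠ 0 := (χ.val_isUnit μ).ne_zero

/-- `χ ∘ w`. -/
def cw (χ : Chr ι F) (w : Aut ι) : Chr ι F := χ.compAddMonoidHom w.toLinearMap.toAddMonoidHom

@[simp] theorem cw_apply (χ : Chr ι F) (w : Aut ι) (μ : La ι) : cw χ w μ = χ (w μ) := rfl

theorem chr_ext {χ ψ : Chr ι F} (h : ∀ i, χ (al i) = ψ (al i)) : χ = ψ := by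
  ext μ
  rw [eq_sum_al μ]
  induction (univ : Finset ι) using Finset.induction_on with
  | empty => simp
  | insert a s ha ih =>
    rw [sum_insert ha, AddChar.map_add_eq_mul, AddChar.map_add_eq_mul, ih,
      AddChar.map_zsmul_eq_zpow, AddChar.map_zsmul_eq_zpow, h]

/-- the character `μ ↦ a ^ f μ`. -/
def coch (f : Module.Dual ℤ (La ι)) (a : Fˣ) : Chr ι F where
  toFun μ := ((a ^ f μ : Fˣ) : F)
  map_zero_eq_one' := by simp
  map_add_eq_mul' x y := by rw [map_add, zpow_add, Units.val_mul]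

theorem coch_apply (f : Module.Dual ℤ (La ι)) (a : Fˣ) (μ : La ι) :
    coch f a μ = (a : F) ^ f μ := by
  change ((a ^ f μ : Fˣ) : F) = _
  simp

theorem chr_prod_apply {κ : Type*} (s : Finset κ) (f : κ → Chr ι F) (μ : La ι) :
    (∏ k ∈ s, f k) μ = ∏ k ∈ s, f k μ := by
  classical
  induction s using Finset.induction_on with
  | empty => simp
  | insert a s ha ih => rw [prod_insert ha, prod_insert ha, AddChar.mul_apply, ih]

/-- the character with prescribed values on the simple roots. -/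
noncomputable def mkChr (v : ι → Fˣ) : Chr ι F := ∏ i, coch (LinearMap.proj i) (v i)

theorem mkChr_al (v : ι → Fˣ) (i : ι) : mkChr v (al i) = v i := by
  rw [mkChr, chr_prod_apply, prod_eq_single i]
  · simp [coch_apply, al]
  · intro j _ hj; simp [coch_apply, al, hj]
  · simp

noncomputable def chrEquiv : Chr ι F ≃ (ι → Fˣ) where
  toFun χ i := Units.mk0 (χ (al i)) (chr_ne χ _)
  invFun := mkChr
  left_inv χ := chr_ext fun i => by simp [mkChr_al]
  right_inv v := by ext i; simp [mkChr_al]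

theorem card_Chr [Finite F] : Nat.card (Chr ι F) = (Nat.card F - 1) ^ Fintype.card ι := by
  rw [Nat.card_congr chrEquiv, Nat.card_fun, Nat.card_units, Nat.card_eq_fintype_card (α := ι)]

namespace RS
variable {R : RS ι}

theorem chr_eq_prod (χ : Chr ι F) :
    χ = ∏ i, coch (R.c (al i)) (Units.mk0 (χ (R.ω i)) (chr_ne χ _)) := by
  ext μ
  rw [chr_prod_apply]
  conv_lhs => rw [← omega_sum (R := R) μ]
  induction (univ : Finset ι) using Finset.induction_on with
  | empty => simp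
  | insert a s ha ih =>
    rw [sum_insert ha, prod_insert ha, AddChar.map_add_eq_mul, ih, AddChar.map_zsmul_eq_zpow,
      coch_apply, Units.val_mk0]

variable (R) in
/-- stabiliser of a character in `W`. -/
def Wc (χ : Chr ι F) : Subgroup (Aut ι) where
  carrier := {w | w ∈ R.W ∧ cw χ w = χ}
  one_mem' := ⟨one_mem _, rfl⟩
  mul_mem' := by
    rintro a b ⟨ha, ha'⟩ ⟨hb, hb'⟩
    refine ⟨mul_mem ha hb, ?_⟩
    ext μ
    rw [cw_apply, LinearEquiv.mul_apply, ← cw_apply, ha', ← cw_apply, hb']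
  inv_mem' := by
    rintro a ⟨ha, ha'⟩
    refine ⟨inv_mem ha, ?_⟩
    ext μ
    rw [cw_apply]
    nth_rewrite 1 [← ha']
    rw [cw_apply, apply_inv_apply]

theorem Wc_le (χ : Chr ι F) : R.Wc χ ≤ R.W := fun _ h => h.1

theorem WD_le_Wc {χ : Chr ι F} {Δ : Finset (La ι)} (hΔ : Δ ⊆ R.Φ) (h : ∀ a ∈ Δ, χ a = 1) :
    R.WD Δ ≤ R.Wc χ := by
  rw [WD, Subgroup.closure_le]
  rintro _ ⟨a, ha, rfl⟩
  refine ⟨s_mem_W (hΔ ha), ?_⟩
  ext μ
  rw [cw_apply, s_apply (hΔ ha), AddChar.map_sub_eq_div, AddChar.map_zsmul_eq_zpow, h a ha]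
  simp

theorem Wc_eq {χ : Chr ι F} {Δ : Finset (La ι)} (hΔ : Δ ⊆ R.Φ) (h : ∀ a ∈ Δ, χ a = 1)
    (O : Finset (Chr ι F)) (hO : ∀ ψ ∈ O, ∃ w ∈ R.W, cw χ w = ψ)
    (hc : Nat.card R.W ≤ #O * Nat.card (R.WD Δ)) : R.Wc χ = R.WD Δ := by
  classical
  have hfin : Finite (R.Wc χ) := (R.finiteW.subset (Wc_le χ)).to_subtype
  symm
  refine Subgroup.eq_of_le_of_card_ge (WD_le_Wc hΔ h) ?_
  have key : #O * Nat.card (R.Wc χ) ≤ Nat.card R.W := by
    rw [← card_fin (R := R) le_rfl, ← card_fin (Wc_le χ),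
      card_eq_sum_card_image (cw χ) (R.fin R.W), ← smul_eq_mul, ← sum_const]
    refine le_trans (le_of_eq (sum_congr rfl fun ψ hψ => ?_))
      (sum_le_sum_of_subset (s := O) fun ψ hψ => ?_)
    · obtain ⟨w, hw, rfl⟩ := hO ψ hψ
      refine card_nbij' (fun u => u * w) (fun u => u * w⁻¹) ?_ ?_ (fun u _ => by simp)
        (fun u _ => by simp)
      · intro u hu
        have hu := (mem_fin (Wc_le χ)).mp (mem_coe.mp hu)
        refine mem_coe.mpr (mem_filter.mpr ⟨(mem_fin le_rfl).mpr (mul_mem hu.1 hw), ?_⟩)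
        ext μ
        rw [cw_apply, LinearEquiv.mul_apply, ← cw_apply, hu.2, cw_apply]
      · intro u hu
        obtain ⟨h1, h2⟩ := mem_filter.mp (mem_coe.mp hu)
        refine mem_coe.mpr ((mem_fin (Wc_le χ)).mpr
          ⟨mul_mem ((mem_fin le_rfl).mp h1) (inv_mem hw), ?_⟩)
        ext μ
        rw [cw_apply, LinearEquiv.mul_apply, ← cw_apply, h2, cw_apply, apply_inv_apply]
    · obtain ⟨w, hw, rfl⟩ := hO ψ hψ
      exact mem_image_of_mem _ ((mem_fin le_rfl).mpr hw)
  have hW : Finite R.W := R.finiteW.to_subtype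
  have hpos : 0 < #O := by
    rcases Nat.eq_zero_or_pos #O with h0 | h0
    · rw [h0, zero_mul] at hc
      exact absurd Nat.card_pos (not_lt.mpr hc)
    · exact h0
  exact Nat.le_of_mul_le_mul_left (key.trans hc) hpos

end RS
end Ch
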