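import Cfsg.Agent.Ch.Comp
import Cfsg.Agent.Ch.Poin
import Cfsg.Prelude.Def_Chevalley

/-! Certificates for Chevalley data: the root system. -/

set_option linter.unusedSectionVars false

namespace Ch
open Finset Cfsg.Lie

noncomputable def tb (T k : ℕ) : ℤ :=
  Int.subNatNat (Nat.mod (Nat.shiftRight T (Nat.mul 8 k)) 256) 128

structure Cert where
  D : ChevalleyDatum
  rt : ℕ
  p : ℕ
  ca : ℕ
  om : ℕ
  sg : ℕ
  ky : ℕ
  s : List ℕ
  xr : List ℕ
  nr : List ℕ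

namespace Cert
variable (K : Cert)

abbrev l : ℕ := K.D.rank
abbrev n : ℕ := K.D.nroots
noncomputable def r (r i : ℕ) : ℤ := tb K.rt (Nat.add (Nat.mul K.l r) i)
noncomputable def pp (r i : ℕ) : ℤ := tb K.p (Nat.add (Nat.mul K.l r) i)
noncomputable def a (i r : ℕ) : ℤ := tb K.ca (Nat.add (Nat.mul K.n i) r)
noncomputable def w (i k : ℕ) : ℤ := tb K.om (Nat.add (Nat.mul K.l i) k)
noncomputable def si (i : ℕ) : ℕ := nth K.s i
noncomputable def σ (i r : ℕ) : ℕ :=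
  Nat.mod (Nat.shiftRight K.sg (Nat.mul 8 (Nat.add (Nat.mul K.n i) r))) 256
noncomputable def key (r : ℕ) : ℤ :=
  Int.subNatNat (Nat.mod (Nat.shiftRight K.ky (Nat.mul 40 r)) 1099511627776) 549755813888
def ng (r : ℕ) : ℕ := Nat.sub (Nat.sub K.n 1) r
def hf : ℕ := Nat.div K.n 2
noncomputable def pr (v r : ℕ) : ℤ := isum K.l fun j => Int.mul (K.pp v j) (K.r r j)

noncomputable def c0 : Bool :=
  decide (0 < K.n) &&
  (all K.n fun r => decide (K.key r = isum K.l fun i => K.r r i * 16 ^ (K.l - 1 - i))) &&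
  (all K.n fun r => decide (r + 1 < K.n → K.key r < K.key (r + 1))) &&
  (all K.n fun r => decide (K.hf ≤ r ↔ 0 < K.key r)) &&
  (all K.l fun i => decide (K.si i < K.n) && all K.l fun j =>
    decide (K.r (K.si i) j = if j = i then 1 else 0)) &&
  (all K.n fun r => decide (K.pr r r = 2)) &&
  (all K.l fun i => all K.n fun r => decide (K.a i r = K.pr (K.si i) r) &&
    decide (K.σ i r < K.n) && decide (K.hf ≤ r → r ≠ K.si i → K.hf ≤ K.σ i r) &&
    all K.l fun j => decide (K.r (K.σ i r) j = K.r r j - if j = i then K.a i r else 0) &&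
      decide (K.pp (K.σ i r) j = K.pp r j - K.pp (K.si i) j * K.pp r i)) &&
  (all K.n fun r => all K.l fun j => decide (if K.hf ≤ r then 0 ≤ K.r r j else K.r r j ≤ 0) &&
    decide (K.r (K.ng r) j = -K.r r j)) &&
  (all K.n fun r => decide (r < K.hf) || anyb K.l fun i => decide (r = K.si i ∨ 0 < K.a i r)) &&
  (all K.l fun i => all K.l fun j =>
    decide ((isum K.l fun k => K.pp (K.si j) k * K.w i k) = if j = i then 1 else 0) &&
    decide ((isum K.l fun k => K.pp (K.si k) i * K.w k j) = if j = i then 1 else 0) &&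
    decide (i ≠ j → K.pp (K.si i) j = -1 ∨ K.pp (K.si j) i = -1 ∨
      (K.pp (K.si i) j = 0 ∧ K.pp (K.si j) i = 0)))

structure OK0 : Prop where
  npos : 0 < K.n
  key_eq : ∀ r < K.n, K.key r = ∑ i : Fin K.l, K.r r i * 16 ^ (K.l - 1 - i)
  key_lt : ∀ r < K.n, r + 1 < K.n → K.key r < K.key (r + 1)
  key_pos : ∀ r < K.n, K.hf ≤ r ↔ 0 < K.key r
  si_lt : ∀ i < K.l, K.si i < K.n
  r_si : ∀ i < K.l, ∀ j < K.l, K.r (K.si i) j = if j = i then 1 else 0
  two : ∀ r < K.n, K.pr r r = 2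
  a_eq : ∀ i < K.l, ∀ r < K.n, K.a i r = K.pr (K.si i) r
  σ_lt : ∀ i < K.l, ∀ r < K.n, K.σ i r < K.n
  σ_pos : ∀ i < K.l, ∀ r < K.n, K.hf ≤ r → r ≠ K.si i → K.hf ≤ K.σ i r
  r_σ : ∀ i < K.l, ∀ r < K.n, ∀ j < K.l,
    K.r (K.σ i r) j = K.r r j - if j = i then K.a i r else 0
  p_σ : ∀ i < K.l, ∀ r < K.n, ∀ j < K.l,
    K.pp (K.σ i r) j = K.pp r j - K.pp (K.si i) j * K.pp r i
  sign : ∀ r < K.n, ∀ j < K.l, if K.hf ≤ r then 0 ≤ K.r r j else K.r r j ≤ 0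
  r_ng : ∀ r < K.n, ∀ j < K.l, K.r (K.ng r) j = -K.r r j
  desc : ∀ r < K.n, r < K.hf ∨ ∃ i < K.l, r = K.si i ∨ 0 < K.a i r
  om1 : ∀ i < K.l, ∀ j < K.l, ∑ k : Fin K.l, K.pp (K.si j) k * K.w i k = if j = i then 1 else 0
  om2 : ∀ i < K.l, ∀ j < K.l, ∑ k : Fin K.l, K.pp (K.si k) i * K.w k j = if j = i then 1 else 0
  cart : ∀ i < K.l, ∀ j < K.l, i ≠ j → K.pp (K.si i) j = -1 ∨ K.pp (K.si j) i = -1 ∨
      (K.pp (K.si i) j = 0 ∧ K.pp (K.si j) i = 0)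

variable {K}

theorem ok0 (h : K.c0 = true) : K.OK0 := by
  simp only [c0, Bool.and_eq_true, Bool.or_eq_true, all_iff, anyb_iff, decide_eq_true_eq,
    isum_eq] at h
  obtain ⟨⟨⟨⟨⟨⟨⟨⟨⟨h1, h2⟩, h3⟩, h4⟩, h5⟩, h6⟩, h7⟩, h8⟩, h9⟩, h10⟩ := h
  exact ⟨h1, h2, h3, h4, fun i hi => (h5 i hi).1, fun i hi => (h5 i hi).2, h6,
    fun i hi r hr => (h7 i hi r hr).1.1.1, fun i hi r hr => (h7 i hi r hr).1.1.2,
    fun i hi r hr => (h7 i hi r hr).1.2, fun i hi r hr j hj => ((h7 i hi r hr).2 j hj).1,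
    fun i hi r hr j hj => ((h7 i hi r hr).2 j hj).2, fun r hr j hj => (h8 r hr j hj).1,
    fun r hr j hj => (h8 r hr j hj).2, h9, fun i hi j hj => (h10 i hi j hj).1.1,
    fun i hi j hj => (h10 i hi j hj).1.2, fun i hi j hj => (h10 i hi j hj).2⟩

variable (K)

noncomputable def rv (r : ℕ) : La (Fin K.l) := fun i => K.r r i

noncomputable def kv : La (Fin K.l) →ₗ[ℤ] ℤ :=
  ∑ i : Fin K.l, (16 ^ (K.l - 1 - i) : ℤ) • LinearMap.proj i

noncomputable def cv (r : ℕ) : Module.Dual ℤ (La (Fin K.l)) :=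
  ∑ j : Fin K.l, K.pp r j • LinearMap.proj j

open Classical in
noncomputable def ix (μ : La (Fin K.l)) : ℕ :=
  if h : ∃ r < K.n, K.rv r = μ then h.choose else 0

noncomputable def Φ : Finset (La (Fin K.l)) := (range K.n).image K.rv

variable {K}

theorem mem_Φ {μ : La (Fin K.l)} : μ ∈ K.Φ ↔ ∃ r < K.n, K.rv r = μ := by simp [Φ]

theorem rv_mem {r : ℕ} (hr : r < K.n) : K.rv r ∈ K.Φ := mem_Φ.mpr ⟨r, hr, rfl⟩

theorem cv_apply (r : ℕ) (μ : La (Fin K.l)) : K.cv r μ = ∑ j : Fin K.l, K.pp r j * μ j := by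
  simp [cv]

theorem cv_rv (v r : ℕ) : K.cv v (K.rv r) = K.pr v r := by
  rw [cv_apply, pr, isum_eq]; rfl

theorem cv_al (r : ℕ) (i : Fin K.l) : K.cv r (al i) = K.pp r i := by
  simp [cv_apply, al, Pi.single_apply]

namespace OK0
variable (H : K.OK0)
include H

theorem kv_rv {r : ℕ} (hr : r < K.n) : K.kv (K.rv r) = K.key r := by
  simp [kv, H.key_eq r hr, rv, mul_comm]

theorem key_mono {r r' : ℕ} (h : r < r') (hr : r' < K.n) : K.key r < K.key r' := by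
  induction r' with
  | zero => omega
  | succ m ih =>
    have := H.key_lt m (by omega) hr
    rcases Nat.lt_succ_iff_lt_or_eq.mp h with h | h
    · exact (ih h (by omega)).trans this
    · rwa [h]

theorem key_inj {r r' : ℕ} (hr : r < K.n) (hr' : r' < K.n) (h : K.key r = K.key r') : r = r' := by
  rcases lt_trichotomy r r' with h' | h' | h'
  · exact absurd h (H.key_mono h' hr').ne
  · exact h'
  · exact absurd h (H.key_mono h' hr).ne'

theorem rv_inj {r r' : ℕ} (hr : r < K.n) (hr' : r' < K.n) (h : K.rv r = K.rv r') : r = r' :=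
  H.key_inj hr hr' (by rw [← H.kv_rv hr, ← H.kv_rv hr', h])

theorem ix_rv {r : ℕ} (hr : r < K.n) : K.ix (K.rv r) = r := by
  have h : ∃ r' < K.n, K.rv r' = K.rv r := ⟨r, hr, rfl⟩
  rw [ix, dif_pos h]
  exact H.rv_inj h.choose_spec.1 hr h.choose_spec.2

theorem ix_lt (μ : La (Fin K.l)) : K.ix μ < K.n := by
  unfold ix
  split_ifs with h
  · exact h.choose_spec.1
  · exact H.npos

theorem rv_si (i : Fin K.l) : K.rv (K.si i) = al i := by
  ext j
  simp [rv, H.r_si i i.2 j j.2, al, Pi.single_apply, Fin.ext_iff]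

theorem ng_lt (r : ℕ) : K.ng r < K.n := by
  have := H.npos
  change K.n - 1 - r < _
  omega

theorem rv_ng {r : ℕ} (hr : r < K.n) : K.rv (K.ng r) = -K.rv r := by
  ext j
  simp [rv, H.r_ng r hr j j.2]

theorem c_al (i : Fin K.l) : K.cv (K.ix (al i)) = K.cv (K.si i) := by
  rw [← H.rv_si, H.ix_rv (H.si_lt i i.2)]

theorem rv_σ (i : Fin K.l) {r : ℕ} (hr : r < K.n) :
    K.rv (K.σ i r) = K.rv r - K.cv (K.ix (al i)) (K.rv r) • al i := by
  rw [H.c_al, cv_rv, ← H.a_eq i i.2 r hr]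
  ext j
  simp [rv, H.r_σ i i.2 r hr j j.2, al, Pi.single_apply, Fin.ext_iff]

theorem rv_ne {r : ℕ} (hr : r < K.n) : K.rv r ≠ 0 := by
  intro h
  have := H.two r hr
  rw [← cv_rv, h, map_zero] at this
  exact absurd this (by decide)

theorem rv_nonneg {r : ℕ} (hr : r < K.n) : 0 ≤ K.rv r ↔ K.hf ≤ r := by
  constructor
  · intro h
    by_contra h'
    refine H.rv_ne hr (le_antisymm (fun j => ?_) h)
    have := H.sign r hr j j.2
    rwa [if_neg h'] at this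
  · intro h j
    have := H.sign r hr j j.2
    rwa [if_pos h] at this

noncomputable def rs : RS (Fin K.l) where
  Φ := K.Φ
  c μ := K.cv (K.ix μ)
  ω i j := K.w i j
  al_mem i := H.rv_si i ▸ rv_mem (H.si_lt i i.2)
  two μ hμ := by
    obtain ⟨r, hr, rfl⟩ := mem_Φ.mp hμ
    rw [H.ix_rv hr, cv_rv, H.two r hr]
  refl_mem i μ hμ := by
    obtain ⟨r, hr, rfl⟩ := mem_Φ.mp hμ
    rw [← H.rv_σ i hr]
    exact rv_mem (H.σ_lt i i.2 r hr)
  equiv i μ hμ ν := by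
    obtain ⟨r, hr, rfl⟩ := mem_Φ.mp hμ
    rw [← H.rv_σ i hr, H.ix_rv hr, H.ix_rv (H.σ_lt i i.2 r hr), map_sub, map_zsmul, cv_al,
      H.c_al, cv_apply, cv_apply, cv_apply, smul_eq_mul, sum_mul, ← sum_sub_distrib]
    refine sum_congr rfl fun j _ => ?_
    rw [H.p_σ i i.2 r hr j j.2]
    ring
  sign μ hμ := by
    obtain ⟨r, hr, rfl⟩ := mem_Φ.mp hμ
    by_cases h : K.hf ≤ r
    · exact Or.inl ((H.rv_nonneg hr).mpr h)
    · refine Or.inr fun j => ?_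
      have := H.sign r hr j j.2
      rwa [if_neg h] at this
  neg_mem μ hμ := by
    obtain ⟨r, hr, rfl⟩ := mem_Φ.mp hμ
    rw [← H.rv_ng hr]
    exact rv_mem (H.ng_lt r)
  pos_refl i μ hμ h0 hne := by
    obtain ⟨r, hr, rfl⟩ := mem_Φ.mp hμ
    rw [← H.rv_σ i hr, H.rv_nonneg (H.σ_lt i i.2 r hr)]
    exact H.σ_pos i i.2 r hr ((H.rv_nonneg hr).mp h0) fun h => hne (by rw [h, H.rv_si])
  descent μ hμ h0 := by
    obtain ⟨r, hr, rfl⟩ := mem_Φ.mp hμ
    obtain ⟨i, hi, h⟩ := (H.desc r hr).resolve_left (not_lt.mpr ((H.rv_nonneg hr).mp h0))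
    rcases h with h | h
    · exact Or.inl ⟨⟨i, hi⟩, by rw [h, ← H.rv_si]⟩
    · exact Or.inr ⟨⟨i, hi⟩, by rwa [H.c_al, cv_rv, ← H.a_eq i hi r hr]⟩
  omega i j := by
    rw [H.c_al, cv_apply, H.om1 i i.2 j j.2]
    simp [Fin.ext_iff]
  omega_span j := by
    ext k
    have := H.om2 j j.2 k k.2
    simp only [H.c_al, cv_al, Finset.sum_apply, Pi.smul_apply, smul_eq_mul, this]
    simp only [al, Pi.single_apply, Fin.ext_iff]
  cartan i j hij := by
    simp only [H.c_al, cv_al]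
    exact H.cart i i.2 j j.2 fun h => hij (Fin.ext h)

theorem rs_c {v : ℕ} (hv : v < K.n) (r : ℕ) : H.rs.c (K.rv v) (K.rv r) = K.pr v r := by
  change K.cv (K.ix _) _ = _
  rw [H.ix_rv hv, cv_rv]

theorem rs_s (i : Fin K.l) {r : ℕ} (hr : r < K.n) :
    H.rs.s (al i) (K.rv r) = K.rv (K.σ i r) := by
  rw [RS.s_apply (H.rs.al_mem i), H.rv_σ i hr]; rfl

theorem eq_of_key {μ : La (Fin K.l)} (hμ : μ ∈ K.Φ) {r : ℕ} (hr : r < K.n)
    (h : K.kv μ = K.key r) : μ = K.rv r := by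
  obtain ⟨r', hr', rfl⟩ := mem_Φ.mp hμ
  rw [H.kv_rv hr'] at h
  rw [H.key_inj hr' hr h]

theorem nonneg_of_key {μ : La (Fin K.l)} (hμ : μ ∈ K.Φ) (h : 0 < K.kv μ) : 0 ≤ μ := by
  obtain ⟨r, hr, rfl⟩ := mem_Φ.mp hμ
  rw [H.kv_rv hr] at h
  exact (H.rv_nonneg hr).mpr ((H.key_pos r hr).mpr h)

end OK0
end Cert
end Ch
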