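import Cfsg.Agent.Ch.SL2
import Cfsg.Agent.L.Invol

/-! Involutions of a Chevalley group in odd characteristic are conjugate into the torus. -/

set_option linter.unusedSectionVars false

namespace Ch
open Finset

variable {ι : Type} [Fintype ι] [DecidableEq ι]

namespace CG
open RS
variable {R : RS ι} {F : Type*} [Field F] {I : Type} [Fintype I] [DecidableEq I]
  {G : Type*} [Group G] {C : CG R F I G}

theorem Cell.conj_N [Finite F] (hF : Odd (Nat.card F)) {g : G} {w : Aut ι} (h : C.Cell g w)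
    (hg : g * g = 1) : ∃ n, C.Rep n w ∧ n * n = 1 ∧ IsConj g n := by
  have := C.finiteG
  obtain ⟨u1, hu1, n, hn, u2, hu2, rfl⟩ := h
  have hu := mul_mem hu2 hu1
  have h1 : n * (u2 * u1) * (n * (u2 * u1)) = 1 := by
    have : n * (u2 * u1) * (n * (u2 * u1)) = u1⁻¹ * (u1 * n * u2 * (u1 * n * u2)) * u1 := by group
    rw [this, hg]; simp
  have h2 : n = n⁻¹ := N_unique hn hn.inv hu hu (one_mem _) (one_mem _) (by
    rw [one_mul, mul_one, eq_inv_iff_mul_eq_one, mul_eq_one_comm, ← h1]; group)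
  have h3 : n * n = 1 := by nth_rewrite 2 [h2]; simp
  have hodd : Odd (orderOf (n * (n * (u2 * u1)))) := by
    rw [← mul_assoc, h3, one_mul]
    refine Odd.of_dvd_nat ?_ (Subgroup.orderOf_dvd_natCard _ hu)
    rw [card_U closed_Pp]
    exact hF.pow
  obtain ⟨k, hk1, hk2⟩ := Cfsg.Agent.L.exists_invol_conj_of_odd h3 h1 hodd
  refine ⟨n, hn, h3, IsConj.trans (b := n * (u2 * u1)) ?_ (IsConj.symm ?_)⟩
  · exact isConj_iff.mpr ⟨u1⁻¹, by group⟩
  · exact isConj_iff.mpr ⟨_, by rw [inv_eq_of_mul_eq_one_right hk1]; exact hk2⟩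

theorem Rep.swap {n : G} (hn : n * n = 1) {r : La ι} {κ : F} (hκ : κ ≠ 0)
    (h : ∀ a, n * C.x r a = C.x (-r) (κ * a) * n) (a : F) :
    n * C.x (-r) a = C.x r (κ⁻¹ * a) * n := by
  have := h (κ⁻¹ * a)
  rw [mul_inv_cancel_left₀ hκ] at this
  have e : n * (n * C.x r (κ⁻¹ * a)) * n = n * (C.x (-r) a * n) * n := by rw [this]
  rw [← mul_assoc, hn, one_mul, mul_assoc, mul_assoc, hn, mul_one] at e
  exact e.symm

theorem Rep.shorten {n : G} {w : Aut ι} (h : C.Rep n w) (hn : n * n = 1) (i : ι) {c : F}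
    (hc : c ≠ 0) (hx : ∀ a, n * C.x (al i) a = C.x (-al i) (c ^ 2 * a) * n) :
    ∃ g, IsConj n g ∧ C.Cell g (R.s (al i) * w) := by
  refine ⟨_, isConj_iff.mpr ⟨C.x (-al i) c, rfl⟩, _, x_mem_U (al_mem_Pp i) (-(-c)⁻¹), _,
    ((rep_n i).mul h).h_mul (coch (R.c (al i)) (Units.mk0 (-c) (neg_ne_zero.mpr hc))⁻¹),
    1, one_mem _, ?_⟩
  rw [C.x_inv (R.neg_mem _ (R.al_mem i)), mul_assoc, Rep.swap hn (pow_ne_zero 2 hc) hx]
  have := x_neg_eq (C := C) i (neg_ne_zero.mpr hc)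
  rw [neg_neg] at this
  rw [this, mul_assoc, ← mul_assoc (C.x _ _) (C.x _ _) n, ← C.x_add _ (R.al_mem i)]
  have : -(-c)⁻¹ + (c ^ 2)⁻¹ * -c = 0 := by field_simp; ring
  rw [this, C.x_zero (R.al_mem i)]
  group

theorem Rep.adj [Finite F] (hF : Odd (Nat.card F)) {n : G} {w : Aut ι} (h : C.Rep n w)
    (hn : n * n = 1) {i j : ι} (hi : w (al i) = -al i) (hj : w (al j) = -al j)
    (hij : R.c (al i) (al j) = -1) :
    ∃ g, IsConj n g ∧ C.Cell g (R.s (al j) * w) := by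
  obtain ⟨κ, hκ, hx⟩ := h.x _ (R.al_mem i)
  obtain ⟨κ', hκ', hx'⟩ := h.x _ (R.al_mem j)
  rw [hi] at hx
  rw [hj] at hx'
  obtain ⟨φ, _, h1, h2, h3⟩ := C.exists_phi i
  have key : ∀ m, n * φ m * n⁻¹ = φ (tw (Units.mk0 κ hκ) m) := by
    refine SL2_ext (φ := (MulAut.conj n).toMonoidHom.comp φ) (ψ := φ.comp (tw _))
      (fun a => ?_) (fun a => ?_)
    · change n * φ _ * n⁻¹ = φ (tw _ _)
      rw [tw_up, h1, h2, hx, mul_inv_cancel_right, Units.val_mk0]
    · change n * φ _ * n⁻¹ = φ (tw _ _)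
      rw [tw_lo, h1, h2, Rep.swap hn hκ hx, mul_inv_cancel_right, Units.val_mk0]
  obtain ⟨y, hy⟩ := exists_tw hF (Units.mk0 κ hκ) (Units.mk0 κ' hκ')
  have e : φ y * n * (φ y)⁻¹ = C.h (coch (R.c (al i)) (Units.mk0 κ' hκ')) * n := by
    rw [← h3, ← hy, map_mul, map_inv, ← key]; group
  obtain ⟨g, hg, hc⟩ := (h.h_mul (coch (R.c (al i)) (Units.mk0 κ' hκ'))).shorten (by
    rw [← e, conj_mul, hn]; simp) j hκ' (fun a => by
    rw [mul_assoc, hx', ← mul_assoc, C.h_x _ _ (R.neg_mem _ (R.al_mem j)), coch_apply, map_neg,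
      hij, mul_assoc, ← mul_assoc _ κ', pow_two]
    simp)
  exact ⟨g, (isConj_iff.mpr ⟨_, e⟩).trans hg, hc⟩

theorem not_root {i j : ι} (hij : i ≠ j) (h : R.c (al i) (al j) = 0) {p q : ℤ} (hp : p ≠ 0)
    (hq : q ≠ 0) : p • al i + q • al j ∉ R.Φ := by
  intro ht
  have key : ∀ p : ℤ, p • al i + q • al j ∈ R.Φ → 0 ≤ p * q := by
    intro p ht
    rcases R.sign _ ht with h | h
    · have h1 := h i
      have h2 := h j
      simp [al, hij, hij.symm] at h1 h2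
      positivity
    · have h1 := h i
      have h2 := h j
      simp [al, hij, hij.symm] at h1 h2
      exact mul_nonneg_of_nonpos_of_nonpos h1 h2
  have h2 := R.refl_mem i _ ht
  rw [map_add, map_zsmul, map_zsmul, h, R.two _ (R.al_mem i)] at h2
  have h3 := key (-p) (by convert h2 using 1; simp only [smul_eq_mul]; module)
  have h4 := key p ht
  exact mul_ne_zero hp hq (by linarith)

theorem commute_of_no {r s : La ι} (hr : r ∈ R.Φ) (hs : s ∈ R.Φ) (h1 : s ≠ r) (h2 : s ≠ -r)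
    (h : ∀ i j : ℕ, 0 < i → 0 < j → i • r + j • s ∉ R.Φ) (a b : F) :
    Commute (C.x r a) (C.x s b) := by
  have := good (C := C) hr s hs h1 h2 a b
  have e : commSet R C.x r s = ∅ := by
    rw [Set.eq_empty_iff_forall_notMem]
    rintro _ ⟨t, ht, i, j, hi, hj, rfl, _⟩
    exact h i j hi hj ht
  rw [e, Subgroup.closure_empty, Subgroup.mem_bot] at this
  exact commutatorElement_eq_one_iff_commute.mp this

theorem orth_comm {i j : ι} (hij : i ≠ j) (h : R.c (al i) (al j) = 0) {r s : La ι}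
    (hr : r = al i ∨ r = -al i) (hs : s = al j ∨ s = -al j) (a b : F) :
    Commute (C.x r a) (C.x s b) := by
  obtain ⟨p, hp, hp2, rfl⟩ : ∃ p : ℤ, p ≠ 0 ∧ p • al i ∈ R.Φ ∧ r = p • al i := by
    rcases hr with rfl | rfl
    · exact ⟨1, one_ne_zero, by simpa using R.al_mem i, by simp⟩
    · exact ⟨-1, by simp, by simpa using R.neg_mem _ (R.al_mem i), by simp⟩
  obtain ⟨q, hq, hq2, rfl⟩ : ∃ q : ℤ, q ≠ 0 ∧ q • al j ∈ R.Φ ∧ s = q • al j := by
    rcases hs with rfl | rfl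
    · exact ⟨1, one_ne_zero, by simpa using R.al_mem j, by simp⟩
    · exact ⟨-1, by simp, by simpa using R.neg_mem _ (R.al_mem j), by simp⟩
  refine commute_of_no hp2 hq2 (fun h => hq ?_) (fun h => hq ?_) (fun k l hk hl ht => ?_) a b
  · simpa [al, hij.symm] using congrFun h j
  · simpa [al, hij.symm] using congrFun h j
  · refine not_root hij h (p := k * p) (q := l * q) (mul_ne_zero (by omega) hp)
      (mul_ne_zero (by omega) hq) ?_
    rwa [mul_smul, mul_smul, natCast_zsmul, natCast_zsmul]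

theorem orth_prod (J : Finset ι) (hJ : ∀ i ∈ J, ∀ j ∈ J, i ≠ j → R.c (al i) (al j) = 0)
    (K : Finset ι) (hK : K ⊆ J) : ∃ m v, C.Rep m v ∧
      (∀ μ, v μ = μ - ∑ j ∈ K, R.c (al j) μ • al j) ∧
      (∀ γ ∈ R.Φ, 0 ≤ γ → (∀ j ∈ K, γ ≠ al j) → 0 ≤ v γ) ∧
      (∀ j ∈ J, j ∉ K → ∀ r, (r = al j ∨ r = -al j) → ∀ a, Commute m (C.x r a)) ∧
      (∀ j ∈ K, ∀ a, m * C.x (al j) a = C.x (-al j) (-a) * m) ∧
      m * m = C.h (∏ j ∈ K, coch (R.c (al j)) (-1)) := by
  induction K using Finset.induction_on with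
  | empty => exact ⟨1, 1, rep_one, by simp, fun γ _ h _ => h, by simp, by simp, by simp [C.h_one]⟩
  | insert k K hk ih =>
    obtain ⟨m, v, h1, h2, h3, h4, h5, h6⟩ := ih ((subset_insert _ _).trans hK)
    have hkJ : k ∈ J := hK (mem_insert_self _ _)
    have hKJ : ∀ j ∈ K, j ∈ J := fun j hj => hK (mem_insert_of_mem hj)
    have hn : ∀ j ∈ J, j ≠ k → ∀ r, (r = al j ∨ r = -al j) → ∀ a, Commute (C.n k) (C.x r a) := by
      intro j hj hjk r hr a
      have := fun s hs b => orth_comm (C := C) hjk.symm (hJ k hkJ j hj hjk.symm) (r := s) hs hr b a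
      exact ((this _ (Or.inl rfl) _).mul_left (this _ (Or.inr rfl) _)).mul_left
        (this _ (Or.inl rfl) _)
    have hvk : v (al k) = al k := by
      rw [h2, sum_eq_zero, sub_zero]
      intro j hj
      rw [hJ j (hKJ j hj) k hkJ (fun h => hk (h ▸ hj)), zero_smul]
    refine ⟨_, _, (rep_n k).mul h1, fun μ => ?_, fun γ hγ h0 hne => ?_, fun j hj hjk r hr a => ?_,
      fun j hj a => ?_, ?_⟩
    · rw [LinearEquiv.mul_apply, s_apply (R.al_mem k), h2, sum_insert hk, map_sub, map_sum,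
        sum_eq_zero (s := K) (f := fun j => R.c (al k) (R.c (al j) μ • al j))]
      · rw [sub_zero]; abel
      · intro j hj
        rw [map_zsmul, hJ k hkJ j (hKJ j hj) (fun h => hk (h ▸ hj)), smul_zero]
    · rw [LinearEquiv.mul_apply, s_apply (R.al_mem k)]
      refine R.pos_refl k _ (W_mem h1.mem_W hγ)
        (h3 γ hγ h0 fun j hj => hne j (mem_insert_of_mem hj)) fun h => ?_
      exact hne k (mem_insert_self _ _) (v.injective (h.trans hvk.symm))
    · rw [mem_insert, not_or] at hjk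
      exact (hn j hj hjk.1 r hr a).mul_left (h4 j hj hjk.2 r hr a)
    · rcases mem_insert.mp hj with rfl | hj
      · rw [mul_assoc, h4 j hkJ hk _ (Or.inl rfl), ← mul_assoc, ← mul_assoc]
        congr 1
        exact C.n_al j a
      · rw [mul_assoc, h5 j hj, ← mul_assoc,
          hn j (hKJ j hj) (fun h => hk (h ▸ hj)) _ (Or.inr rfl), mul_assoc]
    · have : Commute m (C.n k) :=
        ((h4 k hkJ hk _ (Or.inl rfl) _).mul_right (h4 k hkJ hk _ (Or.inr rfl) _)).mul_right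
          (h4 k hkJ hk _ (Or.inl rfl) _)
      rw [prod_insert hk, C.h_mul, ← h6, ← (C.rk1 k).ww, mul_assoc, ← mul_assoc m, this]
      group

theorem Rep.orth {n : G} {w : Aut ι} (h : C.Rep n w) (hn : n * n = 1)
    (hw : ∀ j, ¬ 0 ≤ w (al j) → w (al j) = -al j)
    (ho : ∀ i j, ¬ 0 ≤ w (al i) → ¬ 0 ≤ w (al j) → i ≠ j → R.c (al i) (al j) = 0)
    {i : ι} (hi : ¬ 0 ≤ w (al i)) : ∃ g, IsConj n g ∧ C.Cell g (R.s (al i) * w) := by
  classical
  set J := univ.filter fun j => ¬ 0 ≤ w (al j) with hJ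
  have mJ : ∀ j, j ∈ J ↔ ¬ 0 ≤ w (al j) := fun j => by simp [hJ]
  have hJo : ∀ i ∈ J, ∀ j ∈ J, i ≠ j → R.c (al i) (al j) = 0 :=
    fun i hi j hj => ho i j ((mJ i).mp hi) ((mJ j).mp hj)
  obtain ⟨m, v, h1, h2, h3, -, h5, h6⟩ := orth_prod (C := C) J hJo J subset_rfl
  have hww : w * w = 1 := (h.mul h).unique (hn ▸ rep_one)
  have hvv : v * v = 1 := (h1.mul h1).unique (h6 ▸ rep_h _)
  have hvw : v * w = 1 := by
    refine sys0.eq_one (mul_mem h1.mem_W h.mem_W) fun a ha => ?_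
    obtain ⟨j, rfl⟩ := mem_Δ0.mp ha
    rw [LinearEquiv.mul_apply]
    by_cases hj : 0 ≤ w (al j)
    · refine h3 _ (W_mem h.mem_W (R.al_mem j)) hj fun k hk hjk => ?_
      have := congrArg w hjk
      rw [← LinearEquiv.mul_apply, hww, hw k ((mJ k).mp hk)] at this
      exact not_neg_nonneg (R.al_mem k) (al_nonneg k) (this ▸ al_nonneg j)
    · rw [hw j hj, map_neg, h2, sum_eq_single j, R.two _ (R.al_mem j)]
      · have : -(al j - (2 : ℤ) • al j) = al j := by module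
        rw [this]; exact al_nonneg j
      · intro k hk hkj
        rw [hJo k hk j ((mJ j).mpr hj) hkj, zero_smul]
      · exact fun h => absurd ((mJ j).mpr hj) h
  have hwv : w = v := mul_left_cancel (hvw.trans hvv.symm)
  subst hwv
  obtain ⟨χ, rfl⟩ := h.exists_h_mul h1
  have e : C.h (χ * (∏ j ∈ J, coch (R.c (al j)) (-1)) * cw χ w) = C.h 1 := by
    rw [C.h_one, ← hn, C.h_mul, C.h_mul, ← h6, mul_assoc, mul_assoc m, ← h1.h_comm χ]
    group
  have e2 := congrArg (fun χ : Chr ι F => χ (R.ω i)) (C.h_inj e)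
  have hiJ := (mJ i).mpr hi
  simp only [AddChar.mul_apply, chr_prod_apply, coch_apply, R.omega, cw_apply, h2,
    AddChar.one_apply] at e2
  rw [prod_eq_single i (by intro b _ hb; simp [hb]) (fun h => absurd hiJ h),
    sum_eq_single i (by intro b _ hb; simp [hb]) (fun h => absurd hiJ h),
    AddChar.map_sub_eq_div] at e2
  simp only [if_true, zpow_one, one_smul, Units.val_neg, Units.val_one] at e2
  refine h.shorten hn i (inv_ne_zero (chr_ne χ (R.ω i))) fun a => ?_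
  rw [mul_assoc, h5 i hiJ, ← mul_assoc, C.h_x _ _ (R.neg_mem _ (R.al_mem i)), mul_assoc,
    AddChar.map_neg_eq_inv]
  congr 2
  have := chr_ne χ (R.ω i)
  have := chr_ne χ (al i)
  field_simp at e2 ⊢
  linear_combination a * e2

theorem cell_conj [Finite F] (hF : Odd (Nat.card F)) (k : ℕ) : ∀ {g : G} {w : Aut ι},
    len R.Pp w ≤ k → C.Cell g w → g * g = 1 → ∃ χ, IsConj g (C.h χ) := by
  induction k using Nat.strong_induction_on with
  | _ k ih =>
  intro g w hk hc hg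
  obtain ⟨n, h, hn, hgn⟩ := hc.conj_N hF hg
  have hww : w * w = 1 := (h.mul h).unique (hn ▸ rep_one)
  have fin : ∀ g' w', IsConj n g' → C.Cell g' w' → len R.Pp w' < len R.Pp w →
      ∃ χ, IsConj g (C.h χ) := by
    intro g' w' h1 h2 h3
    obtain ⟨χ, hχ⟩ := ih _ (lt_of_lt_of_le h3 hk) le_rfl h2 (by
      obtain ⟨y, rfl⟩ := isConj_iff.mp h1
      rw [conj_mul, hn]; simp)
    exact ⟨χ, (hgn.trans h1).trans hχ⟩
  have hl : ∀ i, ¬ 0 ≤ w (al i) → len R.Pp (R.s (al i) * w) < len R.Pp w := by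
    intro i hi
    have := sys0.len_mul_s h.mem_W (mem_Δ0.mpr ⟨i, rfl⟩) hi
    rw [← len_inv (mul_mem (s_al_mem i) h.mem_W), mul_inv_rev, s_inv (R.al_mem i),
      inv_eq_of_mul_eq_one_right hww]
    omega
  by_cases h1 : ∀ i, 0 ≤ w (al i)
  · have : w = 1 := sys0.eq_one h.mem_W fun a ha => by
      obtain ⟨j, rfl⟩ := mem_Δ0.mp ha; exact h1 j
    subst this
    obtain ⟨χ, rfl⟩ := h.exists_h
    exact ⟨χ, hgn⟩
  by_cases h2 : ∀ j, ¬ 0 ≤ w (al j) → w (al j) = -al j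
  swap
  · push Not at h2
    obtain ⟨i, hi, hi2⟩ := h2
    have hr := ((rep_n i).mul h).mul (rep_n i).inv
    refine fin _ _ (isConj_iff.mpr ⟨C.n i, rfl⟩) ⟨1, one_mem _, _, hr, 1, one_mem _, by simp⟩ ?_
    have hΦ := W_mem h.mem_W (R.al_mem i)
    have := sys0.len_mul_s (mul_mem (s_al_mem i) h.mem_W) (mem_Δ0.mpr ⟨i, rfl⟩) (by
      intro h'
      apply not_neg_nonneg (W_mem (mul_mem (s_al_mem i) h.mem_W) (R.al_mem i)) h'
      rw [LinearEquiv.mul_apply, ← map_neg, s_apply (R.al_mem i)]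
      exact R.pos_refl i _ (R.neg_mem _ hΦ) (neg_nonneg_of_not hΦ hi)
        fun h => hi2 (neg_eq_iff_eq_neg.mp h))
    have := hl i hi
    rw [s_inv (R.al_mem i)]
    omega
  by_cases h3 : ∃ i j, ¬ 0 ≤ w (al i) ∧ ¬ 0 ≤ w (al j) ∧ R.c (al i) (al j) = -1
  · obtain ⟨i, j, hi, hj, hij⟩ := h3
    obtain ⟨g', e1, e2⟩ := h.adj hF hn (h2 i hi) (h2 j hj) hij
    exact fin _ _ e1 e2 (hl j hj)
  push Not at h1
  obtain ⟨i, hi⟩ := h1
  obtain ⟨g', e1, e2⟩ := h.orth hn h2 (fun i j hi hj hij => by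
    rcases R.cartan i j hij with h | h | h
    · exact absurd ⟨i, j, hi, hj, h⟩ h3
    · exact absurd ⟨j, i, hj, hi, h⟩ h3
    · exact h.1) hi
  exact fin _ _ e1 e2 (hl i hi)

theorem invol_conj [Finite F] (hF : Odd (Nat.card F)) (hgen : C.X = ⊤) {g : G}
    (hg : g * g = 1) : ∃ χ, χ * χ = 1 ∧ IsConj g (C.h χ) := by
  obtain ⟨w, hw⟩ := bruhat hgen g
  obtain ⟨χ, hχ⟩ := cell_conj hF _ le_rfl hw hg
  refine ⟨χ, C.h_inj ?_, hχ⟩
  obtain ⟨y, hy⟩ := isConj_iff.mp hχ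
  rw [C.h_mul, C.h_one, ← hy, conj_mul, hg]; simp

theorem conj_cw (χ : Chr ι F) {w : Aut ι} (hw : w ∈ R.W) : IsConj (C.h (cw χ w)) (C.h χ) := by
  obtain ⟨n, hn⟩ := C.exists_rep hw
  exact isConj_iff.mpr ⟨n, by rw [← hn.h_comm, mul_inv_cancel_right]⟩

end CG
end Ch
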