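import Cfsg.Agent.Ch.Inst2
import Cfsg.Agent.Ch.Invol

/-! Certified orbit chains and classes of involutions. -/

set_option linter.unusedSectionVars false

namespace Ch
open Finset Cfsg.Lie

theorem RS.sys_of {ι : Type} [Fintype ι] [DecidableEq ι] {R : RS ι} {P Δ : Finset (La ι)}
    (sub : Δ ⊆ P) (mem : ∀ r ∈ P, r ∈ R.Φ ∧ 0 ≤ r) (perm : ∀ a ∈ Δ, ∀ r ∈ P, r ≠ a → R.s a r ∈ P)
    (desc : ∀ r ∈ P, r ∈ Δ ∨ ∃ a ∈ Δ, 0 < R.c a r) : R.Sys P Δ := by
  refine ⟨sub, mem, perm, fun r hr => ?_⟩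
  obtain ⟨n, hn⟩ : ∃ n : ℕ, ht r ≤ n := ⟨(ht r).toNat, Int.self_le_toNat _⟩
  induction n generalizing r with
  | zero => exact absurd (ht_pos (mem r hr).2 (RS.ne_zero (mem r hr).1)) (by simpa using hn)
  | succ n ih =>
    by_cases h : r ∈ Δ
    · exact AddSubmonoid.subset_closure h
    obtain ⟨a, ha, hc⟩ := (desc r hr).resolve_left h
    have haΦ := mem a (sub ha)
    have h1 := ih _ (perm a ha r hr fun h' => h (h' ▸ ha)) (by
      rw [RS.s_apply haΦ.1, ht_sub, ht_zsmul]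
      have := ht_pos haΦ.2 (RS.ne_zero haΦ.1)
      push_cast at hn
      nlinarith)
    obtain ⟨m, hm⟩ := Int.eq_ofNat_of_zero_le hc.le
    have : r = R.s a r + m • a := by rw [RS.s_apply haΦ.1, hm]; simp
    rw [this]
    exact add_mem h1 (AddSubmonoid.nsmul_mem _ (AddSubmonoid.subset_closure ha) _)

noncomputable def mask (O : List ℕ) : ℕ :=
  List.rec 0 (fun v _ ih => Nat.lor (Nat.shiftLeft 1 v) ih) O

theorem testBit_mask (O : List ℕ) (v : ℕ) : (mask O).testBit v = true ↔ v ∈ O := by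
  induction O with
  | nil => simp [mask]
  | cons a O ih =>
    have : mask (a :: O) = 1 <<< a ||| mask O := rfl
    rw [this, Nat.testBit_or, Nat.one_shiftLeft, Bool.or_eq_true, ih, Nat.testBit_two_pow]
    simp [eq_comm]

namespace Cert
variable (K : Cert)

noncomputable def find (t : ℤ) : ℕ :=
  Nat.rec (motive := fun _ => ℕ → ℕ → ℕ) (fun lo _ => lo)
    (fun _ ih lo hi => Nat.rec lo (fun m _ => Bool.rec (ih lo m) (ih m hi)
      (inn (Int.sub t (K.key m)))) (Nat.succ (Nat.div (Nat.add lo hi) 2))) 8 0 K.n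

noncomputable def rk (a v : ℕ) : ℤ := Int.sub (K.key v) (Int.mul (K.pr a v) (K.key a))
noncomputable def rf (a v : ℕ) : ℕ := K.find (K.rk a v)

noncomputable def reach (Δ : List ℕ) (θ : ℕ) (O : List ℕ) : Bool :=
  List.rec true (fun v tl ih => band (band (Nat.blt v K.n) (band (!(mask tl).testBit v)
    (bor (Nat.beq v θ) (Δ.any fun a => (mask tl).testBit (K.rf a v))))) ih) O

noncomputable def orb (Δ : List ℕ) (θ : ℕ) (O : List ℕ) : Bool :=
  (mask O).testBit θ && (Δ.all fun a => inn (K.pr θ a)) &&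
  (O.all fun v => Δ.all fun a => band (ibeq (K.key (K.rf a v)) (K.rk a v))
    ((mask O).testBit (K.rf a v))) && K.reach Δ θ O

noncomputable def chainOK (st : List (ℕ × List ℕ)) : List ℕ → Bool :=
  List.rec (fun Δ => Δ.isEmpty) (fun e _ ih Δ => band (K.orb Δ e.1 e.2)
    (ih (Δ.filter fun a => ibeq (K.pr e.1 a) 0))) st

noncomputable def exps (st : List (ℕ × List ℕ)) : List ℕ → List (List ℕ) :=
  List.rec (fun _ => []) (fun e _ ih P => (e.2.map fun v => P.countP fun r => !inn (K.pr v r)) ::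
    ih (P.filter fun a => ibeq (K.pr e.1 a) 0)) st

noncomputable def toF (L : List ℕ) : Finset (La (Fin K.l)) := (L.map K.rv).toFinset

noncomputable def bz (m i : ℕ) : ℤ := if m.testBit i then 1 else 0

noncomputable def fm (m : ℕ) : Module.Dual ℤ (La (Fin K.l)) :=
  ∑ i : Fin K.l, bz m i • LinearMap.proj i

noncomputable def par (m r : ℕ) : ℤ := isum K.l fun i => bz m i * K.r r i

noncomputable def Pm (m : ℕ) : List ℕ :=
  (List.range K.n).filter fun r => decide (K.hf ≤ r) && decide (K.par m r % 2 = 0)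

noncomputable def sysOK (P Δ : List ℕ) : Bool :=
  (Δ.all fun a => decide (a ∈ P)) &&
  (Δ.all fun a => P.all fun r => decide (r = a ∨ 0 < K.rk a r)) &&
  P.all fun r => decide (r ∈ Δ) || Δ.any fun a => decide (0 < K.pr a r)

noncomputable def act (j m : ℕ) : ℕ :=
  if m.testBit j then m ^^^ (isum K.l fun i => (K.pp (K.si j) i % 2) * 2 ^ i).toNat else m

noncomputable def okact (j m m' : ℕ) : Bool :=
  all K.l fun i => decide ((bz m i - K.pp (K.si j) i * bz m j - bz m' i) % 2 = 0)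

noncomputable def creach (m0 : ℕ) (O : List ℕ) : Bool :=
  List.rec true (fun m tl ih => band (band (decide (m < 2 ^ K.l)) (band (!(mask tl).testBit m)
    (bor (Nat.beq m m0) (anyb K.l fun j => band ((mask tl).testBit (K.act j m))
      (K.okact j (K.act j m) m))))) ih) O

noncomputable def Δ0 : List ℕ := (List.range K.l).map K.si

def lens (st : List (ℕ × List ℕ)) : ℕ := (st.map fun e => e.2.length).prod

variable {F : Type*} [Field F]

noncomputable def chi (m : ℕ) : Chr (Fin K.l) F := coch (K.fm m) (-1)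

variable {K}

theorem mem_toF {L : List ℕ} {μ : La (Fin K.l)} : μ ∈ K.toF L ↔ ∃ r ∈ L, K.rv r = μ := by
  simp [toF]

theorem fm_al (m : ℕ) (i : Fin K.l) : K.fm m (al i) = bz m i := by
  simp [fm, al, Pi.single_apply]

theorem fm_rv (m r : ℕ) : K.fm m (K.rv r) = K.par m r := by
  simp [fm, par, isum_eq, rv]

theorem chi_eq_one (h2 : (2 : F) ≠ 0) (m : ℕ) (μ : La (Fin K.l)) :
    (K.chi m : Chr _ F) μ = 1 ↔ K.fm m μ % 2 = 0 := by
  have hne : (-1 : F) ≠ 1 := fun h => h2 (by linear_combination -h)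
  rw [chi, coch_apply, Units.val_neg, Units.val_one, ← Int.even_iff]
  refine ⟨fun h => ?_, fun h => h.neg_one_zpow⟩
  by_contra h'
  rw [(Int.not_even_iff_odd.mp h').neg_one_zpow] at h
  exact hne h

theorem chi_al (m : ℕ) (i : Fin K.l) :
    (K.chi m : Chr _ F) (al i) = if m.testBit i then -1 else 1 := by
  rw [chi, coch_apply, fm_al, bz]
  split_ifs <;> simp

theorem chi_mul_self (m : ℕ) : (K.chi m : Chr _ F) * K.chi m = 1 := by
  rw [chi, ← CG.coch_mul]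
  ext μ
  simp [coch_apply]

theorem chi_inj (h2 : (2 : F) ≠ 0) {m m' : ℕ} (hm : m < 2 ^ K.l) (hm' : m' < 2 ^ K.l)
    (h : (K.chi m : Chr _ F) = K.chi m') : m = m' := by
  have hne : (-1 : F) ≠ 1 := fun h => h2 (by linear_combination -h)
  refine Nat.eq_of_testBit_eq fun i => ?_
  by_cases hi : i < K.l
  · have := congrArg (fun χ : Chr _ F => χ (al ⟨i, hi⟩)) h
    simp only [chi_al] at this
    cases h1 : m.testBit i <;> cases h2 : m'.testBit i <;> rw [h1, h2] at this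
    · exact absurd this.symm hne
    · exact absurd this hne
  · have := Nat.pow_le_pow_right (n := 2) (by decide) (not_lt.mp hi)
    rw [Nat.testBit_lt_two_pow (hm.trans_le this), Nat.testBit_lt_two_pow (hm'.trans_le this)]

theorem chi_zero : (K.chi 0 : Chr _ F) = 1 := chr_ext fun i => by simp [chi_al]

theorem exists_chi {χ : Chr (Fin K.l) F} (h : χ * χ = 1) : ∃ m < 2 ^ K.l, χ = K.chi m := by
  classical
  refine ⟨Nat.ofBits fun i : Fin K.l => decide (χ (al i) ≠ 1), Nat.ofBits_lt_two_pow _,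
    chr_ext fun i => ?_⟩
  rw [chi_al, Nat.testBit_ofBits_lt _ _ i.2]
  have := congrArg (fun ψ : Chr _ F => ψ (al i)) h
  simp only [AddChar.mul_apply, AddChar.one_apply, mul_self_eq_one_iff] at this
  by_cases h1 : χ (al i) = 1
  · simp [h1]
  · rw [if_pos (by simpa using h1), this.resolve_left h1]

namespace OK0
variable (H : K.OK0)
include H

theorem kv_s {a v : ℕ} (ha : a < K.n) (hv : v < K.n) :
    K.kv (H.rs.s (K.rv a) (K.rv v)) = K.rk a v := by
  rw [RS.s_apply (rv_mem ha), map_sub, map_zsmul, H.rs_c ha, H.kv_rv ha, H.kv_rv hv]; rfl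

theorem filter_toF {L : List ℕ} {θ : ℕ} (hθ : θ < K.n) :
    (K.toF L).filter (H.rs.c (K.rv θ) · = 0) = K.toF (L.filter fun a => ibeq (K.pr θ a) 0) := by
  ext μ
  simp only [mem_filter, mem_toF, List.mem_filter, ibeq_iff]
  constructor
  · rintro ⟨⟨r, hr, rfl⟩, h⟩
    exact ⟨r, ⟨hr, by rwa [H.rs_c hθ] at h⟩, rfl⟩
  · rintro ⟨r, ⟨hr, h⟩, rfl⟩
    exact ⟨⟨r, hr, rfl⟩, by rwa [H.rs_c hθ]⟩

theorem nodup_map {L : List ℕ} (h1 : ∀ r ∈ L, r < K.n) (h2 : L.Nodup) : (L.map K.rv).Nodup :=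
  h2.map_on fun a ha b hb h => H.rv_inj (h1 a ha) (h1 b hb) h

theorem card_toF {L : List ℕ} (h1 : ∀ r ∈ L, r < K.n) (h2 : L.Nodup) : #(K.toF L) = L.length := by
  rw [toF, List.toFinset_card_of_nodup (H.nodup_map h1 h2), List.length_map]

theorem card_filter_toF {L : List ℕ} (h1 : ∀ r ∈ L, r < K.n) (h2 : L.Nodup) {v : ℕ}
    (hv : v < K.n) : #((K.toF L).filter fun r => H.rs.c (K.rv v) r < 0) =
      L.countP fun r => !inn (K.pr v r) := by
  rw [List.countP_eq_length_filter, ← H.card_toF (fun r hr => h1 r (List.mem_filter.mp hr).1)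
    (h2.filter _)]
  congr 1
  ext μ
  simp only [mem_filter, mem_toF, List.mem_filter, Bool.not_eq_true', ← Bool.not_eq_true, inn_iff,
    not_le]
  constructor
  · rintro ⟨⟨r, hr, rfl⟩, h⟩
    exact ⟨r, ⟨hr, by rwa [H.rs_c hv] at h⟩, rfl⟩
  · rintro ⟨r, ⟨hr, h⟩, rfl⟩
    exact ⟨⟨r, hr, rfl⟩, by rwa [H.rs_c hv]⟩

theorem reach_lt {Δ : List ℕ} {θ : ℕ} {O : List ℕ} (h : K.reach Δ θ O = true) :
    (∀ v ∈ O, v < K.n) ∧ O.Nodup := by
  induction O with
  | nil => simp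
  | cons v tl ih =>
    obtain ⟨h1, h2⟩ := band_iff.mp h
    obtain ⟨h3, h4⟩ := ih h2
    simp only [band_iff, Nat.blt_eq, Bool.not_eq_true', ← Bool.not_eq_true, testBit_mask] at h1
    exact ⟨by simpa using ⟨h1.1, h3⟩, List.nodup_cons.mpr ⟨h1.2.1, h4⟩⟩

theorem orb_sound {Δ : List ℕ} (hΔ : ∀ a ∈ Δ, a < K.n) {θ : ℕ} {O : List ℕ}
    (h : K.orb Δ θ O = true) : θ < K.n ∧ (∀ v ∈ O, v < K.n) ∧ O.Nodup ∧
      (∀ a ∈ K.toF Δ, 0 ≤ H.rs.c (K.rv θ) a) ∧
      ∀ μ, μ ∈ K.toF O ↔ ∃ w ∈ H.rs.WD (K.toF Δ), w (K.rv θ) = μ := by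
  simp only [orb, Bool.and_eq_true, testBit_mask, List.all_eq_true, inn_iff, band_iff,
    ibeq_iff] at h
  obtain ⟨⟨⟨h1, h2⟩, h3⟩, h4⟩ := h
  obtain ⟨h5, h6⟩ := H.reach_lt h4
  have hΦ : K.toF Δ ⊆ H.rs.Φ := fun μ hμ => by
    obtain ⟨a, ha, rfl⟩ := mem_toF.mp hμ; exact rv_mem (hΔ a ha)
  have hs : ∀ v ∈ O, ∀ a ∈ Δ, H.rs.s (K.rv a) (K.rv v) = K.rv (K.rf a v) := fun v hv a ha =>
    H.eq_of_key (RS.W_mem (RS.s_mem_W (R := H.rs) (rv_mem (hΔ a ha))) (rv_mem (h5 v hv)))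
      (h5 _ (h3 v hv a ha).2) (by rw [H.kv_s (hΔ a ha) (h5 v hv), (h3 v hv a ha).1])
  refine ⟨h5 θ h1, h5, h6, fun μ hμ => ?_, fun μ => ⟨fun hμ => ?_, ?_⟩⟩
  · obtain ⟨a, ha, rfl⟩ := mem_toF.mp hμ
    rw [H.rs_c (h5 θ h1)]; exact h2 a ha
  · obtain ⟨v, hv, rfl⟩ := mem_toF.mp hμ
    clear hμ h1 h3 h6
    induction O generalizing v with
    | nil => simp at hv
    | cons u tl ih =>
      obtain ⟨h7, h8⟩ := band_iff.mp h4
      have ih' := ih h8 (fun v hv => h5 v (List.mem_cons_of_mem _ hv))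
        (fun v hv => hs v (List.mem_cons_of_mem _ hv))
      rcases List.mem_cons.mp hv with rfl | hv
      · simp only [band_iff, bor_iff, Nat.beq_eq, List.any_eq_true, testBit_mask] at h7
        rcases h7.2.2 with rfl | ⟨a, ha, h9⟩
        · exact ⟨1, one_mem _, rfl⟩
        · obtain ⟨w, hw, h10⟩ := ih' _ h9
          refine ⟨_, mul_mem (RS.s_mem_WD (mem_toF.mpr ⟨a, ha, rfl⟩)) hw, ?_⟩
          rw [LinearEquiv.mul_apply, h10, ← hs v hv a ha, RS.s_s (rv_mem (hΔ a ha))]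
      · exact ih' v hv
  · rintro ⟨w, hw, rfl⟩
    refine RS.WD_ind hΦ (p := fun w => w (K.rv θ) ∈ K.toF O) (mem_toF.mpr ⟨θ, h1, rfl⟩) ?_ hw
    intro μ hμ w _ ih
    obtain ⟨a, ha, rfl⟩ := mem_toF.mp hμ
    obtain ⟨v, hv, h7⟩ := mem_toF.mp ih
    rw [LinearEquiv.mul_apply, ← h7, hs v hv a ha]
    exact mem_toF.mpr ⟨_, (h3 v hv a ha).2, rfl⟩

theorem chain_sound (q : ℕ) (st : List (ℕ × List ℕ)) : ∀ {P Δ : List ℕ},
    K.chainOK st Δ = true → (∀ a ∈ Δ, a < K.n) → (∀ a ∈ P, a < K.n) → P.Nodup →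
    H.rs.Sys (K.toF P) (K.toF Δ) → H.rs.poin (K.toF P) (H.rs.WD (K.toF Δ)) q =
      ((K.exps st P).map fun es => (es.map (q ^ ·)).sum).prod := by
  induction st with
  | nil =>
    intro P Δ h _ _ _ hS
    have : Δ = [] := List.isEmpty_iff.mp h
    subst this
    exact hS.poin_empty q
  | cons e st ih =>
    intro P Δ h hΔ hP hn hS
    obtain ⟨h1, h2⟩ := band_iff.mp h
    obtain ⟨h3, h4, h5, h6, h7⟩ := H.orb_sound hΔ h1
    have hS' := hS.filter h6
    rw [hS.chain (rv_mem h3) h6 _ h7, H.filter_toF h3, H.filter_toF h3]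
    rw [H.filter_toF h3, H.filter_toF h3] at hS'
    rw [ih h2 (fun a ha => hΔ a (List.mem_filter.mp ha).1)
      (fun a ha => hP a (List.mem_filter.mp ha).1) (hn.filter _) hS']
    change _ = (List.map _ (_ :: _)).prod
    rw [List.map_cons, List.prod_cons]
    congr 1
    rw [toF, List.sum_toFinset _ (H.nodup_map h4 h5), List.map_map, List.map_map]
    congr 1
    refine List.map_congr_left fun v hv => ?_
    simp only [Function.comp_apply]
    rw [H.card_filter_toF hP hn (h4 v hv)]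

omit H in
theorem exps_one (st : List (ℕ × List ℕ)) (P : List ℕ) :
    ((K.exps st P).map fun es => (es.map (1 ^ ·)).sum).prod = lens st := by
  induction st generalizing P with
  | nil => rfl
  | cons e st ih =>
    change (List.map _ (_ :: K.exps st _)).prod = _
    rw [List.map_cons, List.prod_cons, ih]
    simp [lens, Function.comp_def]

theorem card_W {st : List (ℕ × List ℕ)} (h : K.chainOK st K.Δ0 = true) :
    Nat.card H.rs.W = lens st := by
  have e1 : K.toF K.Δ0 = H.rs.Δ0 := by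
    ext μ
    simp only [mem_toF, RS.mem_Δ0, Δ0, List.mem_map, List.mem_range]
    constructor
    · rintro ⟨_, ⟨i, hi, rfl⟩, rfl⟩
      exact ⟨⟨i, hi⟩, (H.rv_si _).symm⟩
    · rintro ⟨i, rfl⟩
      exact ⟨_, ⟨i, i.2, rfl⟩, H.rv_si i⟩
  have e2 : K.toF ((List.range K.n).filter (K.hf ≤ ·)) = H.rs.Pp := by
    ext μ
    simp only [mem_toF, RS.mem_Pp, List.mem_filter, List.mem_range, decide_eq_true_eq]
    constructor
    · rintro ⟨r, ⟨h1, h2⟩, rfl⟩
      exact ⟨rv_mem h1, (H.rv_nonneg h1).mpr h2⟩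
    · rintro ⟨h1, h2⟩
      obtain ⟨r, hr, rfl⟩ := mem_Φ.mp h1
      exact ⟨r, ⟨hr, (H.rv_nonneg hr).mp h2⟩, rfl⟩
  have := H.chain_sound 1 st (P := (List.range K.n).filter (K.hf ≤ ·)) h (by
    simp only [Δ0, List.mem_map, List.mem_range]
    rintro _ ⟨i, hi, rfl⟩
    exact H.si_lt i hi) (fun a ha => List.mem_range.mp (List.mem_filter.mp ha).1)
    (List.nodup_range.filter _) (by rw [e1, e2]; exact RS.sys0)
  rwa [exps_one, RS.poin_one _ (by rw [e1]; exact le_rfl), e1] at this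

theorem toF_Pm [DecidableEq F] (h2 : (2 : F) ≠ 0) (m : ℕ) :
    K.toF (K.Pm m) = H.rs.Pp.filter ((K.chi m : Chr _ F) · = 1) := by
  ext μ
  simp only [mem_toF, mem_filter, RS.mem_Pp, Pm, List.mem_filter, List.mem_range,
    Bool.and_eq_true, decide_eq_true_eq, chi_eq_one h2]
  constructor
  · rintro ⟨r, ⟨h1, h3, h4⟩, rfl⟩
    exact ⟨⟨rv_mem h1, (H.rv_nonneg h1).mpr h3⟩, by rwa [fm_rv]⟩
  · rintro ⟨⟨h1, h3⟩, h4⟩
    obtain ⟨r, hr, rfl⟩ := mem_Φ.mp h1
    exact ⟨r, ⟨hr, (H.rv_nonneg hr).mp h3, by rwa [fm_rv] at h4⟩, rfl⟩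

theorem cw_chi {j : ℕ} (hj : j < K.l) {m m' : ℕ} (h : K.okact j m m' = true) :
    cw (K.chi m : Chr _ F) (H.rs.s (al ⟨j, hj⟩)) = K.chi m' := by
  refine chr_ext fun i => ?_
  have h1 := of_decide_eq_true (all_iff.mp h i i.2)
  have : H.rs.c (al ⟨j, hj⟩) (al i) = K.pp (K.si j) i := by
    change K.cv (K.ix _) _ = _
    rw [H.c_al, cv_al]
  rw [cw_apply, RS.s_apply (H.rs.al_mem _), this, chi, chi, coch_apply, coch_apply, map_sub,
    map_zsmul, fm_al, fm_al, fm_al, smul_eq_mul]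
  obtain ⟨k, hk⟩ := Int.even_iff.mpr h1
  rw [sub_eq_iff_eq_add.mp hk, zpow_add₀ (Units.ne_zero _)]
  simp [Even.neg_one_zpow ⟨k, rfl⟩]

theorem creach_sound {m0 : ℕ} {O : List ℕ} (h : K.creach m0 O = true) :
    (∀ m ∈ O, m < 2 ^ K.l ∧ ∃ w ∈ H.rs.W, cw (K.chi m0 : Chr _ F) w = K.chi m) ∧ O.Nodup := by
  induction O with
  | nil => simp
  | cons m tl ih =>
    obtain ⟨h1, h2⟩ := band_iff.mp h
    obtain ⟨h3, h4⟩ := ih h2
    simp only [band_iff, Bool.not_eq_true', ← Bool.not_eq_true, testBit_mask, bor_iff,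
      decide_eq_true_eq, Nat.beq_eq, anyb_iff] at h1
    refine ⟨fun m' hm' => ?_, List.nodup_cons.mpr ⟨h1.2.1, h4⟩⟩
    rcases List.mem_cons.mp hm' with rfl | hm'
    · refine ⟨h1.1, ?_⟩
      rcases h1.2.2 with rfl | ⟨j, hj, h5, h6⟩
      · exact ⟨1, one_mem _, rfl⟩
      · obtain ⟨w, hw, h7⟩ := (h3 _ h5).2
        refine ⟨_, mul_mem hw (RS.s_al_mem ⟨j, hj⟩), ?_⟩
        rw [← H.cw_chi hj h6, ← h7]
        rfl
    · exact h3 m' hm'

end OK0

/-- data for one class of involutions. -/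
noncomputable def cls (K : Cert) (W0 m : ℕ) (Δ : List ℕ) (st : List (ℕ × List ℕ)) (O : List ℕ)
    (k : ℕ) (E : List (List ℕ)) : Bool :=
  K.sysOK (K.Pm m) Δ && K.chainOK st Δ && K.creach m O && decide (W0 ≤ O.length * lens st) &&
    decide ((K.Pm m).length = k) && decide (K.exps st (K.Pm m) = E)

namespace OK1
variable (H : K.OK1)
include H

theorem cls_sound [Finite F] (h2 : (2 : F) ≠ 0) {st0 : List (ℕ × List ℕ)}
    (h0 : K.chainOK st0 K.Δ0 = true) {m : ℕ} {Δ : List ℕ} {st : List (ℕ × List ℕ)} {O : List ℕ}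
    {k : ℕ} {E : List (List ℕ)} (h : K.cls (lens st0) m Δ st O k E = true) :
    Nat.card (Subgroup.centralizer ({(H.cgG h2).h (K.chi m)} : Set (K.D.group F))) =
      (Nat.card F - 1) ^ K.l * Nat.card F ^ k *
        (E.map fun es => (es.map (Nat.card F ^ ·)).sum).prod ∧
    ∀ m' ∈ O, IsConj ((H.cgG h2).h (K.chi m')) ((H.cgG h2).h (K.chi m)) := by
  classical
  simp only [cls, sysOK, Bool.and_eq_true, decide_eq_true_eq, List.all_eq_true, Bool.or_eq_true,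
    List.any_eq_true] at h
  obtain ⟨⟨⟨⟨⟨⟨⟨h1, h3⟩, h4⟩, h5⟩, h6⟩, h7⟩, rfl⟩, rfl⟩ := h
  have hP : ∀ a ∈ K.Pm m, a < K.n := fun a ha => List.mem_range.mp (List.mem_filter.mp ha).1
  have hn : (K.Pm m).Nodup := List.nodup_range.filter _
  have eP := H.ok0.toF_Pm h2 m
  have hsub : K.toF Δ ⊆ K.toF (K.Pm m) := fun μ hμ => by
    obtain ⟨a, ha, rfl⟩ := mem_toF.mp hμ; exact mem_toF.mpr ⟨a, h1 a ha, rfl⟩
  have hχ : ∀ μ ∈ K.toF (K.Pm m), (K.chi m : Chr _ F) μ = 1 := fun μ hμ => by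
    rw [eP] at hμ; exact (mem_filter.mp hμ).2
  have hS : H.ok0.rs.Sys (K.toF (K.Pm m)) (K.toF Δ) := by
    refine RS.sys_of hsub (fun μ hμ => ?_) (fun μ hμ ν hν hne => ?_) (fun μ hμ => ?_)
    · rw [eP] at hμ; exact RS.mem_Pp.mp (mem_filter.mp hμ).1
    · have e1 := hχ μ (hsub hμ)
      have e2 := hχ ν hν
      obtain ⟨a, ha, rfl⟩ := mem_toF.mp hμ
      obtain ⟨r, hr, rfl⟩ := mem_toF.mp hν
      have ha' := hP a (h1 a ha)
      have hΦ := RS.W_mem (RS.s_mem_W (R := H.ok0.rs) (rv_mem ha')) (rv_mem (hP r hr))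
      rw [eP]
      refine mem_filter.mpr ⟨RS.mem_Pp.mpr ⟨hΦ, H.ok0.nonneg_of_key hΦ ?_⟩, ?_⟩
      · rw [H.ok0.kv_s ha' (hP r hr)]
        exact (h3 a ha r hr).resolve_left fun h => hne (by rw [h])
      · rw [RS.s_apply (rv_mem ha'), AddChar.map_sub_eq_div, AddChar.map_zsmul_eq_zpow, e1, e2]
        simp
    · obtain ⟨r, hr, rfl⟩ := mem_toF.mp hμ
      rcases h4 r hr with h | ⟨a, ha, h⟩
      · exact Or.inl (mem_toF.mpr ⟨r, h, rfl⟩)
      · exact Or.inr ⟨_, mem_toF.mpr ⟨a, ha, rfl⟩, by rwa [H.ok0.rs_c (hP a (h1 a ha))]⟩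
  have hΔ : ∀ a ∈ Δ, a < K.n := fun a ha => hP a (h1 a ha)
  obtain ⟨h8, h9⟩ := H.ok0.creach_sound (F := F) h6
  have hWc : H.ok0.rs.Wc (K.chi m : Chr _ F) = H.ok0.rs.WD (K.toF Δ) := by
    refine RS.Wc_eq hS.subΦ (fun a ha => hχ a (hsub ha)) (O.map K.chi).toFinset ?_ ?_
    · intro ψ hψ
      obtain ⟨m', hm', rfl⟩ := List.mem_map.mp (List.mem_toFinset.mp hψ)
      exact (h8 m' hm').2
    · rw [List.toFinset_card_of_nodup (h9.map_on fun a ha b hb h =>
        chi_inj h2 (h8 a ha).1 (h8 b hb).1 h), List.length_map, H.ok0.card_W h0,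
        ← RS.poin_one (K.toF (K.Pm m)) hS.le_W, H.ok0.chain_sound 1 st h5 hΔ hP hn hS,
        OK0.exps_one]
      exact h7
  refine ⟨?_, fun m' hm' => ?_⟩
  · rw [CG.card_cent (H.cgG_X h2), hWc, ← eP, H.ok0.chain_sound _ st h5 hΔ hP hn hS,
      H.ok0.card_toF hP hn, Fintype.card_fin]
  · obtain ⟨w, hw, h⟩ := (h8 m' hm').2
    rw [← h]
    exact CG.conj_cw _ hw

theorem orderOf_chi (h2 : (2 : F) ≠ 0) {m : ℕ} (h0 : 0 < m) (hm : m < 2 ^ K.l) :
    orderOf ((H.cgG h2).h (K.chi m)) = 2 := by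
  have := Fact.mk Nat.prime_two
  refine orderOf_eq_prime (by rw [pow_two, ← CG.h_mul, chi_mul_self, CG.h_one]) fun h => ?_
  rw [← (H.cgG h2).h_one, ← chi_zero] at h
  exact h0.ne' (chi_inj h2 hm (by positivity) ((H.cgG h2).h_inj h))

theorem exists_conj [Finite F] (hF : Odd (Nat.card F)) (h2 : (2 : F) ≠ 0) {u : K.D.group F}
    (hu : orderOf u = 2) : ∃ m, 0 < m ∧ m < 2 ^ K.l ∧ IsConj u ((H.cgG h2).h (K.chi m)) := by
  obtain ⟨χ, h1, h3⟩ := CG.invol_conj hF (H.cgG_X h2) (g := u) (by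
    rw [← pow_two, ← hu, pow_orderOf_eq_one])
  obtain ⟨m, hm, rfl⟩ := exists_chi h1
  refine ⟨m, Nat.pos_of_ne_zero ?_, hm, h3⟩
  rintro rfl
  rw [chi_zero (K := K) (F := F), CG.h_one, isConj_one_left] at h3
  simp [h3] at hu

end OK1
end Cert

theorem two_ne_of_odd {F : Type*} [Field F] [Fintype F] (hF : Odd (Fintype.card F)) :
    (2 : F) ≠ 0 := by
  intro h
  obtain ⟨k, hk⟩ := hF
  have := FiniteField.cast_card_eq_zero F
  rw [hk] at this
  push_cast at this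
  simp [h] at this

theorem card_cent_conj {G : Type*} [Group G] {a b : G} (h : IsConj a b) :
    Nat.card (Subgroup.centralizer ({a} : Set G)) =
      Nat.card (Subgroup.centralizer ({b} : Set G)) := by
  obtain ⟨c, rfl⟩ := isConj_iff.mp h
  refine Nat.card_congr ((MulAut.conj c).toEquiv.subtypeEquiv fun x => ?_)
  simp only [Subgroup.mem_centralizer_singleton_iff, MulEquiv.toEquiv_eq_coe, EquivLike.coe_coe,
    MulAut.conj_apply, conj_mul, mul_left_inj, mul_right_inj]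

end Ch
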