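import Cfsg.Agent.Ch.Chain

/-! Splitting long checks. -/

namespace Ch

theorem of_chunks {f : ℕ → Bool} (a b : ℕ) (h : ∀ k < a, all b (fun j => f (b * k + j)) = true) :
    ∀ s < b * a, f s = true := by
  intro s hs
  have hb : 0 < b := Nat.pos_of_ne_zero (by rintro rfl; simp at hs)
  have := all_iff.mp (h (s / b) (Nat.div_lt_of_lt_mul hs)) (s % b) (Nat.mod_lt _ hb)
  rwa [Nat.div_add_mod] at this

noncomputable def nthT (l : List TL) : ℕ → TL :=
  List.rec (fun _ => TL.nil) (fun a _ ih k => Nat.rec a (fun k' _ => ih k') k) l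

end Ch
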