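import Mathlib

/-! Sparse polynomial vectors and a checker for matrix identities. -/

set_option linter.unusedSectionVars false

namespace Ch
open Finset Matrix

/-- lists of terms `c a^da b^db e_j`. -/
inductive TL
  | nil
  | cons (j : ℕ) (c : ℤ) (da db : ℕ) (t : TL)

noncomputable def all (n : ℕ) (f : ℕ → Bool) : Bool :=
  Nat.rec true (fun k ih => Bool.rec false ih (f k)) n

noncomputable def anyb (n : ℕ) (f : ℕ → Bool) : Bool :=
  Nat.rec false (fun k ih => Bool.rec ih true (f k)) n

noncomputable def isum (n : ℕ) (f : ℕ → ℤ) : ℤ :=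
  Nat.rec (Int.ofNat 0) (fun k ih => Int.add ih (f k)) n

noncomputable def nth (l : List ℕ) : ℕ → ℕ :=
  List.rec (fun _ => 0) (fun a _ ih k => Nat.rec a (fun k' _ => ih k') k) l

noncomputable def band (a b : Bool) : Bool := Bool.rec false b a
noncomputable def bor (a b : Bool) : Bool := Bool.rec b true a

noncomputable def ibeq (a b : ℤ) : Bool :=
  Int.rec (fun m => Int.rec (fun n => Nat.beq m n) (fun _ => false) b)
    (fun m => Int.rec (fun _ => false) (fun n => Nat.beq m n) b) a

/-- `0 ≤ a` -/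
noncomputable def inn (a : ℤ) : Bool := Int.rec (fun _ => true) (fun _ => false) a

theorem all_iff {n : ℕ} {f : ℕ → Bool} : all n f = true ↔ ∀ k < n, f k = true := by
  induction n with
  | zero => simp [all]
  | succ n ih =>
    have : all (n + 1) f = Bool.rec false (all n f) (f n) := rfl
    rw [this, Nat.forall_lt_succ_right, ← ih]
    cases f n <;> simp

theorem anyb_iff {n : ℕ} {f : ℕ → Bool} : anyb n f = true ↔ ∃ k < n, f k = true := by
  induction n with
  | zero => simp [anyb]
  | succ n ih =>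
    have : anyb (n + 1) f = Bool.rec (anyb n f) true (f n) := rfl
    rw [this, Nat.exists_lt_succ_right, ← ih]
    cases f n <;> simp

theorem isum_eq (n : ℕ) (f : ℕ → ℤ) : isum n f = ∑ k : Fin n, f k := by
  rw [Fin.sum_univ_eq_sum_range]
  induction n with
  | zero => rfl
  | succ n ih => rw [sum_range_succ, ← ih]; rfl

@[simp] theorem band_iff {a b : Bool} : band a b = true ↔ a = true ∧ b = true := by
  cases a <;> cases b <;> simp [band]

@[simp] theorem bor_iff {a b : Bool} : bor a b = true ↔ a = true ∨ b = true := by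
  cases a <;> cases b <;> simp [bor]

@[simp] theorem ibeq_iff {a b : ℤ} : ibeq a b = true ↔ a = b := by
  cases a <;> cases b <;> simp [ibeq]

@[simp] theorem inn_iff {a : ℤ} : inn a = true ↔ 0 ≤ a := by
  cases a <;> simp [inn]

noncomputable def dec (fuel : ℕ) : ℕ → TL :=
  Nat.rec (fun _ => TL.nil) (fun _ ih v => Nat.rec TL.nil (fun k _ =>
    TL.cons (Nat.mod k 256) (Int.subNatNat (Nat.mod (Nat.shiftRight k 8) 16) 8)
      (Nat.shiftRight k 12) 0 (ih (Nat.shiftRight v 16))) (Nat.mod v 65536)) fuel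

/-- column `j` of the sparse matrix coded by `R`. -/
noncomputable def col (R j : ℕ) : TL :=
  Nat.rec TL.nil (fun k _ => Bool.rec (motive := fun _ => TL)
    (dec 10 (Nat.shiftRight R (Nat.add 4096 (Nat.mul 176 k))))
    (TL.cons (Nat.mod k 256) (Int.subNatNat (Nat.mod (Nat.shiftRight k 8) 16) 8)
      (Nat.shiftRight k 12) 0 TL.nil)
    (Nat.ble 256 k)) (Nat.mod (Nat.shiftRight R (Nat.mul 16 j)) 65536)

noncomputable def ipow (c : ℤ) (k : ℕ) : ℤ := Nat.rec (Int.ofNat 1) (fun _ ih => Int.mul c ih) k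

theorem ipow_eq (c : ℤ) (k : ℕ) : ipow c k = c ^ k := by
  induction k with
  | zero => rw [pow_zero]; rfl
  | succ k ih => rw [pow_succ', ← ih]; rfl

noncomputable def sc (c : ℤ) (da db : ℕ) (m : ℤ) (ea eb : ℕ) (w acc : TL) : TL :=
  TL.rec acc (fun u M k _ _ ih => TL.cons u (Int.mul (Int.mul m M) (ipow c k))
    (Nat.add ea (Nat.mul k da)) (Nat.add eb (Nat.mul k db)) ih) w

noncomputable def ap (R : ℕ) (c : ℤ) (da db : ℕ) (v : TL) : TL :=
  TL.rec TL.nil (fun j m ea eb _ ih => sc c da db m ea eb (col R j) ih) v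

noncomputable def apX (R : ℕ) (c : ℤ) (da db : ℕ) (v : TL) : TL :=
  TL.rec TL.nil (fun j m ea eb _ ih => TL.cons j m ea eb (sc c da db m ea eb (col R j) ih)) v

noncomputable def spl (u : ℕ) (c : ℤ) (k : ℕ) : ℕ → ℕ → TL → TL :=
  Nat.rec (fun ea eb acc => TL.cons u c ea eb acc)
    (fun _ ih ea eb acc => ih (Nat.succ ea) eb (ih ea (Nat.succ eb) acc)) k

noncomputable def apS (R : ℕ) (v : TL) : TL :=
  TL.rec TL.nil (fun j m ea eb _ ih =>
    TL.rec ih (fun u M k _ _ ih' => spl u (Int.mul m M) k ea eb ih') (col R j)) v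

noncomputable def app (v w : TL) : TL := TL.rec w (fun j m ea eb _ ih => TL.cons j m ea eb ih) v

noncomputable def tbeq (v : TL) : TL → Bool :=
  TL.rec (fun w => TL.rec true (fun _ _ _ _ _ _ => false) w)
    (fun j m ea eb _ ih w => TL.rec false (fun j' m' ea' eb' t' _ =>
      Bool.rec false (Bool.rec false (Bool.rec false (Bool.rec false (ih t') (Nat.beq eb eb'))
        (Nat.beq ea ea')) (ibeq m m')) (Nat.beq j j')) w) v

noncomputable def csum (j ea eb : ℕ) (v : TL) : ℤ :=
  TL.rec (Int.ofNat 0) (fun j' m ea' eb' _ ih => Bool.rec (motive := fun _ => ℤ) ih (Int.add m ih)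
    (band (Nat.beq j j') (band (Nat.beq ea ea') (Nat.beq eb eb')))) v

noncomputable def sub1 (v w t : TL) : Bool :=
  TL.rec true (fun j _ ea eb _ ih => Bool.rec false ih (ibeq (csum j ea eb v) (csum j ea eb w))) t

noncomputable def eqv (v w : TL) : Bool :=
  Bool.rec (band (sub1 v w v) (sub1 v w w)) true (tbeq v w)

noncomputable def tall (f : ℕ → ℤ → ℕ → ℕ → Bool) (v : TL) : Bool :=
  TL.rec true (fun j m ea eb _ ih => Bool.rec false ih (f j m ea eb)) v

def unit (j : ℕ) : TL := TL.cons j (Int.ofNat 1) 0 0 TL.nil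

noncomputable def chk (N : ℕ) (f g : TL → TL) : Bool :=
  all N fun j => eqv (f (unit j)) (g (unit j))

def TL.All (p : ℕ → ℤ → ℕ → ℕ → Prop) : TL → Prop
  | .nil => True
  | .cons j m ea eb t => p j m ea eb ∧ t.All p

theorem tall_iff {f : ℕ → ℤ → ℕ → ℕ → Bool} {v : TL} :
    tall f v = true ↔ v.All fun j m ea eb => f j m ea eb = true := by
  induction v with
  | nil => simp [tall, TL.All]
  | cons j m ea eb t ih =>
    have : tall f (.cons j m ea eb t) = Bool.rec false (tall f t) (f j m ea eb) := rfl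
    rw [this, TL.All, ← ih]
    cases f j m ea eb <;> simp

theorem TL.All.imp {p q : ℕ → ℤ → ℕ → ℕ → Prop} (h : ∀ j m ea eb, p j m ea eb → q j m ea eb)
    {v : TL} (hv : v.All p) : v.All q := by
  induction v with
  | nil => trivial
  | cons j m ea eb t ih => exact ⟨h _ _ _ _ hv.1, ih hv.2⟩

def TL.Val (N : ℕ) (v : TL) : Prop := v.All fun j _ _ _ => j < N

variable {F : Type*} [CommRing F] (a b : F)

def ev (u : ℕ) : TL → F
  | .nil => 0
  | .cons j m ea eb t => (if j = u then (m : F) * a ^ ea * b ^ eb else 0) + ev u t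

theorem ev_app (u : ℕ) (v w : TL) : ev a b u (app v w) = ev a b u v + ev a b u w := by
  induction v with
  | nil => simp [app, ev]
  | cons j m ea eb t ih =>
    have : app (.cons j m ea eb t) w = .cons j m ea eb (app t w) := rfl
    rw [this, ev, ev, ih, add_assoc]

theorem app_nil (v : TL) : app v .nil = v := by
  induction v with
  | nil => rfl
  | cons j m ea eb t ih =>
    have : app (.cons j m ea eb t) .nil = .cons j m ea eb (app t .nil) := rfl
    rw [this, ih]

theorem val_app {N : ℕ} {v w : TL} (hv : v.Val N) (hw : w.Val N) : (app v w).Val N := by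
  induction v with
  | nil => exact hw
  | cons j m ea eb t ih => exact ⟨hv.1, ih hv.2⟩

theorem tbeq_eq {v w : TL} (h : tbeq v w = true) : v = w := by
  induction v generalizing w with
  | nil => cases w <;> simp_all [tbeq]
  | cons j m ea eb t ih =>
    cases w with
    | nil => simp [tbeq] at h
    | cons j' m' ea' eb' t' =>
      have : tbeq (.cons j m ea eb t) (.cons j' m' ea' eb' t') =
        band (Nat.beq j j') (band (ibeq m m') (band (Nat.beq ea ea')
          (band (Nat.beq eb eb') (tbeq t t')))) := rfl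
      rw [this] at h
      simp only [band_iff, Nat.beq_eq, ibeq_iff] at h
      obtain ⟨rfl, rfl, rfl, rfl, h⟩ := h
      rw [ih h]

def keys : TL → Finset (ℕ × ℕ × ℕ)
  | .nil => ∅
  | .cons j _ ea eb t => insert (j, ea, eb) (keys t)

theorem ev_eq_sum (u : ℕ) (v : TL) (K : Finset (ℕ × ℕ × ℕ)) (hK : keys v ⊆ K) :
    ev a b u v = ∑ k ∈ K, if k.1 = u then
      ((csum k.1 k.2.1 k.2.2 v : ℤ) : F) * a ^ k.2.1 * b ^ k.2.2 else 0 := by
  induction v with
  | nil => simp [ev, csum]
  | cons j m ea eb t ih =>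
    rw [keys, insert_subset_iff] at hK
    have : ∀ k : ℕ × ℕ × ℕ, csum k.1 k.2.1 k.2.2 (.cons j m ea eb t) =
        (if k = (j, ea, eb) then m else 0) + csum k.1 k.2.1 k.2.2 t := by
      rintro ⟨k1, k2, k3⟩
      have e : csum k1 k2 k3 (.cons j m ea eb t) = Bool.rec (motive := fun _ => ℤ)
        (csum k1 k2 k3 t) (m + csum k1 k2 k3 t)
        (band (Nat.beq k1 j) (band (Nat.beq k2 ea) (Nat.beq k3 eb))) := rfl
      rw [e]
      cases h : band (Nat.beq k1 j) (band (Nat.beq k2 ea) (Nat.beq k3 eb))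
      · rw [if_neg, zero_add]
        intro h'
        simp only [Prod.mk.injEq] at h'
        have : band (Nat.beq k1 j) (band (Nat.beq k2 ea) (Nat.beq k3 eb)) = true := by
          simpa using h'
        rw [h] at this; exact absurd this (by simp)
      · rw [if_pos (by simpa using h)]
    rw [ev, ih hK.2, ← sum_ite_eq_of_mem K (j, ea, eb)
      (fun k => if k.1 = u then (m : F) * a ^ k.2.1 * b ^ k.2.2 else 0) hK.1, ← sum_add_distrib]
    refine sum_congr rfl fun k _ => ?_
    rw [this]
    by_cases h1 : k = (j, ea, eb) <;> by_cases h2 : k.1 = u <;> simp [h1, h2, eq_comm, add_mul]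
    · subst h1; split_ifs <;> simp
    · subst h1; split_ifs <;> simp

theorem sub1_keys {v w t : TL} (h : sub1 v w t = true) :
    ∀ k ∈ keys t, csum k.1 k.2.1 k.2.2 v = csum k.1 k.2.1 k.2.2 w := by
  induction t with
  | nil => simp [keys]
  | cons j m ea eb t ih =>
    have : sub1 v w (.cons j m ea eb t) =
      band (ibeq (csum j ea eb v) (csum j ea eb w)) (sub1 v w t) := rfl
    rw [this, band_iff, ibeq_iff] at h
    intro k hk
    rcases mem_insert.mp hk with rfl | hk
    exacts [h.1, ih h.2 k hk]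

theorem eqv_sound {v w : TL} (h : eqv v w = true) (u : ℕ) : ev a b u v = ev a b u w := by
  have : eqv v w = bor (tbeq v w) (band (sub1 v w v) (sub1 v w w)) := rfl
  rw [this, bor_iff, band_iff] at h
  rcases h with h | ⟨h1, h2⟩
  · rw [tbeq_eq h]
  rw [ev_eq_sum a b u v _ subset_union_left, ev_eq_sum a b u w (keys v ∪ keys w) subset_union_right]
  refine sum_congr rfl fun k hk => ?_
  rcases mem_union.mp hk with hk | hk
  · rw [sub1_keys h1 k hk]
  · rw [sub1_keys h2 k hk]

theorem ev_sc (u : ℕ) (c : ℤ) (da db : ℕ) (m : ℤ) (ea eb : ℕ) (w acc : TL) :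
    ev a b u (sc c da db m ea eb w acc) =
      ev ((c : F) * a ^ da * b ^ db) 1 u w * (m * a ^ ea * b ^ eb) + ev a b u acc := by
  induction w with
  | nil => simp [sc, ev]
  | cons j M k x t ih =>
    have : sc c da db m ea eb (.cons j M k x t) acc = .cons j (m * M * ipow c k)
      (ea + k * da) (eb + k * db) (sc c da db m ea eb t acc) := rfl
    rw [this, ev, ev, ih, ipow_eq]
    split_ifs
    · push_cast; ring
    · ring

theorem val_sc {N : ℕ} (c : ℤ) (da db : ℕ) (m : ℤ) (ea eb : ℕ) {w acc : TL} (hw : w.Val N)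
    (h : acc.Val N) : (sc c da db m ea eb w acc).Val N := by
  induction w with
  | nil => exact h
  | cons j M k x t ih => exact ⟨hw.1, ih hw.2⟩

theorem ev_spl (u j : ℕ) (c : ℤ) (k ea eb : ℕ) (acc : TL) :
    ev a b u (spl j c k ea eb acc) =
      (if j = u then (c : F) * (a + b) ^ k * a ^ ea * b ^ eb else 0) + ev a b u acc := by
  induction k generalizing ea eb acc with
  | zero => simp [spl, ev]
  | succ k ih =>
    have : spl j c (k + 1) ea eb acc = spl j c k (ea + 1) eb (spl j c k ea (eb + 1) acc) := rfl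
    rw [this, ih, ih]
    split_ifs <;> ring

theorem val_spl {N j : ℕ} (hj : j < N) (c : ℤ) (k ea eb : ℕ) {acc : TL} (h : acc.Val N) :
    (spl j c k ea eb acc).Val N := by
  induction k generalizing ea eb acc with
  | zero => exact ⟨hj, h⟩
  | succ k ih => exact ih _ _ (ih _ _ h)

section lin
variable {I : Type} [Fintype I] [DecidableEq I] {N : ℕ} (enc : I ≃ Fin N)

def vec (v : TL) : I → F := fun j => ev a b (enc j) v

noncomputable def mat (R : ℕ) (t : F) : Matrix I I F := fun j k => ev t 1 (enc j) (col R (enc k))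

def Lin (f : TL → TL) (M : Matrix I I F) : Prop :=
  ∀ v, v.Val N → (f v).Val N ∧ vec a b enc (f v) = M *ᵥ vec a b enc v

def ColVal (N R : ℕ) : Prop := ∀ j < N, (col R j).Val N

variable {a b enc}

theorem vec_cons {j : ℕ} (hj : j < N) (m : ℤ) (ea eb : ℕ) (t : TL) :
    vec a b enc (.cons j m ea eb t) =
      Pi.single (enc.symm ⟨j, hj⟩) ((m : F) * a ^ ea * b ^ eb) + vec a b enc t := by
  ext k
  rw [vec, ev, Pi.add_apply, vec, Pi.single_apply]
  congr 2
  rw [Equiv.eq_symm_apply, Fin.ext_iff]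
  exact propext eq_comm

theorem vec_nil : vec a b enc .nil = 0 := rfl

theorem Lin.comp {f g : TL → TL} {M M' : Matrix I I F} (h : Lin a b enc f M)
    (h' : Lin a b enc g M') : Lin a b enc (fun v => f (g v)) (M * M') := fun v hv =>
  ⟨(h _ (h' v hv).1).1, by rw [(h _ (h' v hv).1).2, (h' v hv).2, mulVec_mulVec]⟩

theorem Lin.add {f g : TL → TL} {M M' : Matrix I I F} (h : Lin a b enc f M)
    (h' : Lin a b enc g M') : Lin a b enc (fun v => app (f v) (g v)) (M + M') := fun v hv =>
  ⟨val_app (h v hv).1 (h' v hv).1, by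
    rw [add_mulVec, ← (h v hv).2, ← (h' v hv).2]
    ext k
    simp [vec, ev_app]⟩

theorem lin_id : Lin a b enc (fun v => v) 1 := fun _ hv => ⟨hv, by simp⟩

theorem lin_ap {R : ℕ} (hR : ColVal N R) (c : ℤ) (da db : ℕ) :
    Lin a b enc (ap R c da db) (mat enc R ((c : F) * a ^ da * b ^ db)) := by
  intro v hv
  induction v with
  | nil => exact ⟨trivial, by rw [vec_nil, mulVec_zero]; rfl⟩
  | cons j m ea eb t ih =>
    obtain ⟨h1, h2⟩ := ih hv.2
    refine ⟨val_sc _ _ _ _ _ _ (hR j hv.1) h1, ?_⟩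
    rw [vec_cons hv.1, mulVec_add, ← h2, mulVec_single]
    ext k
    have : ap R c da db (.cons j m ea eb t) = sc c da db m ea eb (col R j) (ap R c da db t) := rfl
    rw [vec, this, ev_sc]
    simp [vec, mat]

theorem lin_apX {R : ℕ} (hR : ColVal N R) (c : ℤ) (da db : ℕ) :
    Lin a b enc (apX R c da db) (1 + mat enc R ((c : F) * a ^ da * b ^ db)) := by
  intro v hv
  induction v with
  | nil => exact ⟨trivial, by rw [vec_nil, mulVec_zero]; rfl⟩
  | cons j m ea eb t ih =>
    obtain ⟨h1, h2⟩ := ih hv.2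
    refine ⟨⟨hv.1, val_sc _ _ _ _ _ _ (hR j hv.1) h1⟩, ?_⟩
    have : apX R c da db (.cons j m ea eb t) =
      .cons j m ea eb (sc c da db m ea eb (col R j) (apX R c da db t)) := rfl
    rw [this, vec_cons hv.1, vec_cons hv.1, mulVec_add, ← h2, add_mulVec, one_mulVec,
      mulVec_single, add_assoc]
    congr 1
    ext k
    rw [vec, ev_sc]
    simp [vec, mat]

theorem lin_apS {R : ℕ} (hR : ColVal N R) : Lin a b enc (apS R) (mat enc R (a + b)) := by
  intro v hv
  induction v with
  | nil => exact ⟨trivial, by rw [vec_nil, mulVec_zero]; rfl⟩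
  | cons j m ea eb t ih =>
    obtain ⟨h1, h2⟩ := ih hv.2
    have key : ∀ w : TL, w.Val N →
        (TL.rec (apS R t) (fun u M k _ _ ih' => spl u (Int.mul m M) k ea eb ih') w : TL).Val N ∧
        ∀ u, ev a b u (TL.rec (apS R t) (fun u M k _ _ ih' => spl u (Int.mul m M) k ea eb ih') w) =
          ev (a + b) 1 u w * (m * a ^ ea * b ^ eb) + ev a b u (apS R t) := by
      intro w hw
      induction w with
      | nil => exact ⟨h1, fun u => by simp [ev]⟩
      | cons j' M k x t' ih' =>
        obtain ⟨h3, h4⟩ := ih' hw.2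
        refine ⟨val_spl hw.1 _ _ _ _ h3, fun u => ?_⟩
        change ev a b u (spl j' (m * M) k ea eb _) = _
        rw [ev_spl, h4, ev]
        split_ifs
        · push_cast; ring
        · ring
    obtain ⟨h3, h4⟩ := key _ (hR j hv.1)
    refine ⟨h3, ?_⟩
    rw [vec_cons hv.1, mulVec_add, ← h2, mulVec_single]
    ext k
    refine (h4 _).trans ?_
    simp [vec, mat]

theorem chk_sound {f g : TL → TL} {M M' : Matrix I I F} (h : Lin a b enc f M)
    (h' : Lin a b enc g M') (hc : chk N f g = true) : M = M' := by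
  ext j k
  have hv : (unit (enc k)).Val N := ⟨(enc k).2, trivial⟩
  have := eqv_sound a b (all_iff.mp hc _ (enc k).2) (enc j)
  have h1 := congrFun (h _ hv).2 j
  have h2 := congrFun (h' _ hv).2 j
  rw [vec] at h1 h2
  rw [h1, h2, unit, vec_cons (enc k).2, vec_nil] at this
  simpa using this

end lin

theorem ev_ne {u : ℕ} {v : TL} {p : ℕ → ℤ → ℕ → ℕ → Prop} (hv : v.All p) (h : ev a b u v ≠ 0) :
    ∃ m ea eb, p u m ea eb := by
  induction v with
  | nil => exact absurd rfl h
  | cons j m ea eb t ih =>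
    by_cases hj : j = u
    · exact ⟨m, ea, eb, hj ▸ hv.1⟩
    · rw [ev, if_neg hj, zero_add] at h
      exact ih hv.2 h

theorem ev_scale {u : ℕ} {v : TL} (x y : F)
    (hv : v.All fun j _ ea _ => j = u → x = y ^ ea) :
    x * ev a 1 u v = ev (y * a) 1 u v := by
  induction v with
  | nil => simp [ev]
  | cons j m ea eb t ih =>
    rw [ev, ev, mul_add, ih hv.2]
    split_ifs with hj
    · rw [hv.1 hj]; ring
    · simp

theorem ev_zero {u : ℕ} {v : TL} (hv : v.All fun _ _ ea _ => 0 < ea) :
    ev (0 : F) 1 u v = 0 := by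
  induction v with
  | nil => rfl
  | cons j m ea eb t ih =>
    rw [ev, ih hv.2, zero_pow (ne_of_gt hv.1)]; simp

end Ch
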