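import Cfsg.Agent.Ch.OkG2
import Cfsg.Agent.L.Cores

/-! Involutions of `G₂(q)`, `q` odd. -/

namespace Ch

theorem SL2_central {F : Type*} [Field F] {m : SL2 F} (h : ∀ y : SL2 F, m * y = y * m) :
    m = 1 ∨ m = dg (-1) := by
  have h1 := congrArg Subtype.val (h (up 1))
  have h2 := congrArg Subtype.val (h (lo 1))
  have hd := SL2_det m
  have a1 := congrFun (congrFun h1 0) 0
  have a2 := congrFun (congrFun h1 0) 1
  have a3 := congrFun (congrFun h2 0) 0
  simp [val_up, val_lo, Matrix.mul_apply, Fin.sum_univ_two] at a1 a2 a3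
  have a4 : m 0 0 = m 1 1 := by linear_combination a2
  rw [a1, mul_zero, sub_zero, ← a4, mul_self_eq_one_iff] at hd
  rcases hd with hd | hd
  · left
    ext i j
    fin_cases i <;> fin_cases j <;> simp [a1, a3, ← a4, hd]
  · right
    ext i j
    fin_cases i <;> fin_cases j <;> simp [val_dg, a1, a3, ← a4, hd]

theorem two_SL2 {F G : Type*} [Field F] [Fintype F] [Group G] [Finite G]
    (φ ψ : SL2 F →* G) (hφ : Function.Injective φ) (hψ : Function.Injective ψ)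
    (hc : ∀ a b, φ a * ψ b = ψ b * φ a) {t : G} (ht : orderOf t = 2) (h1 : φ (dg (-1)) = t)
    (h2 : ψ (dg (-1)) = t) (hcard : Nat.card (Subgroup.centralizer ({t} : Set G)) =
      Fintype.card F ^ 2 * (Fintype.card F ^ 2 - 1) ^ 2) :
    ∃ L₁ L₂ : Subgroup G, Nonempty (L₁ ≃* Matrix.SpecialLinearGroup (Fin 2) F) ∧
      Nonempty (L₂ ≃* Matrix.SpecialLinearGroup (Fin 2) F) ∧
      (∀ x ∈ L₁, ∀ y ∈ L₂, x * y = y * x) ∧ L₁ ⊓ L₂ = Subgroup.zpowers t ∧
      L₁ ⊔ L₂ ≤ Subgroup.centralizer ({t} : Set G) ∧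
      (L₁ ⊔ L₂).relIndex (Subgroup.centralizer ({t} : Set G)) = 2 := by
  have hinf : φ.range ⊓ ψ.range = Subgroup.zpowers t := by
    apply le_antisymm
    · rintro _ ⟨⟨a, rfl⟩, ⟨b, hb⟩⟩
      rcases SL2_central (m := a) (fun y => hφ (by rw [map_mul, map_mul, ← hb, hc])) with h | h
      · rw [h, map_one]; exact one_mem _
      · rw [h, h1]; exact Subgroup.mem_zpowers t
    · rw [Subgroup.zpowers_le]
      exact ⟨⟨_, h1⟩, ⟨_, h2⟩⟩
  have hle : φ.range ⊔ ψ.range ≤ Subgroup.centralizer ({t} : Set G) := by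
    refine sup_le ?_ ?_
    · rintro _ ⟨a, rfl⟩
      rw [Subgroup.mem_centralizer_singleton_iff, ← h2, hc]
    · rintro _ ⟨a, rfl⟩
      rw [Subgroup.mem_centralizer_singleton_iff, ← h1, hc]
  refine ⟨φ.range, ψ.range, ⟨(MonoidHom.ofInjective hφ).symm⟩, ⟨(MonoidHom.ofInjective hψ).symm⟩,
    ?_, hinf, hle, ?_⟩
  · rintro _ ⟨a, rfl⟩ _ ⟨b, rfl⟩
    exact hc a b
  have e1 := Cfsg.Agent.L.card_mul_card_eq_card_sup_mul_card_inf φ.range ψ.range (by
    rintro _ ⟨a, rfl⟩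
    refine Subgroup.centralizer_le_normalizer _ ?_
    rintro _ ⟨b, rfl⟩
    exact (hc a b).symm)
  rw [hinf, Nat.card_zpowers, ht, ← Nat.card_congr (MonoidHom.ofInjective hφ).toEquiv,
    ← Nat.card_congr (MonoidHom.ofInjective hψ).toEquiv, Cfsg.Agent.L.card_SL2,
    Nat.card_eq_fintype_card (α := F)] at e1
  have e2 := ((φ.range ⊔ ψ.range).subgroupOf (Subgroup.centralizer ({t} : Set G))).card_mul_index
  rw [Nat.card_congr (Subgroup.subgroupOfEquivOfLe hle).toEquiv, hcard] at e2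
  have e3 : Fintype.card F ^ 2 * (Fintype.card F ^ 2 - 1) ^ 2 =
      Nat.card (φ.range ⊔ ψ.range : Subgroup G) * 2 := by
    rw [← e1]
    have h1 : 1 ≤ Fintype.card F := Fintype.card_pos
    have h2 : 1 ≤ Fintype.card F ^ 2 := Nat.one_le_pow _ _ h1
    zify [h1, h2]
    ring
  exact Nat.eq_of_mul_eq_mul_left Nat.card_pos (e2.trans e3)

namespace G2
open Cert

variable {F : Type*} [Field F] [Fintype F]

noncomputable def t0 (hF : Odd (Fintype.card F)) : K.D.group F :=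
  (ok.cgG (two_ne_of_odd hF)).h (K.chi 2)

theorem conj_t0 (hF : Odd (Fintype.card F)) {u : K.D.group F} (hu : orderOf u = 2) :
    IsConj u (t0 hF) := by
  obtain ⟨a, h3, h4, h5⟩ := ok.exists_conj (by rwa [Nat.card_eq_fintype_card])
    (two_ne_of_odd hF) hu
  refine h5.trans ((ok.cls_sound (two_ne_of_odd hF) hW ha).2 a ?_)
  change a < 4 at h4
  interval_cases a <;> decide

theorem card_t0 (hF : Odd (Fintype.card F)) :
    Nat.card (Subgroup.centralizer ({t0 hF} : Set (K.D.group F))) =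
      Fintype.card F ^ 2 * (Fintype.card F ^ 2 - 1) ^ 2 := by
  rw [t0, (ok.cls_sound (two_ne_of_odd hF) hW ha).1, Nat.card_eq_fintype_card]
  have h1 : 1 ≤ Fintype.card F := Fintype.card_pos
  have h2 : 1 ≤ Fintype.card F ^ 2 := Nat.one_le_pow _ _ h1
  change (_ - 1) ^ 2 * _ * _ = _
  simp only [Ea, List.map_cons, List.map_nil, List.sum_cons, List.sum_nil,
    List.prod_cons, List.prod_nil]
  zify [h1, h2]
  ring

theorem tabs : (∀ r < 12, K.r r 1 % 2 = 0 → (K.r r 0 = 1 ∨ K.r r 0 = -1 ∨ K.r r 1 = 2 ∨ K.r r 1 = -2) ∧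
    (K.r r 1 = 2 → K.r r 0 = 3) ∧ (K.r r 1 = -2 → K.r r 0 = -3) ∧ -2 ≤ K.r r 1 ∧ K.r r 1 ≤ 2) ∧
    (∀ r < 12, -2 ≤ K.r r 1 ∧ K.r r 1 ≤ 2) ∧
    K.r 11 0 = 3 ∧ K.r 11 1 = 2 ∧ K.word [1, 0] (K.si 1) = 11 ∧
    K.pp (K.si 0) 0 = 2 ∧ K.pp (K.si 0) 1 = -3 ∧ K.pp 11 0 = 0 ∧ K.pp 11 1 = 1 := by
  decide +kernel

theorem exists_hom (hF : Odd (Fintype.card F)) : ∃ φ ψ : SL2 F →* K.D.group F,
    Function.Injective φ ∧ Function.Injective ψ ∧ (∀ a b, φ a * ψ b = ψ b * φ a) ∧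
    φ (dg (-1)) = t0 hF ∧ ψ (dg (-1)) = t0 hF := by
  obtain ⟨T1, T2, T3, T4, T5, T6, T7, T8, T9⟩ := tabs
  set C := ok.cgG (two_ne_of_odd hF) with hC
  let i0 : Fin K.l := ⟨0, by decide⟩
  let i1 : Fin K.l := ⟨1, by decide⟩
  have hi : ∀ i : Fin K.l, i = i0 ∨ i = i1 := by
    rintro ⟨i, hi⟩
    change i < 2 at hi
    interval_cases i
    exacts [Or.inl rfl, Or.inr rfl]
  obtain ⟨φ, p1, p2, p3, p4⟩ := C.exists_phi i0
  obtain ⟨ψ, q1, q2, q3, q4⟩ := C.exists_phi i1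
  obtain ⟨-, w, hw, hw2⟩ := ok.word_lt (wd := [1, 0]) (by decide) (ok.ok0.si_lt 1 (by decide))
  rw [T5, ok.ok0.rv_si i1] at hw2
  obtain ⟨g, hg⟩ := C.exists_rep hw
  have h11 : (11 : ℕ) < K.n := by decide
  have hΦ : K.rv 11 ∈ ok.ok0.rs.Φ := rv_mem h11
  have key : ∀ ε δ : ℤ, (ε = 1 ∨ ε = -1) → (δ = 1 ∨ δ = -1) → ∀ a b,
      Commute (C.x (ε • al i0) a) (C.x (δ • K.rv 11) b) := by
    intro ε δ hε hδ a b
    have m1 : ε • al i0 ∈ ok.ok0.rs.Φ := by
      rcases hε with rfl | rfl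
      · simpa using ok.ok0.rs.al_mem i0
      · simpa using ok.ok0.rs.neg_mem _ (ok.ok0.rs.al_mem i0)
    have m2 : δ • K.rv 11 ∈ ok.ok0.rs.Φ := by
      rcases hδ with rfl | rfl
      · simpa using hΦ
      · simpa using ok.ok0.rs.neg_mem _ hΦ
    have v0 : al i0 i1 = 0 := rfl
    have v1 : al i0 i0 = 1 := rfl
    have v2 : K.rv 11 i0 = 3 := T3
    have v3 : K.rv 11 i1 = 2 := T4
    refine CG.commute_of_no m1 m2 (fun h => ?_) (fun h => ?_) (fun i j hi hj h => ?_) a b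
    · have := congrFun h i1
      simp only [Pi.smul_apply, v0, v3, smul_eq_mul] at this
      omega
    · have := congrFun h i1
      simp only [Pi.smul_apply, Pi.neg_apply, v0, v3, smul_eq_mul] at this
      omega
    · obtain ⟨r, hr, h⟩ := mem_Φ.mp h
      have e0 : K.r r 0 = _ := congrFun h i0
      have e1 : K.r r 1 = _ := congrFun h i1
      simp only [Pi.add_apply, Pi.smul_apply, v0, v1, v2, v3, smul_eq_mul] at e0 e1
      simp only [nsmul_eq_mul] at e0 e1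
      have := T2 r hr
      have := T1 r hr
      rcases hε with rfl | rfl <;> rcases hδ with rfl | rfl <;> omega
  obtain ⟨η, -, hη⟩ := hg.x _ (ok.ok0.rs.al_mem i1)
  obtain ⟨η', -, hη'⟩ := hg.x _ (ok.ok0.rs.neg_mem _ (ok.ok0.rs.al_mem i1))
  rw [map_neg, hw2] at hη'
  rw [hw2] at hη
  refine ⟨φ, (MulAut.conj g).toMonoidHom.comp ψ, p1, (MulAut.conj g).injective.comp q1,
    fun a b => ?_, ?_, ?_⟩
  · have k1 : ∀ y : K.D.group F, (∀ c, Commute y (C.x (K.rv 11) c)) →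
        (∀ c, Commute y (C.x (-K.rv 11) c)) →
        ∀ b, Commute y (((MulAut.conj g).toMonoidHom.comp ψ) b) := by
      intro y h1 h2 b
      refine Subgroup.mem_centralizer_singleton_iff.mp (SL2_mem
        (K := (Subgroup.centralizer {y}).comap ((MulAut.conj g).toMonoidHom.comp ψ))
        (fun a => ?_) (fun a => ?_) b) |>.symm
      · refine Subgroup.mem_centralizer_singleton_iff.mpr (Commute.symm ?_)
        change Commute y (g * ψ _ * g⁻¹)
        rw [q2, hη, mul_inv_cancel_right]; exact h1 _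
      · refine Subgroup.mem_centralizer_singleton_iff.mpr (Commute.symm ?_)
        change Commute y (g * ψ _ * g⁻¹)
        rw [q3, hη', mul_inv_cancel_right]; exact h2 _
    refine Subgroup.mem_centralizer_singleton_iff.mp (SL2_mem
      (K := (Subgroup.centralizer {((MulAut.conj g).toMonoidHom.comp ψ) b}).comap φ)
      (fun a => ?_) (fun a => ?_) a)
    · refine Subgroup.mem_centralizer_singleton_iff.mpr (k1 _ (fun c => ?_) (fun c => ?_) b)
      · rw [p2]; simpa using key 1 1 (Or.inl rfl) (Or.inl rfl) a c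
      · rw [p2]; simpa using key 1 (-1) (Or.inl rfl) (Or.inr rfl) a c
    · refine Subgroup.mem_centralizer_singleton_iff.mpr (k1 _ (fun c => ?_) (fun c => ?_) b)
      · rw [p3]; simpa using key (-1) 1 (Or.inr rfl) (Or.inl rfl) a c
      · rw [p3]; simpa using key (-1) (-1) (Or.inr rfl) (Or.inr rfl) a c
  · rw [p4, t0]
    congr 1
    refine chr_ext fun i => ?_
    have : ok.ok0.rs.c (al i0) (al i) = K.pp (K.si 0) i := by
      change K.cv (K.ix _) _ = _
      rw [ok.ok0.c_al, cv_al]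
    rw [coch_apply, chi_al, this]
    rcases hi i with rfl | rfl
    · rw [T6, if_neg (by decide)]; norm_num
    · rw [T7, if_pos (by decide)]; norm_num
  · change g * ψ _ * g⁻¹ = _
    rw [q4, hg.comm_h, mul_inv_cancel_right, t0]
    congr 1
    refine chr_ext fun i => ?_
    have : ok.ok0.rs.c (K.rv 11) (al i) = K.pp 11 i := by
      change K.cv (K.ix _) _ = _
      rw [ok.ok0.ix_rv h11, cv_al]
    rw [cw_apply, coch_apply, chi_al, ← RS.c_W' hw (ok.ok0.rs.al_mem i1), hw2, this]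
    rcases hi i with rfl | rfl
    · rw [T8, if_neg (by decide)]; norm_num
    · rw [T9, if_pos (by decide)]; norm_num

end G2
end Ch
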