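import Cfsg.Agent.Ch.Poin

/-! Abstract adjoint Chevalley groups: torus, monomial group, triangularity. -/

set_option linter.unusedSectionVars false

namespace Ch
open Finset

variable {ι : Type} [Fintype ι] [DecidableEq ι]

/-- the set of root elements `x t c`, `t = i r + j s`. -/
def commSet (R : RS ι) {F G : Type*} (x : La ι → F → G) (r s : La ι) : Set G :=
  {g | ∃ t ∈ R.Φ, ∃ i j : ℕ, 0 < i ∧ 0 < j ∧ t = i • r + j • s ∧ ∃ c, g = x t c}

def Good (R : RS ι) {F G : Type*} [Group G] (x : La ι → F → G) (r : La ι) : Prop :=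
  ∀ s ∈ R.Φ, s ≠ r → s ≠ -r → ∀ a b, x r a * x s b * (x r a)⁻¹ * (x s b)⁻¹ ∈
    Subgroup.closure (commSet R x r s)

structure CG (R : RS ι) (F : Type*) [Field F] (I : Type) [Fintype I] [DecidableEq I]
    (G : Type*) [Group G] where
  ρ : G →* Matrix I I F
  inj : Function.Injective ρ
  wt : I → La ι
  e : La ι → I
  z : ι → I
  wt_e : ∀ r ∈ R.Φ, wt (e r) = r
  wt_z : ∀ i, wt (z i) = 0
  z_inj : Function.Injective z
  idx : ∀ j, (∃ r ∈ R.Φ, j = e r) ∨ ∃ i, j = z i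
  x : La ι → F → G
  h : Chr ι F → G
  ρ_h : ∀ χ, ρ (h χ) = Matrix.diagonal fun j => χ (wt j)
  x_out : ∀ r, r ∉ R.Φ → ∀ a, x r a = 1
  x_add : ∀ r ∈ R.Φ, ∀ a b, x r (a + b) = x r a * x r b
  x_tri : ∀ r ∈ R.Φ, ∀ a j k, ρ (x r a) j k ≠ (1 : Matrix I I F) j k →
    ∃ m : ℕ, 0 < m ∧ wt j = wt k + m • r
  h_x : ∀ χ, ∀ r ∈ R.Φ, ∀ a, h χ * x r a = x r (χ r * a) * h χ
  x_lin : ∀ r ∈ R.Φ, ∃ j k, wt j = wt k + r ∧ ∃ m : F, m ≠ 0 ∧ ∀ a, ρ (x r a) j k = m * a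
  x_ez : ∀ i, ∃ m : F, m ≠ 0 ∧ ∀ a, ρ (x (al i) a) (e (al i)) (z i) = m * a
  x_ze : ∀ i, ∃ m : F, m ≠ 0 ∧ ∀ a, ρ (x (-al i) a) (z i) (e (al i)) = m * a
  n_wt : ∀ i j k, ρ (x (al i) 1 * x (-al i) (-1) * x (al i) 1) j k ≠ 0 →
    wt j = R.s (al i) (wt k)
  n_z : ∀ i k' k, ρ (x (al i) 1 * x (-al i) (-1) * x (al i) 1) (z k') (z k) =
    (if k' = k then 1 else 0) - if k' = i then ((R.c (al k) (al i) : ℤ) : F) else 0
  n_x : ∀ i, ∀ r ∈ R.Φ, ∃ η : F, η ≠ 0 ∧ ∀ a,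
    x (al i) 1 * x (-al i) (-1) * x (al i) 1 * x r a =
      x (R.s (al i) r) (η * a) * (x (al i) 1 * x (-al i) (-1) * x (al i) 1)
  n_al : ∀ i a, x (al i) 1 * x (-al i) (-1) * x (al i) 1 * x (al i) a =
      x (-al i) (-a) * (x (al i) 1 * x (-al i) (-1) * x (al i) 1)
  comm : ∀ i, ∃ w ∈ R.W, Good R x (w (al i))

namespace CG
open RS
variable {R : RS ι} {F : Type*} [Field F] {I : Type} [Fintype I] [DecidableEq I]
  {G : Type*} [Group G] (C : CG R F I G)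

def n (i : ι) : G := C.x (al i) 1 * C.x (-al i) (-1) * C.x (al i) 1

theorem x_zero {r : La ι} (hr : r ∈ R.Φ) : C.x r 0 = 1 := by
  have := C.x_add r hr 0 0
  rw [add_zero] at this
  exact mul_eq_left.mp this.symm

theorem x_inv {r : La ι} (hr : r ∈ R.Φ) (a : F) : (C.x r a)⁻¹ = C.x r (-a) := by
  rw [inv_eq_iff_mul_eq_one, ← C.x_add r hr, add_neg_cancel, C.x_zero hr]

theorem h_one : C.h 1 = 1 := C.inj (by rw [C.ρ_h, map_one]; simp)

theorem h_mul (χ ψ : Chr ι F) : C.h (χ * ψ) = C.h χ * C.h ψ :=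
  C.inj (by rw [map_mul, C.ρ_h, C.ρ_h, C.ρ_h, Matrix.diagonal_mul_diagonal]; rfl)

def hHom : Chr ι F →* G := ⟨⟨C.h, C.h_one⟩, C.h_mul⟩

theorem h_inv (χ : Chr ι F) : C.h χ⁻¹ = (C.h χ)⁻¹ := map_inv C.hHom χ

theorem h_comm (χ ψ : Chr ι F) : C.h χ * C.h ψ = C.h ψ * C.h χ := by
  rw [← C.h_mul, ← C.h_mul, mul_comm]

theorem h_inj : Function.Injective C.h := by
  intro χ ψ h
  refine chr_ext fun i => ?_
  have := congrFun (congrFun (congrArg C.ρ h) (C.e (al i))) (C.e (al i))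
  simpa [C.ρ_h, C.wt_e _ (R.al_mem i)] using this

theorem eq_e {j : I} {r : La ι} (hr : r ∈ R.Φ) (h : C.wt j = r) : j = C.e r := by
  rcases C.idx j with ⟨r', hr', rfl⟩ | ⟨i, rfl⟩
  · rw [C.wt_e _ hr'] at h; rw [h]
  · rw [C.wt_z] at h; exact absurd h.symm (ne_zero hr)

theorem col_ne (g : G) (k : I) : ∃ j, C.ρ g j k ≠ 0 := by
  by_contra h
  push Not at h
  have : (C.ρ g⁻¹ * C.ρ g) k k = 1 := by rw [← map_mul, inv_mul_cancel, map_one]; simp
  simp [Matrix.mul_apply, h] at this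

theorem h_mul_of_wt {g : G} {w : Aut ι} (hg : ∀ j k, C.ρ g j k ≠ 0 → C.wt j = w (C.wt k))
    (χ : Chr ι F) : C.h χ * g = g * C.h (cw χ w) := by
  apply C.inj
  rw [map_mul, map_mul, C.ρ_h, C.ρ_h]
  ext j k
  rw [Matrix.diagonal_mul, Matrix.mul_diagonal]
  by_cases h0 : C.ρ g j k = 0
  · simp [h0]
  · rw [hg j k h0, cw_apply, mul_comm]

theorem h_n (i : ι) (χ : Chr ι F) : C.h χ * C.n i = C.n i * C.h (cw χ (R.s (al i))) :=
  C.h_mul_of_wt (C.n_wt i) χ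

theorem n_h (i : ι) (χ : Chr ι F) : C.n i * C.h χ = C.h (cw χ (R.s (al i))) * C.n i := by
  rw [C.h_n]
  congr 2
  ext μ
  simp [s_s (R.al_mem i)]

theorem nl (i : ι) (a : Fˣ) :
    C.x (al i) a * C.x (-al i) (-(a : F)⁻¹) * C.x (al i) a =
      C.h (coch (R.c (al i)) a) * C.n i := by
  classical
  set χ : Chr ι F := mkChr fun _ => a with hχ
  have h1 : χ (al i) = a := mkChr_al _ _
  have h2 : χ (-al i) = (a : F)⁻¹ := by rw [AddChar.map_neg_eq_inv, h1]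
  have h3 : C.h χ * C.n i =
      C.x (al i) a * C.x (-al i) (-(a : F)⁻¹) * C.x (al i) a * C.h χ := by
    rw [n, ← mul_assoc, ← mul_assoc, C.h_x _ _ (R.al_mem i), mul_assoc _ (C.h χ),
      C.h_x _ _ (R.neg_mem _ (R.al_mem i)), mul_assoc, mul_assoc, mul_assoc,
      C.h_x _ _ (R.al_mem i), h1, h2]
    simp [mul_assoc]
  rw [eq_mul_inv_iff_mul_eq.mpr h3.symm, ← C.h_inv, mul_assoc, C.n_h, ← mul_assoc, ← C.h_mul]
  congr 2
  ext μ
  rw [AddChar.mul_apply, cw_apply, AddChar.inv_apply', s_apply (R.al_mem i),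
    AddChar.map_sub_eq_div, AddChar.map_zsmul_eq_zpow, h1, coch_apply]
  field_simp [chr_ne χ μ]

theorem n_inv (i : ι) : (C.n i)⁻¹ = C.h (coch (R.c (al i)) (-1)) * C.n i := by
  rw [← C.nl, n, mul_inv_rev, mul_inv_rev, C.x_inv (R.al_mem i),
    C.x_inv (R.neg_mem _ (R.al_mem i))]
  simp [mul_assoc]

def RepG : Subgroup (G × Aut ι) :=
  Subgroup.closure (Set.range (fun χ => (C.h χ, 1)) ∪ Set.range fun i => (C.n i, R.s (al i)))

def Rep (g : G) (w : Aut ι) : Prop := (g, w) ∈ C.RepG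

variable {C}

theorem rep_h (χ : Chr ι F) : C.Rep (C.h χ) 1 := Subgroup.subset_closure (Or.inl ⟨χ, rfl⟩)
theorem rep_n (i : ι) : C.Rep (C.n i) (R.s (al i)) := Subgroup.subset_closure (Or.inr ⟨i, rfl⟩)
theorem rep_one : C.Rep 1 1 := one_mem C.RepG
theorem Rep.mul {g g' : G} {w w' : Aut ι} (h : C.Rep g w) (h' : C.Rep g' w') :
    C.Rep (g * g') (w * w') := C.RepG.mul_mem h h'
theorem Rep.inv {g : G} {w : Aut ι} (h : C.Rep g w) : C.Rep g⁻¹ w⁻¹ := C.RepG.inv_mem h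

theorem Rep.h_mul {g : G} {w : Aut ι} (h : C.Rep g w) (χ : Chr ι F) : C.Rep (C.h χ * g) w := by
  simpa using (rep_h χ).mul h

theorem Rep.mul_h {g : G} {w : Aut ι} (h : C.Rep g w) (χ : Chr ι F) : C.Rep (g * C.h χ) w := by
  simpa using h.mul (rep_h χ)

theorem Rep.ind {p : G → Aut ι → Prop} (h1 : p 1 1)
    (hh : ∀ χ g w, C.Rep g w → p g w → p (C.h χ * g) w)
    (hn : ∀ i g w, C.Rep g w → p g w → p (C.n i * g) (R.s (al i) * w))
    {g : G} {w : Aut ι} (h : C.Rep g w) : p g w := by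
  suffices ∀ y ∈ C.RepG, p y.1 y.2 from this _ h
  intro y hy
  induction hy using Subgroup.closure_induction_left with
  | one => exact h1
  | mul_left x hx y hy ih =>
    rcases hx with ⟨χ, rfl⟩ | ⟨i, rfl⟩
    · simpa using hh χ y.1 y.2 hy ih
    · exact hn i y.1 y.2 hy ih
  | inv_mul_cancel x hx y hy ih =>
    rcases hx with ⟨χ, rfl⟩ | ⟨i, rfl⟩
    · simpa [C.h_inv] using hh χ⁻¹ y.1 y.2 hy ih
    · have := hh (coch (R.c (al i)) (-1)) _ _ ((rep_n i).mul hy) (hn i y.1 y.2 hy ih)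
      simpa [C.n_inv, s_inv (R.al_mem i), mul_assoc] using this

theorem Rep.mem_W {g : G} {w : Aut ι} (h : C.Rep g w) : w ∈ R.W :=
  Rep.ind (p := fun _ w => w ∈ R.W) (one_mem _) (fun _ _ _ _ h => h)
    (fun i _ _ _ h => mul_mem (s_al_mem i) h) h

variable (C) in
theorem exists_rep {w : Aut ι} (hw : w ∈ R.W) : ∃ g, C.Rep g w :=
  W_ind (p := fun w => ∃ g, C.Rep g w) ⟨1, rep_one⟩
    (fun i _ _ ⟨g, hg⟩ => ⟨C.n i * g, (rep_n i).mul hg⟩) hw

theorem Rep.x {g : G} {w : Aut ι} (h : C.Rep g w) :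
    ∀ r ∈ R.Φ, ∃ η : F, η ≠ 0 ∧ ∀ a, g * C.x r a = C.x (w r) (η * a) * g := by
  refine Rep.ind (p := fun g w => ∀ r ∈ R.Φ, ∃ η : F, η ≠ 0 ∧
    ∀ a, g * C.x r a = C.x (w r) (η * a) * g) ?_ ?_ ?_ h
  · exact fun r _ => ⟨1, one_ne_zero, fun a => by simp⟩
  · intro χ g w hg ih r hr
    obtain ⟨η, h0, h1⟩ := ih r hr
    refine ⟨χ (w r) * η, mul_ne_zero (chr_ne _ _) h0, fun a => ?_⟩
    rw [mul_assoc, h1, ← mul_assoc, C.h_x _ _ (W_mem hg.mem_W hr), mul_assoc, mul_assoc]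
  · intro i g w hg ih r hr
    obtain ⟨η, h0, h1⟩ := ih r hr
    obtain ⟨η', h0', h1'⟩ := C.n_x i _ (W_mem hg.mem_W hr)
    refine ⟨η' * η, mul_ne_zero h0' h0, fun a => ?_⟩
    rw [mul_assoc, h1, ← mul_assoc, n, h1', mul_assoc, mul_assoc η', LinearEquiv.mul_apply]

theorem Rep.wt {g : G} {w : Aut ι} (h : C.Rep g w) :
    ∀ j k, C.ρ g j k ≠ 0 → C.wt j = w (C.wt k) := by
  refine Rep.ind (p := fun g w => ∀ j k, C.ρ g j k ≠ 0 → C.wt j = w (C.wt k)) ?_ ?_ ?_ h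
  · intro j k h
    rw [map_one] at h
    by_cases hjk : j = k
    · rw [hjk]; rfl
    · exact absurd (Matrix.one_apply_ne hjk) h
  · intro χ g w _ ih j k h
    rw [map_mul, C.ρ_h, Matrix.diagonal_mul] at h
    exact ih j k (right_ne_zero_of_mul h)
  · intro i g w _ ih j k h
    rw [map_mul, Matrix.mul_apply] at h
    obtain ⟨m, _, hm⟩ := exists_ne_zero_of_sum_ne_zero h
    rw [C.n_wt i j m (left_ne_zero_of_mul hm), ih m k (right_ne_zero_of_mul hm)]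
    rfl

theorem Rep.h_comm {g : G} {w : Aut ι} (h : C.Rep g w) (χ : Chr ι F) :
    C.h χ * g = g * C.h (cw χ w) := C.h_mul_of_wt h.wt χ

theorem Rep.comm_h {g : G} {w : Aut ι} (h : C.Rep g w) (χ : Chr ι F) :
    g * C.h χ = C.h (cw χ w⁻¹) * g := by
  rw [h.h_comm]
  congr 2
  ext μ
  simp

theorem sum_z (f : I → F) (hf : ∀ r ∈ R.Φ, f (C.e r) = 0) : ∑ m, f m = ∑ i, f (C.z i) := by
  symm
  refine sum_of_injOn C.z (C.z_inj.injOn) (by simp [Set.MapsTo]) ?_ (fun _ _ => rfl)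
  intro m _ hm
  rcases C.idx m with ⟨r, hr, rfl⟩ | ⟨i, rfl⟩
  · exact hf r hr
  · exact absurd ⟨i, by simp, rfl⟩ hm

theorem Rep.zblock {g : G} {w : Aut ι} (h : C.Rep g w) : ∀ k μ,
    ∑ k', C.ρ g (C.z k') (C.z k) * ((R.c (al k') (w μ) : ℤ) : F) = ((R.c (al k) μ : ℤ) : F) := by
  refine Rep.ind (p := fun g w => ∀ k μ, ∑ k', C.ρ g (C.z k') (C.z k) *
    ((R.c (al k') (w μ) : ℤ) : F) = ((R.c (al k) μ : ℤ) : F)) ?_ ?_ ?_ h
  · intro k μ
    simp [Matrix.one_apply, C.z_inj.eq_iff]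
  · intro χ g w _ ih k μ
    simpa [C.ρ_h, C.wt_z] using ih k μ
  · intro i g w hg ih k μ
    rw [← ih k μ]
    have h1 : ∀ k', C.ρ (C.n i * g) (C.z k') (C.z k) =
        ∑ m, C.ρ (C.n i) (C.z k') (C.z m) * C.ρ g (C.z m) (C.z k) := by
      intro k'
      rw [map_mul, Matrix.mul_apply, sum_z (C := C)]
      intro r hr
      by_contra hne
      have := hg.wt _ _ (right_ne_zero_of_mul hne)
      rw [C.wt_e r hr, C.wt_z, map_zero] at this
      exact ne_zero hr this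
    simp_rw [h1, sum_mul]
    rw [sum_comm]
    refine sum_congr rfl fun m _ => ?_
    simp_rw [mul_comm (C.ρ (C.n i) _ _), mul_assoc]
    rw [← mul_sum]
    congr 1
    simp_rw [n, C.n_z, sub_mul, sum_sub_distrib, ite_mul, zero_mul, one_mul]
    rw [sum_ite_eq', sum_ite_eq', if_pos (mem_univ _), if_pos (mem_univ _),
      LinearEquiv.mul_apply, s_apply (R.al_mem i), map_sub, map_sub, map_zsmul, map_zsmul,
      R.two _ (R.al_mem i)]
    simp only [smul_eq_mul]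
    push_cast
    ring

theorem Rep.diag {g : G} (h : C.Rep g 1) :
    C.ρ g = Matrix.diagonal (fun j => C.ρ g j j) ∧ ∀ i, C.ρ g (C.z i) (C.z i) = 1 := by
  have hz : ∀ i k, C.ρ g (C.z i) (C.z k) = if i = k then 1 else 0 := by
    intro i k
    have := h.zblock k (R.ω i)
    simp only [LinearEquiv.coe_one, id_eq, R.omega] at this
    simpa [eq_comm] using this
  refine ⟨?_, fun i => by simp [hz]⟩
  ext j k
  by_cases hjk : j = k
  · simp [hjk]
  rw [Matrix.diagonal_apply_ne _ hjk]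
  by_contra hne
  have hw : C.wt j = C.wt k := h.wt j k hne
  rcases C.idx k with ⟨r, hr, rfl⟩ | ⟨i, rfl⟩
  · exact hjk (C.eq_e hr (by rw [hw, C.wt_e r hr]))
  · rcases C.idx j with ⟨r, hr, rfl⟩ | ⟨i', rfl⟩
    · rw [C.wt_e r hr, C.wt_z] at hw; exact ne_zero hr hw
    · rw [hz, if_neg (fun h => hjk (by rw [h]))] at hne; exact hne rfl

theorem Rep.eq_one {g : G} (h : C.Rep g 1) (h1 : ∀ i, C.ρ g (C.e (al i)) (C.e (al i)) = 1) :
    g = 1 := by
  obtain ⟨hd, hz⟩ := h.diag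
  set d : I → F := fun j => C.ρ g j j with hdd
  have ent : ∀ y y' : G, g * y = y' * g → ∀ j k, d j * C.ρ y j k = C.ρ y' j k * d k := by
    intro y y' hy j k
    have := congrFun (congrFun (congrArg C.ρ hy) j) k
    rwa [map_mul, map_mul, hd, Matrix.diagonal_mul, Matrix.mul_diagonal] at this
  have hn : ∀ i, g * C.n i = C.n i * g := by
    intro i
    have c1 : ∀ a, g * C.x (al i) a = C.x (al i) a * g := by
      obtain ⟨η, _, hη⟩ := h.x _ (R.al_mem i)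
      obtain ⟨m, hm, hm'⟩ := C.x_ez i
      have := ent _ _ (hη 1) (C.e (al i)) (C.z i)
      simp only [LinearEquiv.coe_one, id_eq, hm', hdd, h1, hz, mul_one, one_mul] at this
      have hη1 : η = 1 := by simpa [hm] using this.symm
      intro a
      simpa [hη1] using hη a
    have c2 : ∀ a, g * C.x (-al i) a = C.x (-al i) a * g := by
      obtain ⟨η, _, hη⟩ := h.x _ (R.neg_mem _ (R.al_mem i))
      obtain ⟨m, hm, hm'⟩ := C.x_ze i
      have := ent _ _ (hη 1) (C.z i) (C.e (al i))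
      simp only [LinearEquiv.coe_one, id_eq, hm', hdd, h1, hz, mul_one, one_mul] at this
      have hη1 : η = 1 := by simpa [hm] using this.symm
      intro a
      simpa [hη1] using hη a
    exact (Commute.mul_right (Commute.mul_right (c1 1) (c2 (-1))) (c1 1) :)
  have hW : ∀ w ∈ R.W, ∀ r ∈ R.Φ, d (C.e (w r)) = d (C.e r) := by
    intro w hw
    refine W_ind (p := fun w => ∀ r ∈ R.Φ, d (C.e (w r)) = d (C.e r)) (fun _ _ => rfl) ?_ hw
    intro i w hw ih r hr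
    rw [← ih r hr, LinearEquiv.mul_apply]
    have hr' := W_mem hw hr
    obtain ⟨j, hj⟩ := C.col_ne (C.n i) (C.e (w r))
    have hj' := C.n_wt i _ _ hj
    rw [C.wt_e _ hr'] at hj'
    rw [← C.eq_e (W_mem (s_al_mem i) hr') hj']
    have := ent _ _ (hn i) j (C.e (w r))
    rw [mul_comm] at this
    exact mul_left_cancel₀ hj this
  apply C.inj
  rw [hd, map_one, ← Matrix.diagonal_one]
  congr 1
  ext j
  rcases C.idx j with ⟨r, hr, rfl⟩ | ⟨i, rfl⟩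
  · obtain ⟨w, hw, i, rfl⟩ := exists_simple hr
    rw [hW w hw _ (R.al_mem i)]; exact h1 i
  · exact hz i

theorem Rep.exists_h {g : G} (h : C.Rep g 1) : ∃ χ, g = C.h χ := by
  have hne : ∀ j, C.ρ g j j ≠ 0 := by
    intro k
    obtain ⟨j, hj⟩ := C.col_ne g k
    by_cases hjk : j = k
    · rwa [hjk] at hj
    · rw [h.diag.1, Matrix.diagonal_apply_ne _ hjk] at hj; exact absurd rfl hj
  set χ : Chr ι F := mkChr fun i => Units.mk0 _ (hne (C.e (al i))) with hχ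
  refine ⟨χ, ?_⟩
  have := (h.h_mul χ⁻¹).eq_one fun i => by
    rw [map_mul, C.ρ_h, Matrix.diagonal_mul, C.wt_e _ (R.al_mem i), AddChar.inv_apply', hχ,
      mkChr_al, Units.val_mk0, inv_mul_cancel₀ (hne _)]
  rw [C.h_inv, inv_mul_eq_one] at this
  exact this.symm

theorem Rep.exists_h_mul {g g' : G} {w : Aut ι} (h : C.Rep g w) (h' : C.Rep g' w) :
    ∃ χ, g = C.h χ * g' := by
  have := h.mul h'.inv
  rw [mul_inv_cancel] at this
  obtain ⟨χ, hχ⟩ := this.exists_h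
  exact ⟨χ, by rw [← hχ, inv_mul_cancel_right]⟩

theorem good {r : La ι} (hr : r ∈ R.Φ) : Good R C.x r := by
  have key : ∀ w ∈ R.W, ∀ r ∈ R.Φ, Good R C.x r → Good R C.x (w r) := by
    intro w hw r hr hg s hs h1 h2 a b
    obtain ⟨g, hg'⟩ := C.exists_rep hw
    have hs' := W_mem (inv_mem hw) hs
    obtain ⟨η, h0, hη⟩ := hg'.x r hr
    obtain ⟨η', h0', hη'⟩ := hg'.x _ hs'
    have := hg (w⁻¹ s) hs' (fun h => h1 (by rw [← h, apply_inv_apply]))
      (fun h => h2 (by rw [← map_neg, ← h, apply_inv_apply])) (η⁻¹ * a) (η'⁻¹ * b)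
    have e1 : C.x (w r) a = MulAut.conj g (C.x r (η⁻¹ * a)) := by
      rw [MulAut.conj_apply, hη, mul_inv_cancel_left₀ h0, mul_inv_cancel_right]
    have e2 : C.x s b = MulAut.conj g (C.x (w⁻¹ s) (η'⁻¹ * b)) := by
      rw [MulAut.conj_apply, hη', mul_inv_cancel_left₀ h0', mul_inv_cancel_right, apply_inv_apply]
    rw [e1, e2, ← map_inv, ← map_inv, ← map_mul, ← map_mul, ← map_mul]
    have h3 := Subgroup.mem_map_of_mem (MulAut.conj g).toMonoidHom this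
    rw [MonoidHom.map_closure] at h3
    refine Subgroup.closure_mono ?_ h3
    rintro _ ⟨_, ⟨t, ht, i, j, hi, hj, rfl, c, rfl⟩, rfl⟩
    obtain ⟨η'', _, hη''⟩ := hg'.x _ ht
    refine ⟨_, W_mem hw ht, i, j, hi, hj, by
      rw [map_add, map_nsmul, map_nsmul, apply_inv_apply], η'' * c, ?_⟩
    simp only [MulEquiv.toMonoidHom_eq_coe, MonoidHom.coe_coe, MulAut.conj_apply]
    rw [hη'', mul_inv_cancel_right]
  obtain ⟨w, hw, i, rfl⟩ := exists_simple hr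
  obtain ⟨w', hw', hg⟩ := C.comm i
  have := key (w * w'⁻¹) (mul_mem hw (inv_mem hw')) _ (W_mem hw' (R.al_mem i)) hg
  rwa [LinearEquiv.mul_apply, inv_apply_apply] at this

variable (C)

def X : Subgroup G := Subgroup.closure {g | ∃ r ∈ R.Φ, ∃ a, g = C.x r a}

theorem x_mem_X (r : La ι) (a : F) : C.x r a ∈ C.X := by
  by_cases hr : r ∈ R.Φ
  · exact Subgroup.subset_closure ⟨r, hr, a, rfl⟩
  · rw [C.x_out r hr]; exact one_mem _

theorem h_mem_X (χ : Chr ι F) : C.h χ ∈ C.X := by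
  rw [chr_eq_prod (R := R) χ]
  change C.hHom _ ∈ _
  induction (univ : Finset ι) using Finset.induction_on with
  | empty => simp
  | insert i s ha ih =>
    rw [prod_insert ha, map_mul]
    refine mul_mem ?_ ih
    change C.h _ ∈ _
    rw [← mul_inv_eq_iff_eq_mul.mpr (C.nl i _), n]
    exact mul_mem (mul_mem (mul_mem (C.x_mem_X _ _) (C.x_mem_X _ _)) (C.x_mem_X _ _))
      (inv_mem (mul_mem (mul_mem (C.x_mem_X _ _) (C.x_mem_X _ _)) (C.x_mem_X _ _)))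

def restrict (H : Subgroup G) (hH : H = C.X) : CG R F I H where
  ρ := C.ρ.comp H.subtype
  inj := C.inj.comp H.subtype_injective
  wt := C.wt
  e := C.e
  z := C.z
  wt_e := C.wt_e
  wt_z := C.wt_z
  z_inj := C.z_inj
  idx := C.idx
  x r a := ⟨C.x r a, hH ▸ C.x_mem_X r a⟩
  h χ := ⟨C.h χ, hH ▸ C.h_mem_X χ⟩
  ρ_h := C.ρ_h
  x_out r hr a := Subtype.ext (C.x_out r hr a)
  x_add r hr a b := Subtype.ext (C.x_add r hr a b)
  x_tri := C.x_tri
  h_x χ r hr a := Subtype.ext (C.h_x χ r hr a)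
  x_lin := C.x_lin
  x_ez := C.x_ez
  x_ze := C.x_ze
  n_wt := C.n_wt
  n_z := C.n_z
  n_x i r hr := by
    obtain ⟨η, h0, h⟩ := C.n_x i r hr
    exact ⟨η, h0, fun a => Subtype.ext (h a)⟩
  n_al i a := Subtype.ext (C.n_al i a)
  comm i := by
    obtain ⟨w, hw, h⟩ := C.comm i
    refine ⟨w, hw, fun s hs h1 h2 a b => ?_⟩
    rw [← Subgroup.mem_map_iff_mem H.subtype_injective, MonoidHom.map_closure]
    refine Subgroup.closure_mono ?_ (h s hs h1 h2 a b)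
    rintro _ ⟨t, ht, i, j, hi, hj, h3, c, rfl⟩
    exact ⟨⟨C.x t c, hH ▸ C.x_mem_X t c⟩, ⟨t, ht, i, j, hi, hj, h3, c, rfl⟩, rfl⟩

theorem restrict_X (H : Subgroup G) (hH : H = C.X) : (C.restrict H hH).X = ⊤ := by
  apply Subgroup.map_injective H.subtype_injective
  rw [X, MonoidHom.map_closure, ← MonoidHom.range_eq_map, Subgroup.range_subtype]
  refine Eq.trans ?_ hH.symm
  rw [X]
  congr 1
  ext g
  constructor
  · rintro ⟨_, ⟨r, hr, a, rfl⟩, rfl⟩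
    exact ⟨r, hr, a, rfl⟩
  · rintro ⟨r, hr, a, rfl⟩
    exact ⟨_, ⟨r, hr, a, rfl⟩, rfl⟩

end CG
end Ch
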