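import Cfsg.Agent.Ch.Cert
import Cfsg.Agent.Ch.Grp

/-! Certificates for Chevalley data: the group. -/

set_option linter.unusedSectionVars false

namespace Ch
open Finset Cfsg.Lie Matrix

noncomputable def conv (l : ℕ) (e : List (ℕ × ℤ)) : ℕ → TL :=
  List.rec (fun _ => TL.nil) (fun q _ ih k => TL.cons (Nat.add l q.1) q.2 (Nat.succ k) 0
    (ih (Nat.succ k))) e

noncomputable def chainTL (l : ℕ) (row : List (ℕ × Array (ℕ × ℤ))) (s : ℕ) : TL :=
  List.rec TL.nil (fun e _ ih => if e.1 = s then app (conv l e.2.toList 0) ih else ih) row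

noncomputable def walk (l : ℕ) (f : ℕ → TL → Bool) (m : ℕ) :
    ℕ → List (ℕ × Array (ℕ × ℤ)) → Bool :=
  Nat.rec (fun _ row => List.rec true (fun _ _ _ => false) row)
    (fun _ ih s row => List.rec (band (f s TL.nil) (ih (Nat.succ s) []))
      (fun e tl _ => Bool.rec (band (f s TL.nil) (ih (Nat.succ s) row))
        (band (f s (conv l e.2.toList 0)) (ih (Nat.succ s) tl)) (Nat.beq e.1 s)) row) m

theorem chainTL_nil {l : ℕ} {row : List (ℕ × Array (ℕ × ℤ))} {s : ℕ} (h : ∀ e ∈ row, e.1 ≠ s) :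
    chainTL l row s = .nil := by
  induction row with
  | nil => rfl
  | cons e tl ih =>
    have : chainTL l (e :: tl) s =
      if e.1 = s then app (conv l e.2.toList 0) (chainTL l tl s) else chainTL l tl s := rfl
    rw [this, if_neg (h e List.mem_cons_self), ih fun e he => h e (List.mem_cons_of_mem _ he)]

theorem walk_sound {l : ℕ} {f : ℕ → TL → Bool} {m s : ℕ} {row : List (ℕ × Array (ℕ × ℤ))}
    (h : walk l f m s row = true) : (∀ e ∈ row, s ≤ e.1) ∧
      ∀ s', s ≤ s' → s' < s + m → f s' (chainTL l row s') = true := by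
  induction m generalizing s row with
  | zero =>
    cases row with
    | nil => exact ⟨by simp, fun s' h1 h2 => by omega⟩
    | cons e tl => exact absurd h (by simp [walk])
  | succ m ih =>
    have key : ∀ row, f s .nil = true → walk l f m (s + 1) row = true → (∀ e ∈ row, s ≤ e.1) ∧
        ∀ s', s ≤ s' → s' < s + (m + 1) → f s' (chainTL l row s') = true := by
      intro row h1 h2
      obtain ⟨h3, h4⟩ := ih h2
      refine ⟨fun e he => by have := h3 e he; omega, fun s' h5 h6 => ?_⟩
      rcases h5.eq_or_lt with rfl | h5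
      · rwa [chainTL_nil fun e he => by have := h3 e he; omega]
      · exact h4 s' h5 (by omega)
    cases row with
    | nil =>
      have : walk l f (m + 1) s [] = band (f s .nil) (walk l f m (s + 1) []) := rfl
      rw [this, band_iff] at h
      exact key _ h.1 h.2
    | cons e tl =>
      have : walk l f (m + 1) s (e :: tl) = Bool.rec
        (band (f s .nil) (walk l f m (s + 1) (e :: tl)))
        (band (f s (conv l e.2.toList 0)) (walk l f m (s + 1) tl)) (Nat.beq e.1 s) := rfl
      rw [this] at h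
      cases hb : Nat.beq e.1 s
      · rw [hb] at h
        exact key _ (band_iff.mp h).1 (band_iff.mp h).2
      · rw [hb] at h
        obtain ⟨h1, h2⟩ := band_iff.mp h
        have he : e.1 = s := Nat.eq_of_beq_eq_true hb
        obtain ⟨h3, h4⟩ := ih h2
        refine ⟨fun e' he' => ?_, fun s' h5 h6 => ?_⟩
        · rcases List.mem_cons.mp he' with rfl | he'
          · omega
          · have := h3 e' he'; omega
        have e2 : chainTL l (e :: tl) s' =
          if e.1 = s' then app (conv l e.2.toList 0) (chainTL l tl s') else chainTL l tl s' := rfl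
        rw [e2]
        rcases h5.eq_or_lt with rfl | h5
        · rwa [if_pos he, chainTL_nil fun e he => by have := h3 e he; omega, app_nil]
        · rw [if_neg (by omega)]
          exact h4 s' h5 (by omega)

section
variable {F : Type*} [Field F]

theorem ev_conv (t : F) (l u : ℕ) (e : List (ℕ × ℤ)) (k : ℕ) :
    ev t 1 (l + u) (conv l e k) = ((((e.zipIdx k).filter (fun q => q.1.1 = u)).map
      fun q => (q.2 + 1, q.1.2)).map fun km : ℕ × ℤ => (km.2 : F) * t ^ km.1).sum := by
  induction e generalizing k with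
  | nil => rfl
  | cons q e ih =>
    have : conv l (q :: e) k = .cons (l + q.1) q.2 (k + 1) 0 (conv l e (k + 1)) := rfl
    rw [this, ev, ih, List.zipIdx_cons, List.filter_cons]
    by_cases h : q.1 = u <;> simp [h]

theorem ev_conv_lt (t : F) {l u : ℕ} (hu : u < l) (e : List (ℕ × ℤ)) (k : ℕ) :
    ev t 1 u (conv l e k) = 0 := by
  induction e generalizing k with
  | nil => rfl
  | cons q e ih =>
    have : conv l (q :: e) k = .cons (l + q.1) q.2 (k + 1) 0 (conv l e (k + 1)) := rfl
    rw [this, ev, ih, if_neg (by omega), add_zero]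

theorem ev_chainTL (t : F) (l u s : ℕ) (row : List (ℕ × Array (ℕ × ℤ))) :
    ev t 1 (l + u) (chainTL l row s) = (((row.filter (fun e => e.1 = s)).flatMap fun e =>
      ((e.2.toList.zipIdx).filter (fun q => q.1.1 = u)).map fun q => (q.2 + 1, q.1.2)).map
        fun km : ℕ × ℤ => (km.2 : F) * t ^ km.1).sum := by
  induction row with
  | nil => rfl
  | cons e tl ih =>
    have e2 : chainTL l (e :: tl) s =
      if e.1 = s then app (conv l e.2.toList 0) (chainTL l tl s) else chainTL l tl s := rfl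
    rw [e2, List.filter_cons]
    by_cases h : e.1 = s
    · rw [if_pos h, if_pos (by simpa using h), ev_app, ih, ev_conv, List.flatMap_cons,
        List.map_append, List.sum_append]
    · rw [if_neg h, if_neg (by simpa using h), ih]

theorem ev_chainTL_lt (t : F) {l u : ℕ} (hu : u < l) (s : ℕ) (row : List (ℕ × Array (ℕ × ℤ))) :
    ev t 1 u (chainTL l row s) = 0 := by
  induction row with
  | nil => rfl
  | cons e tl ih =>
    have e2 : chainTL l (e :: tl) s =
      if e.1 = s then app (conv l e.2.toList 0) (chainTL l tl s) else chainTL l tl s := rfl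
    rw [e2]
    split_ifs
    · rw [ev_app, ih, ev_conv_lt t hu, add_zero]
    · exact ih

noncomputable def hcol (cor : ℕ → ℤ) (top : ℕ) (m : ℕ) : TL :=
  Nat.rec (TL.cons top (-1) 2 0 TL.nil) (fun i ih => TL.cons i (cor i) 1 0 ih) m

theorem ev_hcol (t : F) (cor : ℕ → ℤ) (top m u : ℕ) : ev t 1 u (hcol cor top m) =
    (if u < m then (cor u : F) * t else 0) + if top = u then -t ^ 2 else 0 := by
  induction m with
  | zero => simp [hcol, ev]
  | succ m ih =>
    have : hcol cor top (m + 1) = .cons m (cor m) 1 0 (hcol cor top m) := rfl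
    rw [this, ev, ih, ← add_assoc]
    congr 1
    rcases lt_trichotomy u m with h | rfl | h
    · rw [if_neg h.ne', if_pos h, if_pos (by omega), zero_add]
    · simp
    · rw [if_neg h.ne, if_neg (by omega), if_neg (by omega), add_zero]

end

namespace Cert
variable (K : Cert)

abbrev N : ℕ := K.l + K.n
noncomputable def X (r : ℕ) : ℕ := nth K.xr r
noncomputable def Nn (i : ℕ) : ℕ := nth K.nr i
noncomputable def wtn (u i : ℕ) : ℤ := Bool.rec (K.r (Nat.sub u K.l) i) (Int.ofNat 0) (Nat.blt u K.l)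
noncomputable def eta (i r : ℕ) : ℤ := csum (K.l + K.σ i r) 0 0 (col (K.Nn i) (K.l + r))

/-- the fast tables represent the matrices of the datum. -/
noncomputable def cx (r : ℕ) : Bool :=
  decide (K.D.negIdx.getD r 0 = K.ng r) &&
  (all K.l fun j => eqv (TL.cons (K.l + r) (-(K.D.cartanSR.getD j #[]).getD r 0) 1 0 TL.nil)
    (col (K.X r) j)) &&
  eqv TL.nil (col (K.X r) (K.l + r)) &&
  eqv (hcol (fun i => (K.D.coroot.getD r #[]).getD i 0) (K.l + r) K.l)
    (col (K.X r) (K.l + K.ng r)) &&
  walk K.l (fun s v => bor (Nat.beq s r) (bor (Nat.beq s (K.ng r))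
    (eqv v (col (K.X r) (Nat.add K.l s))))) K.n 0 (K.D.chain.getD r #[]).toList &&
  anyb K.l fun i => decide ((K.D.coroot.getD r #[]).getD i 0 ∈ [1, -1, 2, -2])

noncomputable def c5 (r : ℕ) : Bool :=
  all K.N fun j => tall (fun u _ k _ => band (Nat.blt u K.N) (band (Nat.blt 0 k)
    (all K.l fun i => ibeq (K.wtn u i) (Int.add (K.wtn j i) (Int.mul (Int.ofNat k) (K.r r i))))))
    (col (K.X r) j)

noncomputable def c1 (r : ℕ) : Bool :=
  chk K.N (fun v => app (ap (K.X r) 1 1 0 v) (app (ap (K.X r) 1 0 1 v)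
    (ap (K.X r) 1 1 0 (ap (K.X r) 1 0 1 v)))) (apS (K.X r))

noncomputable def c2 (i : ℕ) : Bool :=
  chk K.N (ap (K.Nn i) 1 0 0) (fun v => apX (K.X (K.si i)) 1 0 0
    (apX (K.X (K.ng (K.si i))) (-1) 0 0 (apX (K.X (K.si i)) 1 0 0 v))) &&
  (all K.N fun j => tall (fun u _ _ _ => decide (u < K.N) &&
    decide (if j < K.l then u < K.l else u = K.l + K.σ i (j - K.l))) (col (K.Nn i) j)) &&
  (all K.l fun k => eqv (col (K.Nn i) k)
    (TL.cons k 1 0 0 (TL.cons i (-K.pp (K.si k) i) 0 0 TL.nil))) &&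
  decide (K.eta i (K.si i) = -1) &&
  decide ((K.D.cartanSR.getD i #[]).getD (K.si i) 0 = 2) &&
  decide ((K.D.coroot.getD (K.ng (K.si i)) #[]).getD i 0 = -1)

noncomputable def c3 (i : ℕ) : Bool :=
  all K.n fun r => band (decide (K.eta i r = 1 ∨ K.eta i r = -1))
    (chk K.N (fun v => ap (K.Nn i) 1 0 0 (ap (K.X r) 1 1 0 v))
      (fun v => ap (K.X (K.σ i r)) (K.eta i r) 1 0 (ap (K.Nn i) 1 0 0 v)))

noncomputable def apP (P : TL) (v : TL) : TL :=
  TL.rec v (fun t c i j _ ih => apX (K.X t) c i j ih) P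

noncomputable def c4 (θ s : ℕ) (P : TL) : Bool :=
  bor (Nat.beq s θ) (bor (Nat.beq s (K.ng θ)) (band
    (tall (fun t _ i j => decide (t < K.n) && decide (0 < i) && decide (0 < j) &&
      all K.l fun k => decide (K.r t k = i * K.r θ k + j * K.r s k)) P)
    (chk K.N (fun v => apX (K.X θ) 1 1 0 (apX (K.X s) 1 0 1 v))
      (fun v => K.apP P (apX (K.X s) 1 0 1 (apX (K.X θ) 1 1 0 v))))))

noncomputable def word (wd : List ℕ) (r : ℕ) : ℕ := List.rec r (fun i _ ih => K.σ i ih) wd

structure OK1 : Prop where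
  ok0 : K.OK0
  cx : ∀ r < K.n, K.cx r = true
  c5 : ∀ r < K.n, K.c5 r = true
  c1 : ∀ r < K.n, K.c1 r = true
  c2 : ∀ i < K.l, K.c2 i = true
  c3 : ∀ i < K.l, K.c3 i = true
  c4 : ∀ i < K.l, ∃ wd : List ℕ, (∀ j ∈ wd, j < K.l) ∧
    ∀ s < K.n, ∃ P, K.c4 (K.word wd (K.si i)) s P = true

def enc : K.D.Idx ≃ Fin K.N := finSumFinEquiv

@[simp] theorem enc_inl (i : Fin K.l) : (K.enc (Sum.inl i) : ℕ) = i := rfl
@[simp] theorem enc_inr (r : Fin K.n) : (K.enc (Sum.inr r) : ℕ) = K.l + r := rfl

noncomputable def wt : K.D.Idx → La (Fin K.l) := Sum.elim (fun _ => 0) fun r => K.rv r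

theorem wt_eq (j : K.D.Idx) (i : Fin K.l) : K.wt j i = K.wtn (K.enc j) i := by
  rcases j with j | j
  · have : Nat.blt j K.l = true := Nat.blt_eq.mpr j.2
    simp [wt, wtn, this]
  · have : Nat.blt (K.l + j) K.l = false := by
      rw [← Bool.not_eq_true, Nat.blt_eq]; omega
    simp [wt, wtn, this, rv]

variable {F : Type*} [Field F]

noncomputable def XM (r : ℕ) (a : F) : Matrix K.D.Idx K.D.Idx F := 1 + mat K.enc (K.X r) a

variable {K}

namespace OK1
variable (H : K.OK1)
include H

theorem c5' {r : ℕ} (hr : r < K.n) (j : K.D.Idx) : (col (K.X r) (K.enc j)).All fun u _ k _ =>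
    u < K.N ∧ 0 < k ∧ ∀ i < K.l, K.wtn u i = K.wtn (K.enc j) i + k * K.r r i := by
  refine TL.All.imp ?_ (tall_iff.mp (all_iff.mp (H.c5 r hr) _ (K.enc j).2))
  intro u _ k _ h
  simpa [all_iff] using h

theorem colX {r : ℕ} (hr : r < K.n) : ColVal K.N (K.X r) := fun j hj => by
  have := H.c5' hr (K.enc.symm ⟨j, hj⟩)
  rw [Equiv.apply_symm_apply] at this
  exact this.imp fun _ _ _ _ h => h.1

theorem XM_ent {r : ℕ} (hr : r < K.n) (j k : K.D.Idx) : (col (K.X r) (K.enc k)).All
    fun u _ m _ => u = K.enc j → 0 < m ∧ K.wt j = K.wt k + m • K.rv r := by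
  refine (H.c5' hr k).imp fun u _ m _ h hu => ⟨h.2.1, ?_⟩
  ext i
  rw [Pi.add_apply, wt_eq, wt_eq, ← hu, h.2.2 i i.2]
  simp [rv]

theorem XM_zero {r : ℕ} (hr : r < K.n) : K.XM r (0 : F) = 1 := by
  ext j k
  rw [XM, Matrix.add_apply, mat, ev_zero ((H.c5' hr k).imp fun _ _ _ _ h => h.2.1), add_zero]

theorem XM_add {r : ℕ} (hr : r < K.n) (a b : F) : K.XM r (a + b) = K.XM r a * K.XM r b := by
  have h1 := lin_ap (a := a) (b := b) (enc := K.enc) (H.colX hr) 1 1 0
  have h2 := lin_ap (a := a) (b := b) (enc := K.enc) (H.colX hr) 1 0 1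
  have := chk_sound (h1.add (h2.add (h1.comp h2))) (lin_apS (H.colX hr)) (H.c1 r hr)
  simp only [Int.cast_one, pow_one, pow_zero, mul_one, one_mul] at this
  rw [XM, XM, XM, ← this]
  noncomm_ring

theorem xMat_eq (r : Fin K.n) (a : F) : K.D.xMat F r a = K.XM r a := by
  have h := H.cx r r.2
  simp only [Cert.cx, Bool.and_eq_true, decide_eq_true_eq, all_iff] at h
  obtain ⟨⟨⟨⟨⟨h1, h2⟩, h3⟩, h4⟩, h5⟩, -⟩ := h
  have hne : K.ng r ≠ r := fun h => H.ok0.rv_ne r.2 (by
    have := H.ok0.rv_ng r.2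
    rw [h] at this
    ext i
    have := congrFun this i
    simp only [Pi.neg_apply, Pi.zero_apply] at this ⊢
    omega)
  ext j k
  rw [XM, Matrix.add_apply, mat]
  rcases k with k | s
  · rw [enc_inl, ← eqv_sound a 1 (h2 k k.2)]
    rcases j with j | u
    · have : K.l + r ≠ j := by have : (j : ℕ) < K.l := j.2; omega
      simp [ChevalleyDatum.xMat, ev, Matrix.one_apply, this]
    · simp [ChevalleyDatum.xMat, ev, Fin.ext_iff, eq_comm]
  · rw [enc_inr]
    by_cases hs : s = r
    · rw [hs, ← eqv_sound a 1 h3]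
      rcases j with j | u <;> simp [ChevalleyDatum.xMat, ev, Matrix.one_apply]
    by_cases hs2 : (s : ℕ) = K.ng r
    · rw [hs2, ← eqv_sound a 1 h4, ev_hcol]
      rcases j with j | u
      · have : K.l + r ≠ j := by have : (j : ℕ) < K.l := j.2; omega
        simp [ChevalleyDatum.xMat, hs, h1, hs2, this]
      · rw [enc_inr, if_neg (show ¬ K.l + u < K.l by omega), zero_add]
        simp only [ChevalleyDatum.xMat, Matrix.of_apply, hs, h1, hs2, if_true, if_false,
          Matrix.one_apply, Sum.inr.injEq, add_right_inj]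
        by_cases hu : u = s
        · rw [if_pos hu, if_pos hu, if_neg (fun h => hs (hu.symm.trans (Fin.ext h.symm))), add_zero]
        · simp [hu, Fin.ext_iff, eq_comm]
    · have h6 := (walk_sound h5).2 s (Nat.zero_le _) (by simp)
      simp only [bor_iff, Nat.beq_eq] at h6
      have h7 : eqv _ (col _ (K.l + s)) = true :=
        (h6.resolve_left fun h => hs (Fin.ext h)).resolve_left hs2
      rw [← eqv_sound a 1 h7]
      rcases j with j | u
      · rw [enc_inl, ev_chainTL_lt a j.2]
        simp [ChevalleyDatum.xMat, hs, h1, hs2]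
      · rw [enc_inr, ev_chainTL]
        simp only [ChevalleyDatum.xMat, Matrix.of_apply, hs, h1, hs2, if_false,
          Matrix.one_apply, Sum.inr.injEq, ChevalleyDatum.chainCoeff]

end OK1
end Cert
end Ch
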