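import Cfsg.Agent.Ch.Inst

/-! The abstract Chevalley group structure on the group of a certified datum. -/

set_option linter.unusedSectionVars false

namespace Ch
open Finset Cfsg.Lie Matrix

namespace Cert
variable {K : Cert} {F : Type*} [Field F]

noncomputable def hU (K : Cert) (χ : Chr (Fin K.l) F) : GL K.D.Idx F :=
  ⟨diagonal fun j => χ (K.wt j), diagonal fun j => (χ (K.wt j))⁻¹,
    by rw [diagonal_mul_diagonal, ← diagonal_one]; congr 1; ext j; exact mul_inv_cancel₀ (chr_ne _ _),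
    by rw [diagonal_mul_diagonal, ← diagonal_one]; congr 1; ext j; exact inv_mul_cancel₀ (chr_ne _ _)⟩

namespace OK1
variable (H : K.OK1)
include H

noncomputable def XU {r : ℕ} (hr : r < K.n) (a : F) : GL K.D.Idx F :=
  ⟨K.XM r a, K.XM r (-a), by rw [← H.XM_add hr, add_neg_cancel, H.XM_zero hr],
    by rw [← H.XM_add hr, neg_add_cancel, H.XM_zero hr]⟩

noncomputable def xg (μ : La (Fin K.l)) (a : F) : GL K.D.Idx F :=
  if μ ∈ K.Φ then H.XU (H.ok0.ix_lt μ) a else 1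

theorem xg_rv {r : ℕ} (hr : r < K.n) (a : F) : (H.xg (K.rv r) a).1 = K.XM r a := by
  rw [xg, if_pos (rv_mem hr)]
  change K.XM _ a = _
  rw [H.ok0.ix_rv hr]

theorem xg_al (i : Fin K.l) (a : F) : (H.xg (al i) a).1 = K.XM (K.si i) a := by
  rw [← H.ok0.rv_si, H.xg_rv (H.ok0.si_lt i i.2)]

theorem xg_nal (i : Fin K.l) (a : F) : (H.xg (-al i) a).1 = K.XM (K.ng (K.si i)) a := by
  rw [← H.ok0.rv_si, ← H.ok0.rv_ng (H.ok0.si_lt i i.2), H.xg_rv (H.ok0.ng_lt _)]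

theorem c2' (i : Fin K.l) :
    chk K.N (ap (K.Nn i) 1 0 0) (fun v => apX (K.X (K.si i)) 1 0 0
      (apX (K.X (K.ng (K.si i))) (-1) 0 0 (apX (K.X (K.si i)) 1 0 0 v))) = true ∧
    (∀ j < K.N, (col (K.Nn i) j).All fun u _ _ _ => u < K.N ∧
      if j < K.l then u < K.l else u = K.l + K.σ i (j - K.l)) ∧
    (∀ k < K.l, eqv (col (K.Nn i) k)
      (TL.cons k 1 0 0 (TL.cons i (-K.pp (K.si k) i) 0 0 TL.nil)) = true) ∧
    K.eta i (K.si i) = -1 ∧ (K.D.cartanSR.getD i #[]).getD (K.si i) 0 = 2 ∧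
    (K.D.coroot.getD (K.ng (K.si i)) #[]).getD i 0 = -1 := by
  have := H.c2 i i.2
  simp only [Cert.c2, Bool.and_eq_true, all_iff, tall_iff, decide_eq_true_eq] at this
  tauto

theorem colN (i : Fin K.l) : ColVal K.N (K.Nn i) := fun j hj =>
  ((H.c2' i).2.1 j hj).imp fun _ _ _ _ h => h.1

theorem n_val (i : Fin K.l) : (H.xg (al i) (1 : F) * H.xg (-al i) (-1) * H.xg (al i) 1).1 =
    mat K.enc (K.Nn i) 1 := by
  have h1 := lin_apX (a := (1 : F)) (b := 1) (enc := K.enc) (H.colX (H.ok0.si_lt i i.2)) 1 0 0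
  have h2 := lin_apX (a := (1 : F)) (b := 1) (enc := K.enc) (H.colX (H.ok0.ng_lt (K.si i)))
    (-1) 0 0
  have := chk_sound (lin_ap (H.colN i) 1 0 0) (h1.comp (h2.comp h1)) (H.c2' i).1
  simp only [Int.cast_one, pow_zero, mul_one, Int.cast_neg] at this
  rw [this, Units.val_mul, Units.val_mul, xg_al, xg_nal, mul_assoc]
  rfl

theorem n_XM (i : Fin K.l) {r : ℕ} (hr : r < K.n) (a : F) :
    mat K.enc (K.Nn i) 1 * K.XM r a =
      K.XM (K.σ i r) ((K.eta i r : F) * a) * mat K.enc (K.Nn i) 1 := by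
  have h := band_iff.mp (all_iff.mp (H.c3 i i.2) r hr)
  have h1 := lin_ap (a := a) (b := 1) (enc := K.enc) (H.colN i) 1 0 0
  have := chk_sound (h1.comp (lin_ap (H.colX hr) 1 1 0))
    ((lin_ap (H.colX (H.ok0.σ_lt i i.2 r hr)) (K.eta i r) 1 0).comp h1) h.2
  simp only [Int.cast_one, pow_zero, mul_one, pow_one, one_mul] at this
  rw [XM, XM, mul_add, add_mul, this, mul_one, one_mul]

theorem eta_ne (i : Fin K.l) {r : ℕ} (hr : r < K.n) : (K.eta i r : F) ≠ 0 := by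
  have h := (band_iff.mp (all_iff.mp (H.c3 i i.2) r hr)).1
  rcases of_decide_eq_true h with h | h <;> simp [h]

theorem neg_idx {r : ℕ} (hr : r < K.n) : K.D.negIdx.getD r 0 = K.ng r := by
  have h := H.cx r hr
  simp only [Cert.cx, Bool.and_eq_true, decide_eq_true_eq] at h
  exact h.1.1.1.1.1

theorem ng_ne {r : ℕ} (hr : r < K.n) : K.ng r ≠ r := fun h => H.ok0.rv_ne hr (by
  have := H.ok0.rv_ng hr
  rw [h] at this
  ext i
  have := congrFun this i
  simp only [Pi.neg_apply, Pi.zero_apply] at this ⊢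
  omega)

theorem XM_lin {r : ℕ} (hr : r < K.n) (i : Fin K.l) (a : F) :
    K.XM r a (Sum.inl i) (Sum.inr ⟨K.ng r, H.ok0.ng_lt r⟩) =
      (((K.D.coroot.getD r #[]).getD i 0 : ℤ) : F) * a := by
  rw [← H.xMat_eq ⟨r, hr⟩]
  simp [ChevalleyDatum.xMat, H.neg_idx hr, H.ng_ne hr, -Array.getD_eq_getD_getElem?]

theorem word_lt {wd : List ℕ} (h : ∀ j ∈ wd, j < K.l) {r : ℕ} (hr : r < K.n) :
    K.word wd r < K.n ∧ ∃ w ∈ H.ok0.rs.W, w (K.rv r) = K.rv (K.word wd r) := by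
  induction wd with
  | nil => exact ⟨hr, 1, one_mem _, rfl⟩
  | cons i wd ih =>
    obtain ⟨h1, w, hw, h2⟩ := ih fun j hj => h j (List.mem_cons_of_mem _ hj)
    have hi := h i List.mem_cons_self
    refine ⟨H.ok0.σ_lt i hi _ h1, _, mul_mem (RS.s_al_mem ⟨i, hi⟩) hw, ?_⟩
    rw [LinearEquiv.mul_apply, h2, H.ok0.rs_s _ h1]
    rfl

theorem good {θ : ℕ} (hθ : θ < K.n) (h : ∀ s < K.n, ∃ P, K.c4 θ s P = true) :
    Good H.ok0.rs (H.xg (F := F)) (K.rv θ) := by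
  intro μ hμ h1 h2 a b
  obtain ⟨s, hs, rfl⟩ := mem_Φ.mp hμ
  obtain ⟨P, hP⟩ := h s hs
  simp only [Cert.c4, bor_iff, band_iff, Nat.beq_eq, tall_iff, Bool.and_eq_true,
    decide_eq_true_eq, all_iff] at hP
  obtain ⟨h3, h4⟩ := (hP.resolve_left fun h => h1 (by rw [h])).resolve_left
    fun h => h2 (by rw [h, H.ok0.rv_ng hθ])
  have key : ∃ g ∈ Subgroup.closure (commSet H.ok0.rs (H.xg (F := F)) (K.rv θ) (K.rv s)),
      Lin a b K.enc (K.apP P) g.1 := by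
    clear h4 hP
    induction P with
    | nil => exact ⟨1, one_mem _, lin_id⟩
    | cons t c i j P ih =>
      obtain ⟨g, hg, hl⟩ := ih h3.2
      obtain ⟨⟨⟨ht, hi⟩, hj⟩, hv⟩ := h3.1
      refine ⟨H.xg (K.rv t) ((c : F) * a ^ i * b ^ j) * g, mul_mem (Subgroup.subset_closure
        ⟨_, rv_mem ht, i, j, hi, hj, ?_, _, rfl⟩) hg, ?_⟩
      · ext k
        simp [rv, hv k k.2]
      · rw [Units.val_mul, H.xg_rv ht]
        exact (lin_apX (H.colX ht) c i j).comp hl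
  obtain ⟨g, hg, hl⟩ := key
  have l1 := lin_apX (a := a) (b := b) (enc := K.enc) (H.colX hθ) 1 1 0
  have l2 := lin_apX (a := a) (b := b) (enc := K.enc) (H.colX hs) 1 0 1
  have := chk_sound (l1.comp l2) (hl.comp (l2.comp l1)) h4
  simp only [Int.cast_one, pow_zero, mul_one, pow_one, one_mul] at this
  have e : H.xg (K.rv θ) a * H.xg (K.rv s) b = g * (H.xg (K.rv s) b * H.xg (K.rv θ) a) := by
    apply Units.ext
    simp only [Units.val_mul, H.xg_rv hθ, H.xg_rv hs]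
    exact this
  rw [e]
  simpa [mul_assoc] using hg

noncomputable def cg (h2 : (2 : F) ≠ 0) : CG H.ok0.rs F K.D.Idx (GL K.D.Idx F) where
  ρ := Units.coeHom _
  inj := Units.val_injective
  wt := K.wt
  e μ := Sum.inr ⟨K.ix μ, H.ok0.ix_lt μ⟩
  z := Sum.inl
  wt_e μ hμ := by
    obtain ⟨r, hr, rfl⟩ := mem_Φ.mp hμ
    simp [wt, H.ok0.ix_rv hr]
  wt_z _ := rfl
  z_inj := Sum.inl_injective
  idx j := by
    rcases j with i | r
    · exact Or.inr ⟨i, rfl⟩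
    · exact Or.inl ⟨_, rv_mem r.2, by simp [H.ok0.ix_rv r.2]⟩
  x := H.xg
  h := K.hU
  ρ_h _ := rfl
  x_out μ hμ a := if_neg hμ
  x_add μ hμ a b := by
    obtain ⟨r, hr, rfl⟩ := mem_Φ.mp hμ
    apply Units.ext
    rw [Units.val_mul, H.xg_rv hr, H.xg_rv hr, H.xg_rv hr, H.XM_add hr]
  x_tri μ hμ a j k h := by
    obtain ⟨r, hr, rfl⟩ := mem_Φ.mp hμ
    rw [Units.coeHom_apply, H.xg_rv hr, XM, Matrix.add_apply, Ne, add_eq_left] at h
    obtain ⟨_, m, _, hm⟩ := ev_ne a 1 (H.XM_ent hr j k) h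
    exact ⟨m, hm rfl⟩
  h_x χ μ hμ a := by
    obtain ⟨r, hr, rfl⟩ := mem_Φ.mp hμ
    apply Units.ext
    rw [Units.val_mul, Units.val_mul, H.xg_rv hr, H.xg_rv hr, XM, XM, mul_add, add_mul, mul_one,
      one_mul]
    congr 1
    ext j k
    simp only [hU, diagonal_mul, mul_diagonal, mat]
    rw [← ev_scale a (χ (K.wt j) / χ (K.wt k)) (χ (K.rv r))]
    · field_simp [chr_ne χ (K.wt k)]
    · refine (H.XM_ent hr j k).imp fun u _ m _ h hu => ?_
      rw [(h hu).2, AddChar.map_add_eq_mul, AddChar.map_nsmul_eq_pow,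
        mul_div_cancel_left₀ _ (chr_ne _ _)]
  x_lin μ hμ := by
    obtain ⟨r, hr, rfl⟩ := mem_Φ.mp hμ
    have h := H.cx r hr
    simp only [Cert.cx, Bool.and_eq_true, decide_eq_true_eq, anyb_iff] at h
    obtain ⟨i, hi, hm⟩ := h.2
    refine ⟨Sum.inl ⟨i, hi⟩, Sum.inr ⟨K.ng r, H.ok0.ng_lt r⟩, by simp [wt, H.ok0.rv_ng hr], _, ?_,
      fun a => by rw [Units.coeHom_apply, H.xg_rv hr, H.XM_lin hr]⟩
    simp only [List.mem_cons, List.not_mem_nil, or_false] at hm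
    rcases hm with h | h | h | h <;> simp only [h] <;> simp [h2]
  x_ez i := by
    refine ⟨-2, neg_ne_zero.mpr h2, fun a => ?_⟩
    have hs := H.ok0.si_lt i i.2
    have e : K.ix (al i) = K.si i := by rw [← H.ok0.rv_si, H.ok0.ix_rv hs]
    rw [Units.coeHom_apply, H.xg_al, ← H.xMat_eq ⟨_, hs⟩]
    simp [ChevalleyDatum.xMat, e, (H.c2' i).2.2.2.2.1, -Array.getD_eq_getD_getElem?]
  x_ze i := by
    refine ⟨-1, by simp, fun a => ?_⟩
    have hs := H.ok0.si_lt i i.2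
    have e : K.ix (al i) = K.ng (K.ng (K.si i)) := by
      rw [← H.ok0.rv_si, H.ok0.ix_rv hs]
      change _ = K.n - 1 - (K.n - 1 - _)
      omega
    simp only [e]
    rw [Units.coeHom_apply, H.xg_nal, H.XM_lin (H.ok0.ng_lt _), (H.c2' i).2.2.2.2.2]
    simp
  n_wt i j k h := by
    rw [Units.coeHom_apply, H.n_val] at h
    obtain ⟨_, _, _, -, hm⟩ := ev_ne _ _ ((H.c2' i).2.1 _ (K.enc k).2) h
    rcases k with k | r
    · rw [enc_inl, if_pos k.2] at hm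
      rcases j with j | u
      · simp [wt]
      · rw [enc_inr] at hm; omega
    · rw [enc_inr, if_neg (by omega), Nat.add_sub_cancel_left] at hm
      rcases j with j | u
      · have : (j : ℕ) < K.l := j.2
        rw [enc_inl] at hm; omega
      · rw [enc_inr, add_right_inj] at hm
        simp only [wt, Sum.elim_inr, hm]
        exact (H.ok0.rs_s i r.2).symm
  n_z i k' k := by
    rw [Units.coeHom_apply, H.n_val, mat, enc_inl, enc_inl,
      eqv_sound _ _ ((H.c2' i).2.2.1 k k.2)]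
    have : H.ok0.rs.c (al k) (al i) = K.pp (K.si k) i := by
      change K.cv (K.ix _) _ = _
      rw [H.ok0.c_al, cv_al]
    rw [this]
    simp only [ev, Fin.ext_iff, eq_comm (a := (k' : ℕ))]
    split_ifs <;> simp [sub_eq_add_neg]
  n_x i μ hμ := by
    obtain ⟨r, hr, rfl⟩ := mem_Φ.mp hμ
    refine ⟨_, H.eta_ne i hr, fun a => Units.ext ?_⟩
    rw [Units.val_mul, Units.val_mul (H.xg _ _), H.n_val, H.ok0.rs_s i hr, H.xg_rv hr,
      H.xg_rv (H.ok0.σ_lt i i.2 r hr), H.n_XM i hr]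
  n_al i a := by
    apply Units.ext
    have hs := H.ok0.si_lt i i.2
    rw [Units.val_mul, Units.val_mul (H.xg _ _), H.n_val, ← RS.s_self (H.ok0.rs.al_mem i),
      ← H.ok0.rv_si, H.xg_rv hs, H.n_XM i hs, (H.c2' i).2.2.2.1]
    nth_rewrite 1 [H.ok0.rv_si]
    rw [H.ok0.rs_s i hs, H.xg_rv (H.ok0.σ_lt i i.2 _ hs)]
    simp
  comm i := by
    obtain ⟨wd, h1, h2⟩ := H.c4 i i.2
    obtain ⟨h3, w, hw, h4⟩ := H.word_lt h1 (H.ok0.si_lt i i.2)
    refine ⟨w, hw, ?_⟩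
    rw [← H.ok0.rv_si, h4]
    exact H.good h3 h2

theorem group_eq (h2 : (2 : F) ≠ 0) : K.D.group F = (H.cg h2).X := by
  rw [ChevalleyDatum.group, CG.X]
  congr 1
  ext g
  constructor
  · rintro ⟨r, a, h⟩
    exact ⟨_, rv_mem r.2, a, Units.ext (by rw [h, H.xMat_eq]; exact (H.xg_rv r.2 a).symm)⟩
  · rintro ⟨μ, hμ, a, rfl⟩
    obtain ⟨r, hr, rfl⟩ := mem_Φ.mp hμ
    exact ⟨⟨r, hr⟩, a, by rw [H.xMat_eq]; exact H.xg_rv hr a⟩

noncomputable def cgG (h2 : (2 : F) ≠ 0) : CG H.ok0.rs F K.D.Idx (K.D.group F) :=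
  (H.cg h2).restrict _ (H.group_eq h2)

theorem cgG_X (h2 : (2 : F) ≠ 0) : (H.cgG h2).X = ⊤ := CG.restrict_X _ _ _

end OK1
end Cert
end Ch
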