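import Cfsg.Agent.Ch.TabE8

/-! Kernel checks for type E8. -/

namespace Ch.E8

theorem h1_0 : all 60 (fun j => K.c1 (60 * 0 + j)) = true := by decide +kernel
theorem h1_1 : all 60 (fun j => K.c1 (60 * 1 + j)) = true := by decide +kernel
theorem h1_2 : all 60 (fun j => K.c1 (60 * 2 + j)) = true := by decide +kernel
theorem h1_3 : all 60 (fun j => K.c1 (60 * 3 + j)) = true := by decide +kernel
theorem h1 : ∀ s < 60 * 4, K.c1 s = true :=
  of_chunks (f := fun s => K.c1 s) 4 60 fun k hk => by
    interval_cases k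
    exacts [h1_0, h1_1, h1_2, h1_3]

theorem h4_0 : all 30 (fun j => K.c4 162 (30 * 0 + j) (nthT cm162 (30 * 0 + j))) = true := by decide +kernel
theorem h4_1 : all 30 (fun j => K.c4 162 (30 * 1 + j) (nthT cm162 (30 * 1 + j))) = true := by decide +kernel
theorem h4_2 : all 30 (fun j => K.c4 162 (30 * 2 + j) (nthT cm162 (30 * 2 + j))) = true := by decide +kernel
theorem h4_3 : all 30 (fun j => K.c4 162 (30 * 3 + j) (nthT cm162 (30 * 3 + j))) = true := by decide +kernel
theorem h4_4 : all 30 (fun j => K.c4 162 (30 * 4 + j) (nthT cm162 (30 * 4 + j))) = true := by decide +kernel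
theorem h4_5 : all 30 (fun j => K.c4 162 (30 * 5 + j) (nthT cm162 (30 * 5 + j))) = true := by decide +kernel
theorem h4_6 : all 30 (fun j => K.c4 162 (30 * 6 + j) (nthT cm162 (30 * 6 + j))) = true := by decide +kernel
theorem h4_7 : all 30 (fun j => K.c4 162 (30 * 7 + j) (nthT cm162 (30 * 7 + j))) = true := by decide +kernel
theorem h4 : ∀ s < 30 * 8, K.c4 162 s (nthT cm162 s) = true :=
  of_chunks (f := fun s => K.c4 162 s (nthT cm162 s)) 8 30 fun k hk => by
    interval_cases k
    exacts [h4_0, h4_1, h4_2, h4_3, h4_4, h4_5, h4_6, h4_7]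


end Ch.E8
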