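import Cfsg.Agent.Ch.TabE8

/-! Kernel checks for type E8. -/

namespace Ch.E8

theorem h3_0 : K.c3 0 = true := by decide +kernel
theorem h3_1 : K.c3 1 = true := by decide +kernel
theorem h3_2 : K.c3 2 = true := by decide +kernel
theorem h3_3 : K.c3 3 = true := by decide +kernel

end Ch.E8
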