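import Cfsg.Agent.Ch.TabE8

/-! Kernel checks for type E8. -/

namespace Ch.E8

theorem h3_4 : K.c3 4 = true := by decide +kernel
theorem h3_5 : K.c3 5 = true := by decide +kernel
theorem h3_6 : K.c3 6 = true := by decide +kernel
theorem h3_7 : K.c3 7 = true := by decide +kernel

end Ch.E8
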