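import Cfsg.Agent.Ch.OkE8a
import Cfsg.Agent.Ch.OkE8b
import Cfsg.Agent.Ch.OkE8c
import Cfsg.Agent.Ch.OkE8d

/-! The certificate for type E8 is valid. -/

namespace Ch.E8

theorem aux {i : ℕ} (wd : List ℕ) (h1 : ∀ j ∈ wd, j < 8) (h2 : K.word wd (K.si i) = 162) :
    ∃ wd : List ℕ, (∀ j ∈ wd, j < K.l) ∧
      ∀ s < K.n, ∃ P, K.c4 (K.word wd (K.si i)) s P = true :=
  ⟨wd, h1, fun s hs => ⟨_, h2 ▸ h4 s hs⟩⟩

theorem ok : K.OK1 where
  ok0 := Cert.ok0 h0
  cx := hx
  c5 := h5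
  c1 := h1
  c2 := all_iff.mp h2
  c3 i hi := by
    change i < 8 at hi
    interval_cases i
    exacts [h3_0, h3_1, h3_2, h3_3, h3_4, h3_5, h3_6, h3_7]
  c4 i hi := by
    change i < 8 at hi
    interval_cases i
    · exact aux [] (by decide) (by decide +kernel)
    · exact aux [2, 3, 0, 2, 1, 3] (by decide) (by decide +kernel)
    · exact aux [2, 0] (by decide) (by decide +kernel)
    · exact aux [2, 3, 0, 2] (by decide) (by decide +kernel)
    · exact aux [2, 3, 4, 0, 2, 3] (by decide) (by decide +kernel)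
    · exact aux [2, 3, 4, 5, 0, 2, 3, 4] (by decide) (by decide +kernel)
    · exact aux [2, 3, 4, 5, 6, 0, 2, 3, 4, 5] (by decide) (by decide +kernel)
    · exact aux [2, 3, 4, 5, 6, 7, 0, 2, 3, 4, 5, 6] (by decide) (by decide +kernel)

end Ch.E8
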