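import Cfsg.Agent.Ch.TabE8

/-! Kernel checks for type E8. -/

namespace Ch.E8

theorem h0 : K.c0 = true := by decide +kernel
theorem hx_0 : all 60 (fun j => K.cx (60 * 0 + j)) = true := by decide +kernel
theorem hx_1 : all 60 (fun j => K.cx (60 * 1 + j)) = true := by decide +kernel
theorem hx_2 : all 60 (fun j => K.cx (60 * 2 + j)) = true := by decide +kernel
theorem hx_3 : all 60 (fun j => K.cx (60 * 3 + j)) = true := by decide +kernel
theorem hx : ∀ s < 60 * 4, K.cx s = true :=
  of_chunks (f := fun s => K.cx s) 4 60 fun k hk => by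
    interval_cases k
    exacts [hx_0, hx_1, hx_2, hx_3]

theorem h5_0 : all 60 (fun j => K.c5 (60 * 0 + j)) = true := by decide +kernel
theorem h5_1 : all 60 (fun j => K.c5 (60 * 1 + j)) = true := by decide +kernel
theorem h5_2 : all 60 (fun j => K.c5 (60 * 2 + j)) = true := by decide +kernel
theorem h5_3 : all 60 (fun j => K.c5 (60 * 3 + j)) = true := by decide +kernel
theorem h5 : ∀ s < 60 * 4, K.c5 s = true :=
  of_chunks (f := fun s => K.c5 s) 4 60 fun k hk => by
    interval_cases k
    exacts [h5_0, h5_1, h5_2, h5_3]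

theorem h2 : all 8 K.c2 = true := by decide +kernel
theorem hW : K.chainOK st0 K.Δ0 = true := by decide +kernel
theorem ha : K.cls (Cert.lens st0) 1 Da sta Oa 56 Ea = true := by decide +kernel
theorem hb : K.cls (Cert.lens st0) 3 Db stb Ob 64 Eb = true := by decide +kernel

end Ch.E8
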