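import Cfsg.Agent.Ch.TabF4

/-! Kernel checks for type F4. -/

namespace Ch.F4

theorem h0 : K.c0 = true := by decide +kernel
theorem hx : all 48 K.cx = true := by decide +kernel
theorem h5 : all 48 K.c5 = true := by decide +kernel
theorem h1 : all 48 K.c1 = true := by decide +kernel
theorem h2 : all 4 K.c2 = true := by decide +kernel
theorem h3 : all 4 K.c3 = true := by decide +kernel
theorem h4a : all 48 (fun s => K.c4 33 s (nthT cm33 s)) = true := by decide +kernel
theorem h4b : all 48 (fun s => K.c4 25 s (nthT cm25 s)) = true := by decide +kernel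
theorem hW : K.chainOK st0 K.Δ0 = true := by decide +kernel
theorem ha : K.cls (Cert.lens st0) 1 Da sta Oa 16 Ea = true := by decide +kernel
theorem hb : K.cls (Cert.lens st0) 4 Db stb Ob 10 Eb = true := by decide +kernel

theorem aux {θ i : ℕ} {cm : List TL} (h : all 48 (fun s => K.c4 θ s (nthT cm s)) = true)
    (wd : List ℕ) (h1 : ∀ j ∈ wd, j < 4) (h2 : K.word wd (K.si i) = θ) :
    ∃ wd : List ℕ, (∀ j ∈ wd, j < K.l) ∧
      ∀ s < K.n, ∃ P, K.c4 (K.word wd (K.si i)) s P = true :=
  ⟨wd, h1, fun s hs => ⟨_, h2 ▸ all_iff.mp h s hs⟩⟩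

theorem ok : K.OK1 where
  ok0 := Cert.ok0 h0
  cx := all_iff.mp hx
  c5 := all_iff.mp h5
  c1 := all_iff.mp h1
  c2 := all_iff.mp h2
  c3 := all_iff.mp h3
  c4 i hi := by
    change i < 4 at hi
    interval_cases i
    · exact aux h4a [] (by decide) (by decide +kernel)
    · exact aux h4a [1, 0] (by decide) (by decide +kernel)
    · exact aux h4b [] (by decide) (by decide +kernel)
    · exact aux h4b [3, 2] (by decide) (by decide +kernel)

end Ch.F4
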