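import Cfsg.Agent.Ch.TabG2

/-! Kernel checks for type G2. -/

namespace Ch.G2

theorem h0 : K.c0 = true := by decide +kernel
theorem hx : all 12 K.cx = true := by decide +kernel
theorem h5 : all 12 K.c5 = true := by decide +kernel
theorem h1 : all 12 K.c1 = true := by decide +kernel
theorem h2 : all 2 K.c2 = true := by decide +kernel
theorem h3 : all 2 K.c3 = true := by decide +kernel
theorem h4a : all 12 (fun s => K.c4 7 s (nthT cm7 s)) = true := by decide +kernel
theorem h4b : all 12 (fun s => K.c4 6 s (nthT cm6 s)) = true := by decide +kernel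
theorem hW : K.chainOK st0 K.Δ0 = true := by decide +kernel
theorem ha : K.cls (Cert.lens st0) 2 Da sta Oa 2 Ea = true := by decide +kernel

theorem ok : K.OK1 where
  ok0 := Cert.ok0 h0
  cx := all_iff.mp hx
  c5 := all_iff.mp h5
  c1 := all_iff.mp h1
  c2 := all_iff.mp h2
  c3 := all_iff.mp h3
  c4 i hi := by
    change i < 2 at hi
    interval_cases i
    · exact ⟨[], by simp, fun s hs => ⟨_, all_iff.mp h4a s hs⟩⟩
    · exact ⟨[], by simp, fun s hs => ⟨_, all_iff.mp h4b s hs⟩⟩

end Ch.G2
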