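import Cfsg.Agent.Ch.Bruhat
import Cfsg.Agent.L.SL2Model

/-! The homomorphisms `SL₂(F) → G` attached to simple roots. -/

set_option linter.unusedSectionVars false

namespace Ch
open Finset Cfsg.Agent.L

section rankone
variable {F : Type*} [Field F] {H : Type*} [Group H]

structure Rk1 (x : F → H) (d : Fˣ → H) (w : H) : Prop where
  add : ∀ a b, x (a + b) = x a * x b
  mul : ∀ a b, d (a * b) = d a * d b
  dx : ∀ l a, d l * x a = x ((l : F) ^ 2 * a) * d l
  wd : ∀ l, w * d l = d l⁻¹ * w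
  ww : w * w = d (-1)
  wx : ∀ c : Fˣ, w * x c = x (-(c : F)⁻¹) * d c⁻¹ * w * x (-(c : F)⁻¹) * w

theorem Rk1.nf {x : F → H} {d : Fˣ → H} {w : H} (h : Rk1 x d w) {g : H}
    (hg : g ∈ Subgroup.closure (Set.range x ∪ Set.range d ∪ {w})) :
    (∃ a l, g = x a * d l) ∨ ∃ a l b, g = x a * d l * w * x b := by
  have x0 : x 0 = 1 := by
    have := h.add 0 0
    rw [add_zero] at this
    exact mul_eq_left.mp this.symm
  have d1 : d 1 = 1 := by
    have := h.mul 1 1
    rw [mul_one] at this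
    exact mul_eq_left.mp this.symm
  have xd : ∀ l a, x a * d l = d l * x (((l : F) ^ 2)⁻¹ * a) := by
    intro l a
    rw [h.dx, mul_inv_cancel_left₀ (pow_ne_zero 2 l.ne_zero)]
  let N : H → Prop := fun g => (∃ a l, g = x a * d l) ∨ ∃ a l b, g = x a * d l * w * x b
  have hx : ∀ c g, N g → N (x c * g) := by
    rintro c _ (⟨a, l, rfl⟩ | ⟨a, l, b, rfl⟩)
    · exact Or.inl ⟨c + a, l, by rw [h.add, mul_assoc]⟩
    · exact Or.inr ⟨c + a, l, b, by simp only [h.add, mul_assoc]⟩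
  have hd : ∀ c g, N g → N (d c * g) := by
    rintro c _ (⟨a, l, rfl⟩ | ⟨a, l, b, rfl⟩)
    · exact Or.inl ⟨_, c * l, by rw [← mul_assoc, h.dx, h.mul, mul_assoc]⟩
    · exact Or.inr ⟨_, c * l, b, by
        rw [← mul_assoc, ← mul_assoc, ← mul_assoc, h.dx, h.mul, mul_assoc _ (d c)]⟩
  have hw : ∀ g, N g → N (w * g) := by
    rintro _ (⟨a, l, rfl⟩ | ⟨a, l, b, rfl⟩)
    · exact Or.inr ⟨0, l⁻¹, ((l : F) ^ 2)⁻¹ * a, by rw [xd, ← mul_assoc, h.wd, x0, one_mul]⟩
    · have e : w * (d l * w * x b) = d (l⁻¹ * -1) * x b := by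
        rw [← mul_assoc, ← mul_assoc, h.wd, mul_assoc _ w w, h.ww, h.mul]
      by_cases ha : a = 0
      · rw [ha, x0, one_mul, e, h.dx]
        exact Or.inl ⟨_, _, rfl⟩
      · have e2 := h.wx (Units.mk0 a ha)
        rw [Units.val_mk0] at e2
        have e3 : w * (x a * d l * w * x b) = w * x a * (d l * w * x b) := by group
        have e4 : w * (x (-a⁻¹) * (d (l⁻¹ * -1) * x b)) = x 0 * d (l⁻¹ * -1)⁻¹ * w *
            x (((((l⁻¹ * -1 : Fˣ) : F)) ^ 2)⁻¹ * -a⁻¹ + b) := by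
          rw [← mul_assoc (x _), xd, mul_assoc (d _), ← h.add, ← mul_assoc, h.wd, x0, one_mul]
        rw [e3, e2, mul_assoc _ w (d l * w * x b), e, mul_assoc, mul_assoc, mul_assoc, e4]
        exact hx _ _ (hd _ _ (Or.inr ⟨_, _, _, rfl⟩))
  induction hg using Subgroup.closure_induction_left with
  | one => exact Or.inl ⟨0, 1, by rw [x0, d1, one_mul]⟩
  | mul_left y hy g _ ih =>
    rcases hy with (⟨a, rfl⟩ | ⟨a, rfl⟩) | rfl
    exacts [hx _ _ ih, hd _ _ ih, hw _ ih]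
  | inv_mul_cancel y hy g _ ih =>
    rcases hy with (⟨a, rfl⟩ | ⟨a, rfl⟩) | rfl
    · have : (x a)⁻¹ = x (-a) := by
        rw [inv_eq_iff_mul_eq_one, ← h.add, add_neg_cancel, x0]
      rw [this]; exact hx _ _ ih
    · have : (d a)⁻¹ = d a⁻¹ := by
        rw [inv_eq_iff_mul_eq_one, ← h.mul, mul_inv_cancel, d1]
      rw [this]; exact hd _ _ ih
    · have : y⁻¹ = d (-1) * y := by
        rw [inv_eq_iff_mul_eq_one, ← mul_assoc, h.wd, mul_assoc, h.ww, ← h.mul]
        simp [d1]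
      rw [this, mul_assoc]; exact hd _ _ (hw _ ih)

theorem Rk1.prod {H' : Type*} [Group H'] {x : F → H} {d : Fˣ → H} {w : H} (h : Rk1 x d w)
    {x' : F → H'} {d' : Fˣ → H'} {w' : H'} (h' : Rk1 x' d' w') :
    Rk1 (fun a => (x a, x' a)) (fun a => (d a, d' a)) (w, w') :=
  ⟨fun a b => Prod.ext (h.add a b) (h'.add a b), fun a b => Prod.ext (h.mul a b) (h'.mul a b),
    fun a b => Prod.ext (h.dx a b) (h'.dx a b), fun a => Prod.ext (h.wd a) (h'.wd a),
    Prod.ext h.ww h'.ww, fun a => Prod.ext (h.wx a) (h'.wx a)⟩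

abbrev SL2 (F : Type*) [Field F] := Matrix.SpecialLinearGroup (Fin 2) F

def up (a : F) : SL2 F := ⟨!![1, a; 0, 1], by simp [Matrix.det_fin_two_of]⟩
def lo (a : F) : SL2 F := ⟨!![1, 0; a, 1], by simp [Matrix.det_fin_two_of]⟩
def dg (l : Fˣ) : SL2 F := ⟨!![(l : F), 0; 0, (l : F)⁻¹], by simp [Matrix.det_fin_two_of]⟩
def wm : SL2 F := ⟨!![0, 1; -1, 0], by simp [Matrix.det_fin_two_of]⟩

theorem val_up (a : F) : (up a).1 = !![1, a; 0, 1] := rfl
theorem val_lo (a : F) : (lo a).1 = !![1, 0; a, 1] := rfl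
theorem val_dg (l : Fˣ) : (dg l).1 = !![(l : F), 0; 0, (l : F)⁻¹] := rfl
theorem val_wm : (wm : SL2 F).1 = !![0, 1; -1, 0] := rfl

theorem rk1_SL2 : Rk1 (up (F := F)) dg wm := by
  refine ⟨fun a b => ?_, fun a b => ?_, fun l a => ?_, fun l => ?_, ?_, fun c => ?_⟩ <;>
    ext i j <;> fin_cases i <;> fin_cases j <;>
    simp [val_up, val_dg, val_wm, Matrix.mul_apply, Fin.sum_univ_two, add_comm, mul_comm, pow_two]
  field_simp

theorem SL2_det (m : SL2 F) : m 0 0 * m 1 1 - m 0 1 * m 1 0 = 1 := by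
  have := m.det_coe
  rwa [Matrix.det_fin_two] at this

theorem SL2_nf (m : SL2 F) : (∃ a l, m = up a * dg l) ∨ ∃ a l b, m = up a * dg l * wm * up b := by
  have hd := SL2_det m
  by_cases hc : m 1 0 = 0
  · rw [hc, mul_zero, sub_zero] at hd
    have ha : m 0 0 ≠ 0 := left_ne_zero_of_mul_eq_one hd
    refine Or.inl ⟨m 0 0 * m 0 1, Units.mk0 _ ha, ?_⟩
    ext i j
    fin_cases i <;> fin_cases j <;>
      simp [val_up, val_dg, Matrix.mul_apply, Fin.sum_univ_two, hc]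
    · field_simp
    · exact eq_inv_of_mul_eq_one_right hd
  · refine Or.inr ⟨m 0 0 / m 1 0, -(Units.mk0 _ hc)⁻¹, m 1 1 / m 1 0, ?_⟩
    ext i j
    fin_cases i <;> fin_cases j <;>
      simp [val_up, val_dg, val_wm, Matrix.mul_apply, Fin.sum_univ_two, hc]
    · field_simp
      linear_combination (-1 : F) * hd
    · field_simp

theorem lo_eq (a : F) : lo a = wm * up (-a) * wm⁻¹ := by
  rw [eq_mul_inv_iff_mul_eq]
  ext i j
  fin_cases i <;> fin_cases j <;> simp [val_up, val_lo, val_wm, Matrix.mul_apply, Fin.sum_univ_two]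

theorem wm_eq : (wm : SL2 F) = up 1 * lo (-1) * up 1 := by
  ext i j
  fin_cases i <;> fin_cases j <;> simp [val_up, val_lo, val_wm, Matrix.mul_apply, Fin.sum_univ_two]

theorem dg_eq (l : Fˣ) : dg l = up (l : F) * lo (-(l : F)⁻¹) * up (l : F) * wm⁻¹ := by
  rw [eq_mul_inv_iff_mul_eq]
  ext i j
  fin_cases i <;> fin_cases j <;> simp [val_up, val_lo, val_wm, val_dg, Matrix.mul_apply, Fin.sum_univ_two]

theorem SL2_mem {K : Subgroup (SL2 F)} (h1 : ∀ a, up a ∈ K) (h2 : ∀ a, lo a ∈ K) (m : SL2 F) :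
    m ∈ K := by
  have hw : wm ∈ K := by rw [wm_eq]; exact mul_mem (mul_mem (h1 _) (h2 _)) (h1 _)
  have hd : ∀ l, dg l ∈ K := fun l => by
    rw [dg_eq]; exact mul_mem (mul_mem (mul_mem (h1 _) (h2 _)) (h1 _)) (inv_mem hw)
  rcases SL2_nf m with ⟨a, l, rfl⟩ | ⟨a, l, b, rfl⟩
  · exact mul_mem (h1 _) (hd _)
  · exact mul_mem (mul_mem (mul_mem (h1 _) (hd _)) hw) (h1 _)

theorem SL2_ext {φ ψ : SL2 F →* H} (h1 : ∀ a, φ (up a) = ψ (up a))
    (h2 : ∀ a, φ (lo a) = ψ (lo a)) (m : SL2 F) : φ m = ψ m :=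
  SL2_mem (K := φ.eqLocus ψ) h1 h2 m

theorem Rk1.hom {x : F → H} {d : Fˣ → H} {w : H} (h : Rk1 x d w) :
    ∃ φ : SL2 F →* H, (∀ a, φ (up a) = x a) ∧ (∀ l, φ (dg l) = d l) ∧ φ wm = w := by
  have hp := rk1_SL2.prod h
  set D := Subgroup.closure (Set.range (fun a => (up a, x a)) ∪
    Set.range (fun a => (dg a, d a)) ∪ {((wm : SL2 F), w)}) with hD
  have m1 : ∀ a, (up a, x a) ∈ D := fun a =>
    Subgroup.subset_closure (Or.inl (Or.inl ⟨a, rfl⟩))
  have m2 : ∀ a, (dg a, d a) ∈ D := fun a =>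
    Subgroup.subset_closure (Or.inl (Or.inr ⟨a, rfl⟩))
  have m3 : (wm, w) ∈ D := Subgroup.subset_closure (Or.inr rfl)
  obtain ⟨φ, hφ⟩ := Subgroup.exists_eq_graph (G := D) (by
    constructor
    · refine (injective_iff_map_eq_one ((MonoidHom.fst _ _).comp D.subtype)).mpr ?_
      rintro ⟨g, hg⟩ h1
      rcases hp.nf hg with ⟨a, l, rfl⟩ | ⟨a, l, b, rfl⟩
      · have h1 : up a * dg l = 1 := h1
        have e1 := congrFun (congrFun (congrArg Subtype.val h1) 0) 0
        have e2 := congrFun (congrFun (congrArg Subtype.val h1) 0) 1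
        simp [val_up, val_dg, Matrix.mul_apply, Fin.sum_univ_two] at e1 e2
        have x0 : x 0 = 1 := by
          have := h.add 0 0
          rw [add_zero] at this
          exact mul_eq_left.mp this.symm
        have d1 : d 1 = 1 := by
          have := h.mul 1 1
          rw [mul_one] at this
          exact mul_eq_left.mp this.symm
        exact Subtype.ext (Prod.ext h1 (by simp [e1, e2, x0, d1]))
      · have h1 : up a * dg l * wm * up b = 1 := h1
        have e1 := congrFun (congrFun (congrArg Subtype.val h1) 1) 0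
        simp [val_up, val_dg, val_wm, Matrix.mul_apply, Fin.sum_univ_two] at e1
    · intro m
      rcases SL2_nf m with ⟨a, l, rfl⟩ | ⟨a, l, b, rfl⟩
      · exact ⟨⟨_, mul_mem (m1 a) (m2 l)⟩, rfl⟩
      · exact ⟨⟨_, mul_mem (mul_mem (mul_mem (m1 a) (m2 l)) m3) (m1 b)⟩, rfl⟩)
  rw [hφ] at m1 m2 m3
  exact ⟨φ, fun a => m1 a, fun a => m2 a, m3⟩

/-- conjugation by `!![0, 1; κ, 0]`. -/
def tw0 (κ : Fˣ) (m : SL2 F) : SL2 F :=
  ⟨!![m.1 1 1, m.1 1 0 * (κ : F)⁻¹; κ * m.1 0 1, m.1 0 0], by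
    rw [Matrix.det_fin_two_of]
    have := SL2_det m
    field_simp
    linear_combination this⟩

theorem val_tw0 (κ : Fˣ) (m : SL2 F) :
    (tw0 κ m).1 = !![m.1 1 1, m.1 1 0 * (κ : F)⁻¹; κ * m.1 0 1, m.1 0 0] := rfl

def tw (κ : Fˣ) : SL2 F →* SL2 F where
  toFun := tw0 κ
  map_one' := by
    ext i j
    fin_cases i <;> fin_cases j <;> simp [val_tw0]
  map_mul' a b := by
    ext i j
    fin_cases i <;> fin_cases j <;>
      simp [val_tw0, Matrix.mul_apply, Fin.sum_univ_two] <;> field_simp <;> ring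

theorem val_tw (κ : Fˣ) (m : SL2 F) :
    (tw κ m).1 = !![m.1 1 1, m.1 1 0 * (κ : F)⁻¹; κ * m.1 0 1, m.1 0 0] := rfl

theorem tw_up (κ : Fˣ) (a : F) : tw κ (up a) = lo (κ * a) := by
  ext i j
  fin_cases i <;> fin_cases j <;> simp [val_tw, val_up, val_lo]

theorem tw_lo (κ : Fˣ) (a : F) : tw κ (lo a) = up ((κ : F)⁻¹ * a) := by
  ext i j
  fin_cases i <;> fin_cases j <;> simp [val_tw, val_up, val_lo, mul_comm]

theorem exists_tw [Finite F] (hF : Odd (Nat.card F)) (κ l : Fˣ) :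
    ∃ y : SL2 F, y * (tw κ y)⁻¹ = dg l := by
  have := Fintype.ofFinite F
  open Polynomial in
  obtain ⟨d, b, h⟩ := FiniteField.exists_root_sum_quadratic
    (f := C (l : F) * X ^ 2 - C 1) (g := C (-(κ : F) * (l : F)⁻¹) * X ^ 2)
    (by rw [degree_sub_C (by rw [degree_C_mul_X_pow 2 l.ne_zero]; decide),
      degree_C_mul_X_pow 2 l.ne_zero]; rfl)
    (degree_C_mul_X_pow 2 (by simp))
    (by rw [← Nat.card_eq_fintype_card]; exact Nat.odd_iff.mp hF)
  simp only [Polynomial.eval_sub, Polynomial.eval_mul, Polynomial.eval_C, Polynomial.eval_pow,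
    Polynomial.eval_X] at h
  obtain ⟨y, hy⟩ : ∃ y : SL2 F, y.1 = !![l * d, b; κ * b * (l : F)⁻¹, d] :=
    ⟨⟨_, by rw [Matrix.det_fin_two_of]; linear_combination h⟩, rfl⟩
  refine ⟨y, ?_⟩
  rw [mul_inv_eq_iff_eq_mul]
  ext i j
  fin_cases i <;> fin_cases j <;>
    simp [val_tw, val_dg, hy, Matrix.mul_apply, Fin.sum_univ_two] <;> field_simp

end rankone

variable {ι : Type} [Fintype ι] [DecidableEq ι]

namespace CG
open RS
variable {R : RS ι} {F : Type*} [Field F] {I : Type} [Fintype I] [DecidableEq I]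
  {G : Type*} [Group G] (C : CG R F I G)

theorem coch_mul (f : Module.Dual ℤ (La ι)) (a b : Fˣ) : coch f (a * b) = coch f a * coch f b := by
  ext μ
  simp [coch_apply, mul_zpow]

theorem rk1 (i : ι) : Rk1 (C.x (al i)) (fun l => C.h (coch (R.c (al i)) l)) (C.n i) where
  add := C.x_add _ (R.al_mem i)
  mul a b := by rw [coch_mul, C.h_mul]
  dx l a := by
    rw [C.h_x _ _ (R.al_mem i), coch_apply, R.two _ (R.al_mem i)]; norm_cast
  wd l := by
    rw [C.n_h]
    congr 2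
    ext μ
    rw [cw_apply, coch_apply, coch_apply, s_apply (R.al_mem i), map_sub, map_zsmul,
      R.two _ (R.al_mem i), Units.val_inv_eq_inv_val, inv_zpow']
    congr 1
    simp only [smul_eq_mul]; ring
  ww := by
    rw [← eq_inv_mul_iff_mul_eq, C.n_inv, mul_assoc, C.n_h, ← mul_assoc, ← C.h_mul, eq_comm,
      mul_eq_right, ← C.h_one]
    congr 1
    ext μ
    rw [AddChar.mul_apply, cw_apply, coch_apply, coch_apply, s_apply (R.al_mem i), map_sub,
      map_zsmul, R.two _ (R.al_mem i), ← zpow_add₀ (Units.ne_zero _)]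
    have : R.c (al i) μ + (R.c (al i) μ - R.c (al i) μ • (2 : ℤ)) = 0 := by
      simp only [smul_eq_mul]; ring
    rw [this]; simp
  wx c := by
    have e := C.n_al i c
    change C.n i * _ = _ * C.n i at e
    rw [e, x_neg_eq i c.ne_zero]
    simp [mul_assoc]

theorem x_inj {r : La ι} (hr : r ∈ R.Φ) {a b : F} (h : C.x r a = C.x r b) : a = b := by
  obtain ⟨j, k, _, m, hm, hx⟩ := C.x_lin r hr
  have := hx a
  rw [h, hx] at this
  exact (mul_left_cancel₀ hm this).symm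

theorem exists_phi [Finite F] (i : ι) : ∃ φ : SL2 F →* G, Function.Injective φ ∧
    (∀ a, φ (up a) = C.x (al i) a) ∧ (∀ a, φ (lo a) = C.x (-al i) a) ∧
    (∀ l, φ (dg l) = C.h (coch (R.c (al i)) l)) := by
  obtain ⟨φ, h1, h2, h3⟩ := (C.rk1 i).hom
  refine ⟨φ, ?_, h1, fun a => ?_, h2⟩
  · rw [injective_iff_map_eq_one]
    intro m hm
    rcases SL2_nf m with ⟨a, l, rfl⟩ | ⟨a, l, b, rfl⟩
    · rw [map_mul, h1, h2] at hm
      have e : C.h (coch (R.c (al i)) l) = 1 := by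
        apply h_eq_one
        rw [← inv_mul_cancel_left (C.x (al i) a) (C.h _), hm, mul_one]
        exact Pp_pos (inv_mem (x_mem_U (al_mem_Pp i) a))
      rw [e, mul_one, ← C.x_zero (R.al_mem i)] at hm
      rw [← C.h_one] at e
      have e2 := congrArg (fun χ : Chr ι F => χ (R.ω i)) (C.h_inj e)
      simp only [coch_apply, R.omega, if_true, zpow_one, AddChar.one_apply,
        Units.val_eq_one] at e2
      rw [C.x_inj (R.al_mem i) hm, e2]
      ext i j
      fin_cases i <;> fin_cases j <;> simp [val_up, val_dg, Matrix.mul_apply, Fin.sum_univ_two]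
    · rw [map_mul, map_mul, map_mul, h1, h1, h2, h3, mul_assoc (C.x _ _)] at hm
      have hr := (rep_n (C := C) i).h_mul (coch (R.c (al i)) l)
      have e := N_unique hr rep_one (x_mem_U (al_mem_Pp i) a) (x_mem_U (al_mem_Pp i) b)
        (one_mem _) (one_mem _) (by rw [hm]; simp)
      rw [e] at hr
      have e2 := s_self (R.al_mem i)
      rw [hr.unique rep_one] at e2
      exact absurd (e2 ▸ al_nonneg i) (not_neg_nonneg (R.al_mem i) (al_nonneg i))
  · rw [lo_eq, map_mul, map_mul, map_inv, h1, h3, mul_inv_eq_iff_eq_mul]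
    have e := C.n_al i (-a)
    rwa [neg_neg] at e

end CG
end Ch
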