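import Cfsg.Agent.Ch.Chunk

/-! Two classes of involutions. -/

namespace Ch.Cert.OK1

theorem two_classes {K : Cert} (H : K.OK1) {F : Type*} [Field F] [Fintype F]
    (hF : Odd (Fintype.card F)) {st0 : List (ℕ × List ℕ)} (h0 : K.chainOK st0 K.Δ0 = true)
    {m m' : ℕ} {Δ Δ' : List ℕ} {st st' : List (ℕ × List ℕ)} {O O' : List ℕ} {k k' : ℕ}
    {E E' : List (List ℕ)} (h : K.cls (lens st0) m Δ st O k E = true)
    (h' : K.cls (lens st0) m' Δ' st' O' k' E' = true) (hm : 0 < m ∧ m < 2 ^ K.l)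
    (hm' : 0 < m' ∧ m' < 2 ^ K.l) (cov : ∀ a < 2 ^ K.l, 0 < a → a ∈ O ∨ a ∈ O') {A B : ℕ}
    (hA : (Fintype.card F - 1) ^ K.l * Fintype.card F ^ k *
      (E.map fun es => (es.map (Fintype.card F ^ ·)).sum).prod = A)
    (hB : (Fintype.card F - 1) ^ K.l * Fintype.card F ^ k' *
      (E'.map fun es => (es.map (Fintype.card F ^ ·)).sum).prod = B) (hne : A ≠ B) :
    ∃ s t : K.D.group F, orderOf s = 2 ∧ orderOf t = 2 ∧ ¬ IsConj s t ∧
      (∀ u : K.D.group F, orderOf u = 2 → IsConj u s ∨ IsConj u t) ∧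
      Nat.card (Subgroup.centralizer ({s} : Set (K.D.group F))) = A ∧
      Nat.card (Subgroup.centralizer ({t} : Set (K.D.group F))) = B := by
  have h2 := two_ne_of_odd hF
  obtain ⟨c1, c2⟩ := H.cls_sound h2 h0 h
  obtain ⟨c1', c2'⟩ := H.cls_sound h2 h0 h'
  rw [Nat.card_eq_fintype_card (α := F), hA] at c1
  rw [Nat.card_eq_fintype_card (α := F), hB] at c1'
  refine ⟨_, _, H.orderOf_chi h2 hm.1 hm.2, H.orderOf_chi h2 hm'.1 hm'.2,
    fun hc => hne (by rw [← c1, ← c1', card_cent_conj hc]), fun u hu => ?_, c1, c1'⟩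
  obtain ⟨a, h3, h4, h5⟩ := H.exists_conj (by rwa [Nat.card_eq_fintype_card]) h2 hu
  exact (cov a h4 h3).imp (fun h => h5.trans (c2 a h)) (fun h => h5.trans (c2' a h))

end Ch.Cert.OK1
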