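import Cfsg.Agent.Ch.Grp

/-! Unipotent subgroups of abstract Chevalley groups. -/

set_option linter.unusedSectionVars false

namespace Ch
open Finset

variable {ι : Type} [Fintype ι] [DecidableEq ι]

def posA : AddSubsemigroup (La ι) := ⟨{μ | 0 < μ}, fun {a b} (ha : 0 < a) (hb : 0 < b) => (add_pos ha hb : 0 < a + b)⟩
def negA : AddSubsemigroup (La ι) := ⟨{μ | μ < 0}, fun {a b} (ha : a < 0) (hb : b < 0) => (add_neg ha hb : a + b < 0)⟩
def htA (r : La ι) (hr : 0 < ht r) : AddSubsemigroup (La ι) :=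
  ⟨{μ | ht r ≤ ht μ ∧ μ ≠ r}, by
    rintro a b ⟨ha, _⟩ ⟨hb, _⟩
    refine ⟨by rw [ht_add]; omega, fun h => ?_⟩
    rw [← h, ht_add] at ha hb hr
    omega⟩

def Closed (R : RS ι) (S : Finset (La ι)) : Prop :=
  (∀ r ∈ S, r ∈ R.Φ ∧ 0 ≤ r) ∧ ∀ r ∈ S, ∀ s ∈ S, r ≠ s → ∀ i j : ℕ, 0 < i → 0 < j →
    i • r + j • s ∈ R.Φ → i • r + j • s ∈ S

namespace RS
variable {R : RS ι}

variable (R) in
noncomputable def Sp (w : Aut ι) : Finset (La ι) := by
  classical exact R.Pp.filter (fun r => 0 ≤ w r)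
variable (R) in
noncomputable def Sn (w : Aut ι) : Finset (La ι) := by
  classical exact R.Pp.filter (fun r => ¬ 0 ≤ w r)

theorem mem_Sp {w : Aut ι} {r : La ι} : r ∈ R.Sp w ↔ (r ∈ R.Φ ∧ 0 ≤ r) ∧ 0 ≤ w r := by
  simp [Sp, mem_Pp]
theorem mem_Sn {w : Aut ι} {r : La ι} : r ∈ R.Sn w ↔ (r ∈ R.Φ ∧ 0 ≤ r) ∧ ¬ 0 ≤ w r := by
  simp [Sn, mem_Pp]

theorem card_Sp_Sn (w : Aut ι) : #(R.Sp w) + #(R.Sn w) = #R.Pp := by
  classical
  exact card_filter_add_card_filter_not _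

theorem closed_Pp : Closed R R.Pp :=
  ⟨fun _ hr => mem_Pp.mp hr, fun _ hr _ hs _ i j _ _ h => mem_Pp.mpr ⟨h,
    add_nonneg (nsmul_nonneg (mem_Pp.mp hr).2 i) (nsmul_nonneg (mem_Pp.mp hs).2 j)⟩⟩

theorem closed_Sp (w : Aut ι) : Closed R (R.Sp w) := by
  refine ⟨fun _ hr => (mem_Sp.mp hr).1, fun r hr s hs _ i j _ _ h => mem_Sp.mpr ⟨⟨h, ?_⟩, ?_⟩⟩
  · exact add_nonneg (nsmul_nonneg (mem_Sp.mp hr).1.2 i) (nsmul_nonneg (mem_Sp.mp hs).1.2 j)
  · rw [map_add, map_nsmul, map_nsmul]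
    exact add_nonneg (nsmul_nonneg (mem_Sp.mp hr).2 i) (nsmul_nonneg (mem_Sp.mp hs).2 j)

theorem closed_Sn {w : Aut ι} (hw : w ∈ R.W) : Closed R (R.Sn w) := by
  refine ⟨fun _ hr => (mem_Sn.mp hr).1, fun r hr s hs _ i j _ _ h => mem_Sn.mpr ⟨⟨h, ?_⟩, ?_⟩⟩
  · exact add_nonneg (nsmul_nonneg (mem_Sn.mp hr).1.2 i) (nsmul_nonneg (mem_Sn.mp hs).1.2 j)
  · intro h'
    apply not_neg_nonneg (W_mem hw h) h'
    rw [map_add, map_nsmul, map_nsmul, neg_add, ← smul_neg, ← smul_neg]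
    exact add_nonneg
      (nsmul_nonneg (neg_nonneg_of_not (W_mem hw (mem_Sn.mp hr).1.1) (mem_Sn.mp hr).2) i)
      (nsmul_nonneg (neg_nonneg_of_not (W_mem hw (mem_Sn.mp hs).1.1) (mem_Sn.mp hs).2) j)

end RS

theorem Closed.filter {R : RS ι} {S : Finset (La ι)} (hS : Closed R S) {F : Type*} [Field F]
    [DecidableEq F] (χ : Chr ι F) : Closed R (S.filter (χ · = 1)) := by
  refine ⟨fun r hr => hS.1 r (mem_filter.mp hr).1, fun r hr s hs hne i j hi hj h => ?_⟩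
  refine mem_filter.mpr ⟨hS.2 r (mem_filter.mp hr).1 s (mem_filter.mp hs).1 hne i j hi hj h, ?_⟩
  rw [AddChar.map_add_eq_mul, AddChar.map_nsmul_eq_pow, AddChar.map_nsmul_eq_pow,
    (mem_filter.mp hr).2, (mem_filter.mp hs).2]
  simp

theorem Closed.ht_pos {R : RS ι} {S : Finset (La ι)} (hS : Closed R S) {r : La ι} (hr : r ∈ S) :
    0 < ht r := Ch.ht_pos (hS.1 r hr).2 (RS.ne_zero (hS.1 r hr).1)

theorem Closed.comb_ne {R : RS ι} {S : Finset (La ι)} (hS : Closed R S) {r a b : La ι}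
    (hmin : ∀ s ∈ S, ht r ≤ ht s) (ha : a ∈ S) (hb : b ∈ S) {i j : ℕ} (hi : 0 < i) (hj : 0 < j) :
    i • a + j • b ≠ r := by
  intro h
  have h1 := hS.ht_pos ha
  have h2 := hS.ht_pos hb
  have h3 := hmin a ha
  have := congrArg ht h
  rw [ht_add, ht_nsmul, ht_nsmul] at this
  have hi' : (1 : ℤ) ≤ i := by exact_mod_cast hi
  have hj' : (1 : ℤ) ≤ j := by exact_mod_cast hj
  nlinarith

theorem Closed.erase {R : RS ι} {S : Finset (La ι)} (hS : Closed R S) {r : La ι}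
    (hmin : ∀ s ∈ S, ht r ≤ ht s) : Closed R (S.erase r) := by
  refine ⟨fun a ha => hS.1 a (mem_of_mem_erase ha), fun a ha b hb hne i j hi hj h => ?_⟩
  exact mem_erase.mpr ⟨hS.comb_ne hmin (mem_of_mem_erase ha) (mem_of_mem_erase hb) hi hj,
    hS.2 a (mem_of_mem_erase ha) b (mem_of_mem_erase hb) hne i j hi hj h⟩

namespace CG
open RS
variable {R : RS ι} {F : Type*} [Field F] {I : Type} [Fintype I] [DecidableEq I]
  {G : Type*} [Group G] (C : CG R F I G)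

def Tri (A : AddSubsemigroup (La ι)) : Submonoid G where
  carrier := {g | ∀ j k, C.ρ g j k ≠ (1 : Matrix I I F) j k → C.wt j - C.wt k ∈ A}
  one_mem' j k h := absurd (by rw [map_one]) h
  mul_mem' := by
    intro g g' hg hg' j k h
    by_contra hA
    apply h
    have e : C.ρ (g * g') = 1 + ((C.ρ g - 1) + (C.ρ g' - 1) + (C.ρ g - 1) * (C.ρ g' - 1)) := by
      rw [map_mul]; noncomm_ring
    have h1 : (C.ρ g - 1) j k = 0 := by
      by_contra h'; exact hA (hg j k (sub_ne_zero.mp h'))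
    have h2 : (C.ρ g' - 1) j k = 0 := by
      by_contra h'; exact hA (hg' j k (sub_ne_zero.mp h'))
    have h3 : ((C.ρ g - 1) * (C.ρ g' - 1)) j k = 0 := by
      rw [Matrix.mul_apply]
      refine sum_eq_zero fun m _ => ?_
      by_contra h'
      have := A.add_mem (hg j m (sub_ne_zero.mp (left_ne_zero_of_mul h')))
        (hg' m k (sub_ne_zero.mp (right_ne_zero_of_mul h')))
      rw [sub_add_sub_cancel] at this
      exact hA this
    rw [e, Matrix.add_apply, Matrix.add_apply, Matrix.add_apply, h1, h2, h3]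
    simp

def U (S : Finset (La ι)) : Subgroup G := Subgroup.closure {g | ∃ r ∈ S, ∃ a, g = C.x r a}

variable {C}

theorem x_mem_U {S : Finset (La ι)} {r : La ι} (hr : r ∈ S) (a : F) : C.x r a ∈ C.U S :=
  Subgroup.subset_closure ⟨r, hr, a, rfl⟩

theorem U_mono {S S' : Finset (La ι)} (h : S ⊆ S') : C.U S ≤ C.U S' :=
  Subgroup.closure_mono fun _ ⟨r, hr, a, hg⟩ => ⟨r, h hr, a, hg⟩

theorem U_ind {S : Finset (La ι)} (hS : ∀ r ∈ S, r ∈ R.Φ) {p : G → Prop} (h1 : p 1)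
    (hx : ∀ r ∈ S, ∀ a, ∀ u ∈ C.U S, p u → p (C.x r a * u)) {u : G} (hu : u ∈ C.U S) : p u := by
  induction hu using Subgroup.closure_induction_left with
  | one => exact h1
  | mul_left x hx' y hy ih =>
    obtain ⟨r, hr, a, rfl⟩ := hx'
    exact hx r hr a y hy ih
  | inv_mul_cancel x hx' y hy ih =>
    obtain ⟨r, hr, a, rfl⟩ := hx'
    rw [C.x_inv (hS r hr)]
    exact hx r hr _ y hy ih

theorem U_tri {S : Finset (La ι)} (hS : ∀ r ∈ S, r ∈ R.Φ) {A : AddSubsemigroup (La ι)}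
    (hA : ∀ r ∈ S, ∀ m : ℕ, 0 < m → m • r ∈ A) {u : G} (hu : u ∈ C.U S) : u ∈ C.Tri A := by
  refine U_ind hS (p := (· ∈ C.Tri A)) (one_mem _) (fun r hr a u _ ih => mul_mem ?_ ih) hu
  intro j k h
  obtain ⟨m, hm, h'⟩ := C.x_tri r (hS r hr) a j k h
  rw [h', add_sub_cancel_left]
  exact hA r hr m hm

theorem U_pos {S : Finset (La ι)} (hS : ∀ r ∈ S, r ∈ R.Φ ∧ 0 ≤ r) {u : G} (hu : u ∈ C.U S) :
    u ∈ C.Tri posA :=
  U_tri (fun r hr => (hS r hr).1) (fun r hr _ hm => nsmul_pos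
    (lt_of_le_of_ne (hS r hr).2 (ne_zero (hS r hr).1).symm) hm.ne') hu

theorem U_neg {S : Finset (La ι)} (hS : ∀ r ∈ S, r ∈ R.Φ ∧ ¬ 0 ≤ r) {u : G} (hu : u ∈ C.U S) :
    u ∈ C.Tri negA :=
  U_tri (fun r hr => (hS r hr).1) (fun r hr _ hm => nsmul_neg
    (lt_of_le_of_ne ((R.sign r (hS r hr).1).resolve_left (hS r hr).2) (ne_zero (hS r hr).1))
      hm.ne') hu

theorem Rep.conj_U {g : G} {w : Aut ι} (h : C.Rep g w) {S S' : Finset (La ι)}
    (hS : ∀ r ∈ S, r ∈ R.Φ) (hS' : ∀ r ∈ S, w r ∈ S') {u : G} (hu : u ∈ C.U S) :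
    g * u * g⁻¹ ∈ C.U S' := by
  refine U_ind hS (p := fun u => g * u * g⁻¹ ∈ C.U S') (by simp) (fun r hr a u _ ih => ?_) hu
  obtain ⟨η, _, hη⟩ := h.x r (hS r hr)
  rw [← mul_assoc, hη, mul_assoc, mul_assoc, ← mul_assoc g]
  exact mul_mem (x_mem_U (hS' r hr) _) ih

theorem h_conj_U (χ : Chr ι F) {S : Finset (La ι)} (hS : ∀ r ∈ S, r ∈ R.Φ) {u : G}
    (hu : u ∈ C.U S) : C.h χ * u * (C.h χ)⁻¹ ∈ C.U S :=
  (rep_h χ).conj_U hS (fun _ hr => hr) hu

theorem h_conj_U' (χ : Chr ι F) {S : Finset (La ι)} (hS : ∀ r ∈ S, r ∈ R.Φ) {u : G}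
    (hu : u ∈ C.U S) : (C.h χ)⁻¹ * u * C.h χ ∈ C.U S := by
  simpa [C.h_inv] using h_conj_U χ⁻¹ hS hu

theorem tri_diag {A : AddSubsemigroup (La ι)} (h0 : (0 : La ι) ∉ A) {u : G} (hu : u ∈ C.Tri A)
    (j : I) : C.ρ u j j = 1 := by
  by_contra h
  exact h0 (by simpa using hu j j (by simpa using h))

theorem low_up {v u : G} {χ : Chr ι F} (hv : v ∈ C.Tri negA) (hu : u ∈ C.Tri posA)
    (h : v = C.h χ * u) : v = 1 := by
  apply C.inj
  rw [map_one]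
  ext j k
  by_contra hne
  have h1 : C.wt j - C.wt k < 0 := hv j k hne
  have hjk : j ≠ k := by rintro rfl; simp at h1
  rw [Matrix.one_apply_ne hjk, h, map_mul, C.ρ_h, Matrix.diagonal_mul] at hne
  have h2 : 0 < C.wt j - C.wt k :=
    hu j k (by rw [Matrix.one_apply_ne hjk]; exact right_ne_zero_of_mul hne)
  exact lt_asymm h1 h2

theorem h_eq_one {χ : Chr ι F} (hu : C.h χ ∈ C.Tri posA) : C.h χ = 1 := by
  apply C.inj
  rw [map_one, C.ρ_h, ← Matrix.diagonal_one]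
  congr 1
  ext j
  have := tri_diag (lt_irrefl (0 : La ι)) hu j
  simpa [C.ρ_h] using this

theorem Rep.lu {g v u : G} {w : Aut ι} {χ : Chr ι F} (hg : C.Rep g w) (hv : v ∈ C.Tri negA)
    (hu : u ∈ C.Tri posA) (h : v * g = C.h χ * u) : w = 1 := by
  have key : ∀ r ∈ R.Φ, r ≤ w r := by
    intro r hr
    have hr' := W_mem hg.mem_W hr
    obtain ⟨j, hj⟩ := C.col_ne g (C.e r)
    have hje : ∀ m, C.ρ g m (C.e r) ≠ 0 → m = C.e (w r) := fun m hm =>
      C.eq_e hr' (by rw [hg.wt _ _ hm, C.wt_e r hr])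
    have h1 : C.ρ (v * g) j (C.e r) ≠ 0 := by
      rw [map_mul, Matrix.mul_apply, sum_eq_single j]
      · rw [tri_diag (lt_irrefl (0 : La ι)) hv, one_mul]; exact hj
      · intro m _ hm
        by_contra h'
        exact hm ((hje m (right_ne_zero_of_mul h')).trans (hje j hj).symm)
      · simp
    rw [h, map_mul, C.ρ_h, Matrix.diagonal_mul] at h1
    by_cases hjk : j = C.e r
    · have := congrArg C.wt (hje j hj)
      rw [hjk, C.wt_e r hr, C.wt_e _ hr'] at this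
      exact this.le
    · have h2 : 0 < C.wt j - C.wt (C.e r) :=
        hu j _ (by rw [Matrix.one_apply_ne hjk]; exact right_ne_zero_of_mul h1)
      rw [hje j hj, C.wt_e r hr, C.wt_e _ hr'] at h2
      exact (sub_pos.mp h2).le
  refine LinearEquiv.ext fun μ => ?_
  rw [eq_sum_al μ, map_sum, map_sum]
  refine sum_congr rfl fun i _ => ?_
  rw [map_zsmul, map_zsmul]
  congr 1
  have h1 := key _ (R.al_mem i)
  have h2 := key _ (R.neg_mem _ (R.al_mem i))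
  rw [map_neg, neg_le_neg_iff] at h2
  exact le_antisymm h2 h1

theorem Rep.unique {g : G} {w w' : Aut ι} (h : C.Rep g w) (h' : C.Rep g w') : w = w' := by
  have := h.mul h'.inv
  rw [mul_inv_cancel] at this
  have := this.lu (χ := 1) (one_mem _) (one_mem _) (by simp [C.h_one])
  exact mul_inv_eq_one.mp this

section step
variable {S : Finset (La ι)} (hS : Closed R S) {r : La ι} (hr : r ∈ S)
  (hmin : ∀ s ∈ S, ht r ≤ ht s)
include hS hr hmin

theorem step_conj (a : F) {u : G} (hu : u ∈ C.U (S.erase r)) :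
    C.x r a * u * (C.x r a)⁻¹ ∈ C.U (S.erase r) := by
  refine U_ind (fun s hs => (hS.1 s (mem_of_mem_erase hs)).1)
    (p := fun u => C.x r a * u * (C.x r a)⁻¹ ∈ C.U (S.erase r)) (by simp)
    (fun s hs b u _ ih => ?_) hu
  have hs' := mem_of_mem_erase hs
  have h1 := good (C := C) (hS.1 r hr).1 s (hS.1 s hs').1 (ne_of_mem_erase hs) (fun h =>
    not_neg_nonneg (hS.1 r hr).1 (hS.1 r hr).2 (h ▸ (hS.1 s hs').2)) a b
  have h2 : Subgroup.closure (commSet R C.x r s) ≤ C.U (S.erase r) := by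
    refine Subgroup.closure_mono ?_
    rintro _ ⟨t, ht, i, j, hi, hj, rfl, c, rfl⟩
    exact ⟨_, mem_erase.mpr ⟨hS.comb_ne hmin hr hs' hi hj,
      hS.2 r hr s hs' (ne_of_mem_erase hs).symm i j hi hj ht⟩, c, rfl⟩
  have := mul_mem (mul_mem (h2 h1) (x_mem_U hs b)) ih
  simpa [mul_assoc] using this

theorem step_ex {g : G} (hg : g ∈ C.U S) : ∃ a, ∃ u ∈ C.U (S.erase r), g = C.x r a * u := by
  refine U_ind (fun s hs => (hS.1 s hs).1)
    (p := fun g => ∃ a, ∃ u ∈ C.U (S.erase r), g = C.x r a * u)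
    ⟨0, 1, one_mem _, by simp [C.x_zero (hS.1 r hr).1]⟩ ?_ hg
  rintro s hs b _ _ ⟨a, u, hu, rfl⟩
  by_cases h : s = r
  · exact ⟨b + a, u, hu, by rw [h, C.x_add r (hS.1 r hr).1, mul_assoc]⟩
  · refine ⟨a, _, mul_mem (step_conj hS hr hmin (-a) (x_mem_U (mem_erase.mpr ⟨h, hs⟩) b)) hu, ?_⟩
    rw [← C.x_inv (hS.1 r hr).1]
    simp [mul_assoc]

theorem step_uniq {a b : F} {u u' : G} (hu : u ∈ C.U (S.erase r)) (hu' : u' ∈ C.U (S.erase r))
    (h : C.x r a * u = C.x r b * u') : a = b ∧ u = u' := by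
  have hrΦ := (hS.1 r hr).1
  have h1 : C.x r (-b + a) = u' * u⁻¹ := by
    rw [C.x_add r hrΦ, ← C.x_inv hrΦ, inv_mul_eq_iff_eq_mul, ← mul_assoc, ← h,
      mul_inv_cancel_right]
  have h2 : u' * u⁻¹ ∈ C.Tri (htA r (hS.ht_pos hr)) := by
    refine U_tri (fun s hs => (hS.1 s (mem_of_mem_erase hs)).1) ?_ (mul_mem hu' (inv_mem hu))
    intro s hs m hm
    have h3 := hmin s (mem_of_mem_erase hs)
    have h4 := hS.ht_pos hr
    have hm' : (1 : ℤ) ≤ m := by exact_mod_cast hm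
    refine ⟨by rw [ht_nsmul]; nlinarith, fun h5 => ?_⟩
    have h6 := congrArg ht h5
    rw [ht_nsmul] at h6
    have : (m : ℤ) = 1 := by nlinarith
    have : m = 1 := by exact_mod_cast this
    rw [this, one_smul] at h5
    exact ne_of_mem_erase hs h5
  obtain ⟨j, k, hjk, m, hm, hx⟩ := C.x_lin r hrΦ
  have hne : j ≠ k := by
    rintro rfl
    exact ne_zero hrΦ (by simpa using hjk)
  have h3 : C.ρ (u' * u⁻¹) j k = (1 : Matrix I I F) j k := by
    by_contra h'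
    exact (h2 j k h').2 (by rw [hjk, add_sub_cancel_left])
  rw [← h1, hx, Matrix.one_apply_ne hne, mul_eq_zero] at h3
  have hab : a = b := by
    have := h3.resolve_left hm
    linear_combination this
  subst hab
  exact ⟨rfl, mul_left_cancel h⟩

end step

theorem closed_ind {p : Finset (La ι) → Prop} (h0 : p ∅)
    (hs : ∀ S, Closed R S → ∀ r ∈ S, (∀ s ∈ S, ht r ≤ ht s) → p (S.erase r) → p S)
    {S : Finset (La ι)} (hS : Closed R S) : p S := by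
  obtain ⟨n, hn⟩ : ∃ n, #S = n := ⟨_, rfl⟩
  induction n generalizing S with
  | zero => rw [card_eq_zero.mp hn]; exact h0
  | succ n ih =>
    obtain ⟨r, hr, hmin⟩ := exists_min_image S ht (card_pos.mp (by omega))
    exact hs S hS r hr hmin (ih (hS.erase hmin) (by rw [card_erase_of_mem hr, hn]; rfl))

theorem U_empty : C.U ∅ = ⊥ := by simp [U]

theorem card_U {S : Finset (La ι)} (hS : Closed R S) : Nat.card (C.U S) = Nat.card F ^ #S := by
  refine closed_ind (p := fun S => Nat.card (C.U S) = Nat.card F ^ #S) (by simp [U_empty]) ?_ hS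
  intro S hS r hr hmin ih
  let f : F × C.U (S.erase r) → C.U S := fun y =>
    ⟨C.x r y.1 * y.2, mul_mem (x_mem_U hr _) (U_mono (erase_subset _ _) y.2.2)⟩
  have hf : Function.Bijective f := by
    constructor
    · rintro ⟨a, u⟩ ⟨b, u'⟩ h
      obtain ⟨h1, h2⟩ := step_uniq hS hr hmin u.2 u'.2 (congrArg Subtype.val h)
      exact Prod.ext h1 (Subtype.ext h2)
    · rintro ⟨g, hg⟩
      obtain ⟨a, u, hu, rfl⟩ := step_ex hS hr hmin hg
      exact ⟨(a, ⟨u, hu⟩), rfl⟩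
  rw [← Nat.card_eq_of_bijective f hf, Nat.card_prod, ih, ← card_erase_add_one hr, pow_succ']

theorem cent_U [DecidableEq F] (χ : Chr ι F) {S : Finset (La ι)} (hS : Closed R S) :
    ∀ u ∈ C.U S, C.h χ * u = u * C.h χ → u ∈ C.U (S.filter (χ · = 1)) := by
  refine closed_ind (p := fun S => ∀ u ∈ C.U S, C.h χ * u = u * C.h χ →
    u ∈ C.U (S.filter (χ · = 1))) (by simp [U_empty]) ?_ hS
  intro S hS r hr hmin ih g hg hc
  obtain ⟨a, u, hu, rfl⟩ := step_ex hS hr hmin hg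
  have hrΦ := (hS.1 r hr).1
  have h1 : C.x r (χ r * a) * (C.h χ * u * (C.h χ)⁻¹) = C.x r a * u := by
    rw [← mul_assoc, ← mul_assoc, ← C.h_x _ _ hrΦ, mul_assoc (C.h χ), hc, mul_inv_cancel_right]
  obtain ⟨h2, h3⟩ := step_uniq hS hr hmin
    (h_conj_U χ (fun s hs => (hS.1 s (mem_of_mem_erase hs)).1) hu) hu h1
  refine mul_mem ?_ (U_mono (filter_subset_filter _ (erase_subset _ _))
    (ih u hu (mul_inv_eq_iff_eq_mul.mp h3)))
  by_cases ha : a = 0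
  · rw [ha, C.x_zero hrΦ]; exact one_mem _
  · exact x_mem_U (mem_filter.mpr ⟨hr, by simpa [ha] using h2⟩) a

theorem comm_of_U [DecidableEq F] (χ : Chr ι F) {S : Finset (La ι)} (hS : ∀ r ∈ S, r ∈ R.Φ)
    {u : G} (hu : u ∈ C.U (S.filter (χ · = 1))) : C.h χ * u = u * C.h χ := by
  refine U_ind (fun r hr => hS r (mem_filter.mp hr).1) (p := fun u => C.h χ * u = u * C.h χ)
    (by simp) (fun r hr a u _ ih => ?_) hu
  rw [← mul_assoc, C.h_x _ _ (hS r (mem_filter.mp hr).1), (mem_filter.mp hr).2, one_mul,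
    mul_assoc, ih, mul_assoc]

theorem Rep.conj_Sp {g : G} {w : Aut ι} (h : C.Rep g w) {u : G} (hu : u ∈ C.U (R.Sp w)) :
    g * u * g⁻¹ ∈ C.U R.Pp :=
  h.conj_U (fun _ hr => (mem_Sp.mp hr).1.1) (fun _ hr =>
    mem_Pp.mpr ⟨W_mem h.mem_W (mem_Sp.mp hr).1.1, (mem_Sp.mp hr).2⟩) hu

theorem Rep.conj_Sn {g : G} {w : Aut ι} (h : C.Rep g w) {u : G} (hu : u ∈ C.U (R.Sn w)) :
    g * u * g⁻¹ ∈ C.Tri negA := by
  classical
  refine U_neg (S := (R.Sn w).image w) ?_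
    (h.conj_U (fun _ hr => (mem_Sn.mp hr).1.1) (fun _ hr => mem_image_of_mem _ hr) hu)
  intro r hr
  obtain ⟨t, ht, rfl⟩ := mem_image.mp hr
  exact ⟨W_mem h.mem_W (mem_Sn.mp ht).1.1, (mem_Sn.mp ht).2⟩

theorem Pp_pos {u : G} (hu : u ∈ C.U R.Pp) : u ∈ C.Tri posA := U_pos (fun _ h => mem_Pp.mp h) hu

theorem Sp_le (w : Aut ι) : C.U (R.Sp w) ≤ C.U R.Pp :=
  U_mono fun _ hr => mem_Pp.mpr (mem_Sp.mp hr).1
theorem Sn_le (w : Aut ι) : C.U (R.Sn w) ≤ C.U R.Pp :=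
  U_mono fun _ hr => mem_Pp.mpr (mem_Sn.mp hr).1

include C in
theorem finiteG [Finite F] : Finite G := Finite.of_injective _ C.inj

theorem U_split [Finite F] {w : Aut ι} (hw : w ∈ R.W) {u : G} (hu : u ∈ C.U R.Pp) :
    ∃ u1 ∈ C.U (R.Sp w), ∃ u2 ∈ C.U (R.Sn w), u = u1 * u2 := by
  have := C.finiteG
  obtain ⟨g, hg⟩ := C.exists_rep hw
  let f : C.U (R.Sp w) × C.U (R.Sn w) → C.U R.Pp := fun y =>
    ⟨y.1 * y.2, mul_mem (Sp_le w y.1.2) (Sn_le w y.2.2)⟩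
  have hf : Function.Injective f := by
    rintro ⟨a, b⟩ ⟨a', b'⟩ h
    have h : (a : G) * b = a' * b' := congrArg Subtype.val h
    have h1 : (b : G) * (b' : G)⁻¹ = (a : G)⁻¹ * a' := by
      rw [mul_inv_eq_iff_eq_mul, mul_assoc, ← h, inv_mul_cancel_left]
    have h2 := low_up (χ := 1) (hg.conj_Sn (mul_mem b.2 (inv_mem b'.2)))
      (Pp_pos (hg.conj_Sp (mul_mem (inv_mem a.2) a'.2))) (by rw [C.h_one, one_mul, h1])
    rw [mul_inv_eq_one, mul_eq_left] at h2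
    rw [h2] at h1
    exact Prod.ext (Subtype.ext (inv_mul_eq_one.mp h1.symm)) (Subtype.ext (mul_inv_eq_one.mp h2))
  have hs : Function.Surjective f := by
    refine (hf.bijective_of_nat_card_le (le_of_eq ?_)).2
    rw [Nat.card_prod, card_U closed_Pp, card_U (closed_Sp w), card_U (closed_Sn hw), ← pow_add,
      card_Sp_Sn]
  obtain ⟨⟨a, b⟩, h⟩ := hs ⟨u, hu⟩
  exact ⟨a, a.2, b, b.2, (congrArg Subtype.val h).symm⟩

theorem mem_U_Sn_s {i : ι} {u : G} (hu : u ∈ C.U (R.Sn (R.s (al i)))) :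
    ∃ a, u = C.x (al i) a := by
  refine U_ind (fun _ hr => (mem_Sn.mp hr).1.1) (p := fun u => ∃ a, u = C.x (al i) a)
    ⟨0, (C.x_zero (R.al_mem i)).symm⟩ ?_ hu
  rintro r hr a _ _ ⟨b, rfl⟩
  obtain ⟨⟨h1, h2⟩, h3⟩ := mem_Sn.mp hr
  have : r = al i := by
    by_contra hne
    rw [s_apply (R.al_mem i)] at h3
    exact h3 (R.pos_refl i r h1 h2 hne)
  exact ⟨a + b, by rw [this, C.x_add _ (R.al_mem i)]⟩

end CG
end Ch
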