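import Mathlib

/-! Root systems in coordinates and their Weyl groups (for Chevalley groups). -/

set_option linter.unusedSectionVars false

namespace Ch
open Finset

abbrev La (ι : Type) := ι → ℤ
abbrev Aut (ι : Type) := La ι ≃ₗ[ℤ] La ι

variable {ι : Type} [Fintype ι] [DecidableEq ι]

def al (i : ι) : La ι := Pi.single i 1

structure RS (ι : Type) [Fintype ι] [DecidableEq ι] where
  Φ : Finset (La ι)
  c : La ι → Module.Dual ℤ (La ι)
  ω : ι → La ι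
  al_mem : ∀ i, al i ∈ Φ
  two : ∀ r ∈ Φ, c r r = 2
  refl_mem : ∀ i, ∀ r ∈ Φ, r - c (al i) r • al i ∈ Φ
  equiv : ∀ i, ∀ r ∈ Φ, ∀ μ, c (r - c (al i) r • al i) μ = c r (μ - c (al i) μ • al i)
  sign : ∀ r ∈ Φ, 0 ≤ r ∨ r ≤ 0
  neg_mem : ∀ r ∈ Φ, -r ∈ Φ
  pos_refl : ∀ i, ∀ r ∈ Φ, 0 ≤ r → r ≠ al i → 0 ≤ r - c (al i) r • al i
  descent : ∀ r ∈ Φ, 0 ≤ r → (∃ i, r = al i) ∨ ∃ i, 0 < c (al i) r
  omega : ∀ i j, c (al j) (ω i) = if j = i then 1 else 0
  omega_span : ∀ j, ∑ i, c (al i) (al j) • ω i = al j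
  cartan : ∀ i j, i ≠ j → c (al i) (al j) = -1 ∨ c (al j) (al i) = -1 ∨
    (c (al i) (al j) = 0 ∧ c (al j) (al i) = 0)

theorem al_nonneg (i : ι) : (0 : La ι) ≤ al i := by
  intro j; simp only [al, Pi.zero_apply, Pi.single_apply]; split_ifs <;> simp

theorem eq_sum_al (μ : La ι) : μ = ∑ i, μ i • al i := by
  ext j; simp [al, Pi.single_apply]

theorem al_inj {i j : ι} (h : al i = al j) : i = j := by
  by_contra hne
  have := congrFun h i
  simp [al, hne] at this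

def ht (μ : La ι) : ℤ := ∑ i, μ i

theorem ht_add (a b : La ι) : ht (a + b) = ht a + ht b := by simp [ht, sum_add_distrib]
theorem ht_nsmul (m : ℕ) (a : La ι) : ht (m • a) = m * ht a := by simp [ht, mul_sum]
theorem ht_zsmul (m : ℤ) (a : La ι) : ht (m • a) = m * ht a := by simp [ht, mul_sum]
theorem ht_sub (a b : La ι) : ht (a - b) = ht a - ht b := by simp [ht, sum_sub_distrib]
theorem ht_al (i : ι) : ht (al i) = 1 := by simp [ht, al]
theorem ht_nonneg {a : La ι} (h : 0 ≤ a) : 0 ≤ ht a := sum_nonneg fun i _ => h i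
theorem ht_pos {a : La ι} (h : 0 ≤ a) (h0 : a ≠ 0) : 0 < ht a := by
  obtain ⟨i, hi⟩ := Function.ne_iff.mp h0
  exact sum_pos' (fun i _ => h i) ⟨i, mem_univ _, lt_of_le_of_ne (h i) (Ne.symm hi)⟩

namespace RS
variable (R : RS ι)

noncomputable def s (r : La ι) : Aut ι :=
  if h : R.c r r = 2 then Module.reflection h else 1

variable {R}

theorem s_apply {r : La ι} (hr : r ∈ R.Φ) (μ : La ι) : R.s r μ = μ - R.c r μ • r := by
  rw [s, dif_pos (R.two r hr), Module.reflection_apply]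

theorem s_s {r : La ι} (hr : r ∈ R.Φ) (μ : La ι) : R.s r (R.s r μ) = μ := by
  rw [s_apply hr, s_apply hr, map_sub, map_zsmul, R.two r hr]
  simp only [smul_eq_mul, sub_smul, mul_smul]
  module

theorem s_mul_s {r : La ι} (hr : r ∈ R.Φ) : R.s r * R.s r = 1 :=
  LinearEquiv.ext fun μ => s_s hr μ

theorem s_inv {r : La ι} (hr : r ∈ R.Φ) : (R.s r)⁻¹ = R.s r :=
  inv_eq_of_mul_eq_one_right (s_mul_s hr)

theorem s_self {r : La ι} (hr : r ∈ R.Φ) : R.s r r = -r := by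
  rw [s_apply hr, R.two r hr]; module

theorem ne_zero {r : La ι} (hr : r ∈ R.Φ) : r ≠ 0 := by
  rintro rfl
  have := R.two 0 hr
  simp at this

theorem not_neg_nonneg {r : La ι} (hr : r ∈ R.Φ) (h : 0 ≤ r) : ¬ 0 ≤ -r := fun h' =>
  ne_zero hr (le_antisymm (neg_nonneg.mp h') h)

theorem neg_nonneg_of_not {r : La ι} (hr : r ∈ R.Φ) (h : ¬ 0 ≤ r) : 0 ≤ -r :=
  neg_nonneg.mpr ((R.sign r hr).resolve_left h)

variable (R)

def WD (Δ : Finset (La ι)) : Subgroup (Aut ι) := Subgroup.closure (R.s '' (Δ : Set (La ι)))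

def Δ0 (_ : RS ι) : Finset (La ι) := univ.image al

def W : Subgroup (Aut ι) := R.WD R.Δ0

noncomputable def Pp : Finset (La ι) := by classical exact R.Φ.filter (0 ≤ ·)

variable {R}

theorem mem_Pp {r : La ι} : r ∈ R.Pp ↔ r ∈ R.Φ ∧ 0 ≤ r := by simp [Pp]

theorem mem_Δ0 {r : La ι} : r ∈ R.Δ0 ↔ ∃ i, al i = r := by simp [Δ0]

theorem Δ0_sub : R.Δ0 ⊆ R.Φ := fun r hr => by
  obtain ⟨i, rfl⟩ := mem_Δ0.mp hr; exact R.al_mem i

theorem s_mem_WD {Δ : Finset (La ι)} {a : La ι} (ha : a ∈ Δ) : R.s a ∈ R.WD Δ :=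
  Subgroup.subset_closure ⟨a, ha, rfl⟩

theorem s_al_mem (i : ι) : R.s (al i) ∈ R.W := s_mem_WD (mem_Δ0.mpr ⟨i, rfl⟩)

theorem prod_mem_WD {Δ : Finset (La ι)} (l : List (La ι)) (hl : ∀ a ∈ l, a ∈ Δ) :
    (l.map R.s).prod ∈ R.WD Δ := by
  apply Subgroup.list_prod_mem
  intro x hx
  obtain ⟨a, ha, rfl⟩ := List.mem_map.mp hx
  exact s_mem_WD (hl a ha)

theorem exists_list {Δ : Finset (La ι)} (hΔ : Δ ⊆ R.Φ) {w : Aut ι} (hw : w ∈ R.WD Δ) :
    ∃ l : List (La ι), (∀ a ∈ l, a ∈ Δ) ∧ w = (l.map R.s).prod := by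
  induction hw using Subgroup.closure_induction'' with
  | one => exact ⟨[], by simp, by simp⟩
  | mem x hx =>
    obtain ⟨a, ha, rfl⟩ := hx
    exact ⟨[a], by simpa using ha, by simp⟩
  | inv_mem x hx =>
    obtain ⟨a, ha, rfl⟩ := hx
    exact ⟨[a], by simpa using ha, by simp [s_inv (hΔ ha)]⟩
  | mul x y _ _ hx hy =>
    obtain ⟨l1, h1, rfl⟩ := hx
    obtain ⟨l2, h2, rfl⟩ := hy
    refine ⟨l1 ++ l2, ?_, by simp⟩
    intro a ha
    rcases List.mem_append.mp ha with h | h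
    exacts [h1 a h, h2 a h]

theorem WD_ind {Δ : Finset (La ι)} (hΔ : Δ ⊆ R.Φ) {p : Aut ι → Prop} (h1 : p 1)
    (hs : ∀ a ∈ Δ, ∀ w ∈ R.WD Δ, p w → p (R.s a * w)) {w : Aut ι} (hw : w ∈ R.WD Δ) : p w := by
  obtain ⟨l, hl, rfl⟩ := exists_list hΔ hw
  clear hw
  induction l with
  | nil => simpa using h1
  | cons a l ih =>
    rw [List.map_cons, List.prod_cons]
    have hl' : ∀ b ∈ l, b ∈ Δ := fun b hb => hl b (List.mem_cons_of_mem _ hb)
    exact hs a (hl a List.mem_cons_self) _ (prod_mem_WD l hl') (ih hl')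

theorem W_ind {p : Aut ι → Prop} (h1 : p 1)
    (hs : ∀ i, ∀ w ∈ R.W, p w → p (R.s (al i) * w)) {w : Aut ι} (hw : w ∈ R.W) : p w := by
  refine WD_ind Δ0_sub h1 ?_ hw
  intro a ha w hw hp
  obtain ⟨i, rfl⟩ := mem_Δ0.mp ha
  exact hs i w hw hp

theorem W_prop {w : Aut ι} (hw : w ∈ R.W) :
    ∀ r ∈ R.Φ, w r ∈ R.Φ ∧ ∀ μ, R.c (w r) (w μ) = R.c r μ := by
  refine W_ind (p := fun w => ∀ r ∈ R.Φ, w r ∈ R.Φ ∧ ∀ μ, R.c (w r) (w μ) = R.c r μ)
    (fun r hr => ⟨hr, fun _ => rfl⟩) ?_ hw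
  intro i w _ ih r hr
  obtain ⟨h1, h2⟩ := ih r hr
  have hi := R.al_mem i
  refine ⟨?_, fun μ => ?_⟩
  · rw [LinearEquiv.mul_apply, s_apply hi]; exact R.refl_mem i _ h1
  · rw [LinearEquiv.mul_apply, LinearEquiv.mul_apply, s_apply hi (w r), R.equiv i _ h1,
      ← s_apply hi, s_s hi, h2]

theorem W_mem {w : Aut ι} (hw : w ∈ R.W) {r : La ι} (hr : r ∈ R.Φ) : w r ∈ R.Φ :=
  (W_prop hw r hr).1

theorem c_W {w : Aut ι} (hw : w ∈ R.W) {r : La ι} (hr : r ∈ R.Φ) (μ : La ι) :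
    R.c (w r) (w μ) = R.c r μ := (W_prop hw r hr).2 μ

theorem inv_apply_apply (w : Aut ι) (μ : La ι) : w⁻¹ (w μ) = μ := by
  rw [← LinearEquiv.mul_apply, inv_mul_cancel]; rfl

theorem apply_inv_apply (w : Aut ι) (μ : La ι) : w (w⁻¹ μ) = μ := by
  rw [← LinearEquiv.mul_apply, mul_inv_cancel]; rfl

theorem c_W' {w : Aut ι} (hw : w ∈ R.W) {r : La ι} (hr : r ∈ R.Φ) (μ : La ι) :
    R.c (w r) μ = R.c r (w⁻¹ μ) := by
  rw [← c_W hw hr (w⁻¹ μ), apply_inv_apply]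

theorem s_conj {w : Aut ι} (hw : w ∈ R.W) {r : La ι} (hr : r ∈ R.Φ) :
    R.s (w r) = w * R.s r * w⁻¹ := by
  refine LinearEquiv.ext fun μ => ?_
  rw [LinearEquiv.mul_apply, LinearEquiv.mul_apply, s_apply (W_mem hw hr), s_apply hr,
    map_sub, map_zsmul, apply_inv_apply, c_W' hw hr]

theorem exists_simple_pos {r : La ι} (hr : r ∈ R.Φ) (h0 : 0 ≤ r) :
    ∃ w ∈ R.W, ∃ i, r = w (al i) := by
  obtain ⟨n, hn⟩ : ∃ n : ℕ, ht r ≤ n := ⟨(ht r).toNat, Int.self_le_toNat _⟩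
  induction n generalizing r with
  | zero => exact absurd (ht_pos h0 (ne_zero hr)) (by simpa using hn)
  | succ n ih =>
    by_cases hs : ∃ i, r = al i
    · obtain ⟨i, rfl⟩ := hs
      exact ⟨1, one_mem _, i, rfl⟩
    obtain ⟨i, hi⟩ := (R.descent r hr h0).resolve_left hs
    have hne : r ≠ al i := fun h => hs ⟨i, h⟩
    obtain ⟨w, hw, j, hj⟩ := ih (R.refl_mem i r hr) (R.pos_refl i r hr h0 hne) (by
      rw [ht_sub, ht_zsmul, ht_al]; push_cast at hn; omega)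
    refine ⟨R.s (al i) * w, mul_mem (s_al_mem i) hw, j, ?_⟩
    rw [LinearEquiv.mul_apply, ← hj, ← s_apply (R.al_mem i), s_s (R.al_mem i)]

theorem exists_simple {r : La ι} (hr : r ∈ R.Φ) : ∃ w ∈ R.W, ∃ i, r = w (al i) := by
  by_cases h0 : 0 ≤ r
  · exact exists_simple_pos hr h0
  obtain ⟨w, hw, i, hi⟩ := exists_simple_pos (R.neg_mem r hr) (neg_nonneg_of_not hr h0)
  refine ⟨w * R.s (al i), mul_mem hw (s_al_mem i), i, ?_⟩
  rw [LinearEquiv.mul_apply, s_self (R.al_mem i), map_neg, ← hi, neg_neg]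

theorem s_mem_W {r : La ι} (hr : r ∈ R.Φ) : R.s r ∈ R.W := by
  obtain ⟨w, hw, i, rfl⟩ := exists_simple hr
  rw [s_conj hw (R.al_mem i)]
  exact mul_mem (mul_mem hw (s_al_mem i)) (inv_mem hw)

theorem WD_le {Δ : Finset (La ι)} (hΔ : Δ ⊆ R.Φ) : R.WD Δ ≤ R.W := by
  rw [WD, Subgroup.closure_le]
  rintro _ ⟨a, ha, rfl⟩
  exact s_mem_W (hΔ ha)

theorem c_neg {r : La ι} (hr : r ∈ R.Φ) (μ : La ι) : R.c (-r) μ = - R.c r μ := by
  rw [← s_self hr, c_W' (s_mem_W hr) hr, s_inv hr, s_apply hr, map_sub, map_zsmul, R.two r hr]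
  simp only [smul_eq_mul]; ring

theorem orth_symm {r t : La ι} (hr : r ∈ R.Φ) (ht : t ∈ R.Φ) (h : R.c r t = 0) : R.c t r = 0 := by
  have h1 : R.s r t = t := by rw [s_apply hr, h]; simp
  have h2 := c_W (s_mem_W hr) ht r
  rw [h1, s_self hr, map_neg] at h2
  omega

theorem finiteW : (R.W : Set (Aut ι)).Finite := by
  let f : R.W → (ι → R.Φ) := fun w i => ⟨(w : Aut ι) (al i), W_mem w.2 (R.al_mem i)⟩
  have hf : Function.Injective f := by
    intro w w' h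
    apply Subtype.ext
    refine LinearEquiv.ext fun μ => ?_
    rw [eq_sum_al μ, map_sum, map_sum]
    refine sum_congr rfl fun i _ => ?_
    rw [map_zsmul, map_zsmul]
    congr 1
    exact congrArg Subtype.val (congrFun h i)
  exact Finite.of_injective f hf

theorem omega_sum (μ : La ι) : ∑ i, R.c (al i) μ • R.ω i = μ := by
  conv_rhs => rw [eq_sum_al μ]
  conv_lhs => rw [eq_sum_al μ]
  simp_rw [map_sum, map_zsmul, sum_smul]
  rw [sum_comm]
  refine sum_congr rfl fun j _ => ?_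
  rw [← R.omega_span j, smul_sum]
  simp only [smul_eq_mul, mul_smul, R.omega_span]

noncomputable def len (P : Finset (La ι)) (w : Aut ι) : ℕ := by
  classical exact #(P.filter fun r => ¬ 0 ≤ w r)

variable (R) in
structure Sys (P Δ : Finset (La ι)) : Prop where
  sub : Δ ⊆ P
  mem : ∀ r ∈ P, r ∈ R.Φ ∧ 0 ≤ r
  perm : ∀ a ∈ Δ, ∀ r ∈ P, r ≠ a → R.s a r ∈ P
  gen : ∀ r ∈ P, r ∈ AddSubmonoid.closure (Δ : Set (La ι))

theorem sys0 : R.Sys R.Pp R.Δ0 where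
  sub r hr := by
    obtain ⟨i, rfl⟩ := mem_Δ0.mp hr
    exact mem_Pp.mpr ⟨R.al_mem i, al_nonneg i⟩
  mem r hr := mem_Pp.mp hr
  perm a ha r hr hne := by
    obtain ⟨i, rfl⟩ := mem_Δ0.mp ha
    obtain ⟨h1, h2⟩ := mem_Pp.mp hr
    rw [s_apply (R.al_mem i)]
    exact mem_Pp.mpr ⟨R.refl_mem i r h1, R.pos_refl i r h1 h2 hne⟩
  gen r hr := by
    obtain ⟨_, h2⟩ := mem_Pp.mp hr
    rw [eq_sum_al r]
    refine AddSubmonoid.sum_mem _ fun i _ => ?_
    obtain ⟨m, hm⟩ := Int.eq_ofNat_of_zero_le (h2 i)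
    rw [hm, natCast_zsmul]
    exact AddSubmonoid.nsmul_mem _ (AddSubmonoid.subset_closure
      (by exact_mod_cast mem_Δ0.mpr ⟨i, rfl⟩)) _

namespace Sys
variable {P Δ : Finset (La ι)} (hS : R.Sys P Δ)
include hS

theorem subΦ : Δ ⊆ R.Φ := fun a ha => (hS.mem a (hS.sub ha)).1

theorem le_W : R.WD Δ ≤ R.W := WD_le hS.subΦ

theorem pm {w : Aut ι} (hw : w ∈ R.WD Δ) : ∀ r ∈ P, w r ∈ P ∨ -w r ∈ P := by
  refine WD_ind hS.subΦ (p := fun w => ∀ r ∈ P, w r ∈ P ∨ -w r ∈ P) (fun r hr => Or.inl hr) ?_ hw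
  intro a ha w _ ih r hr
  have key : ∀ t ∈ P, R.s a t ∈ P ∨ -R.s a t ∈ P := by
    intro t ht
    by_cases h : t = a
    · right; rw [h, s_self (hS.subΦ ha), neg_neg]; exact hS.sub ha
    · exact Or.inl (hS.perm a ha t ht h)
  rw [LinearEquiv.mul_apply]
  rcases ih r hr with h | h
  · exact key _ h
  · have := key _ h
    rw [map_neg, neg_neg] at this
    exact this.symm

theorem mem_of_pos {w : Aut ι} (hw : w ∈ R.WD Δ) {r : La ι} (hr : r ∈ P) (h : 0 ≤ w r) :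
    w r ∈ P :=
  (hS.pm hw r hr).resolve_right fun h' =>
    not_neg_nonneg (W_mem (hS.le_W hw) (hS.mem r hr).1) h (hS.mem _ h').2

theorem neg_mem_of_not {w : Aut ι} (hw : w ∈ R.WD Δ) {r : La ι} (hr : r ∈ P) (h : ¬ 0 ≤ w r) :
    -w r ∈ P :=
  (hS.pm hw r hr).resolve_left fun h' => h (hS.mem _ h').2

theorem len_mul_s {w : Aut ι} (hw : w ∈ R.W) {a : La ι} (ha : a ∈ Δ) (h : ¬ 0 ≤ w a) :
    len P (w * R.s a) + 1 = len P w := by
  classical
  have haΦ := hS.subΦ ha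
  have hmem : a ∈ P.filter fun r => ¬ 0 ≤ w r := mem_filter.mpr ⟨hS.sub ha, h⟩
  unfold len
  rw [← card_erase_add_one hmem]
  congr 1
  have hna : -a ∉ P := fun h' => not_neg_nonneg haΦ (hS.mem a (hS.sub ha)).2 (hS.mem _ h').2
  refine card_nbij' (R.s a) (R.s a) ?_ ?_ (fun r _ => s_s haΦ r) (fun r _ => s_s haΦ r)
  · intro r hr
    obtain ⟨h1, h2⟩ := mem_filter.mp (mem_coe.mp hr)
    have hne : r ≠ a := by
      rintro rfl
      rw [LinearEquiv.mul_apply, s_self haΦ, map_neg] at h2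
      exact h2 (neg_nonneg_of_not (W_mem hw haΦ) h)
    refine mem_coe.mpr (mem_erase.mpr ⟨fun h' => hna ?_, mem_filter.mpr ⟨hS.perm a ha r h1 hne, h2⟩⟩)
    rw [← s_self haΦ]
    nth_rewrite 2 [← h']
    rw [s_s haΦ]; exact h1
  · intro r hr
    obtain ⟨hne, hr'⟩ := mem_erase.mp (mem_coe.mp hr)
    obtain ⟨h1, h2⟩ := mem_filter.mp hr'
    refine mem_coe.mpr (mem_filter.mpr ⟨hS.perm a ha r h1 hne, ?_⟩)
    rwa [LinearEquiv.mul_apply, s_s haΦ]

theorem exchange (l : List (La ι)) (hl : ∀ a ∈ l, a ∈ Δ) {b : La ι} (hb : b ∈ P)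
    (h : ¬ 0 ≤ (l.map R.s).prod b) :
    ∃ l' : List (La ι), (∀ a ∈ l', a ∈ Δ) ∧ l'.length + 1 = l.length ∧
      (l.map R.s).prod * R.s b = (l'.map R.s).prod := by
  induction l with
  | nil => exact absurd (hS.mem b hb).2 (by simpa using h)
  | cons a l ih =>
    have hl' : ∀ b ∈ l, b ∈ Δ := fun b hb => hl b (List.mem_cons_of_mem _ hb)
    have ha := hl a List.mem_cons_self
    rw [List.map_cons, List.prod_cons] at h ⊢
    by_cases h0 : 0 ≤ (l.map R.s).prod b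
    · have hw := prod_mem_WD (R := R) l hl'
      have hP := hS.mem_of_pos hw hb h0
      have hea : (l.map R.s).prod b = a := by
        by_contra hne
        exact h (hS.mem _ (hS.perm a ha _ hP hne)).2
      refine ⟨l, hl', rfl, ?_⟩
      have := s_conj (hS.le_W hw) (hS.mem b hb).1
      rw [hea] at this
      rw [this, mul_assoc, mul_assoc, inv_mul_cancel_left, mul_assoc, s_mul_s (hS.mem b hb).1,
        mul_one]
    · obtain ⟨l', h1, h2, h3⟩ := ih hl' h0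
      refine ⟨a :: l', ?_, by simp [h2], ?_⟩
      · intro x hx
        rcases List.mem_cons.mp hx with rfl | hx
        exacts [ha, h1 x hx]
      · rw [mul_assoc, h3]; simp

theorem eq_one {w : Aut ι} (hw : w ∈ R.WD Δ) (h : ∀ a ∈ Δ, 0 ≤ w a) : w = 1 := by
  obtain ⟨l, hl, rfl⟩ := exists_list hS.subΦ hw
  clear hw
  obtain ⟨n, hn⟩ : ∃ n, l.length ≤ n := ⟨_, le_rfl⟩
  induction n generalizing l with
  | zero => simp [List.length_eq_zero_iff.mp (Nat.le_zero.mp hn)]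
  | succ n ih =>
    rcases List.eq_nil_or_concat l with rfl | ⟨l0, a, rfl⟩
    · simp
    have ha : a ∈ Δ := hl a (by simp)
    have hl0 : ∀ b ∈ l0, b ∈ Δ := fun b hb => hl b (by simp [hb])
    have e : ((l0.concat a).map R.s).prod = (l0.map R.s).prod * R.s a := by simp
    have h1 : ¬ 0 ≤ (l0.map R.s).prod a := by
      intro h'
      have := h a ha
      rw [e, LinearEquiv.mul_apply, s_self (hS.subΦ ha), map_neg] at this
      exact not_neg_nonneg (W_mem (hS.le_W (prod_mem_WD l0 hl0)) (hS.subΦ ha)) h' this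
    obtain ⟨l', h2, h3, h4⟩ := hS.exchange l0 hl0 (hS.sub ha) h1
    rw [e, h4] at h ⊢
    exact ih l' h2 h (by simp at hn; omega)

theorem pos_of_gen {w : Aut ι} (h : ∀ a ∈ Δ, 0 ≤ w a) {r : La ι} (hr : r ∈ P) : 0 ≤ w r := by
  have := hS.gen r hr
  clear hr
  induction this using AddSubmonoid.closure_induction with
  | mem x hx => exact h x hx
  | zero => simp
  | add x y _ _ hx hy => rw [map_add]; exact add_nonneg hx hy

theorem dom {f : Module.Dual ℤ (La ι)} (h : ∀ a ∈ Δ, 0 ≤ f a) {r : La ι} (hr : r ∈ P) :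
    0 ≤ f r := by
  have := hS.gen r hr
  clear hr
  induction this using AddSubmonoid.closure_induction with
  | mem x hx => exact h x hx
  | zero => simp
  | add x y _ _ hx hy => rw [map_add]; exact add_nonneg hx hy

theorem filter {f : Module.Dual ℤ (La ι)} (h : ∀ a ∈ Δ, 0 ≤ f a) :
    R.Sys (P.filter (f · = 0)) (Δ.filter (f · = 0)) where
  sub a ha := mem_filter.mpr ⟨hS.sub (mem_filter.mp ha).1, (mem_filter.mp ha).2⟩
  mem r hr := hS.mem r (mem_filter.mp hr).1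
  perm a ha r hr hne := by
    obtain ⟨h1, h2⟩ := mem_filter.mp ha
    obtain ⟨h3, h4⟩ := mem_filter.mp hr
    refine mem_filter.mpr ⟨hS.perm a h1 r h3 hne, ?_⟩
    rw [s_apply (hS.subΦ h1), map_sub, map_zsmul, h2, h4]; simp
  gen r hr := by
    obtain ⟨h3, h4⟩ := mem_filter.mp hr
    have := hS.gen r h3
    clear hr h3
    have key : 0 ≤ f r ∧ (f r = 0 →
        r ∈ AddSubmonoid.closure ((Δ.filter (f · = 0) : Finset _) : Set (La ι))) := by
      clear h4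
      induction this using AddSubmonoid.closure_induction with
      | mem x hx =>
        exact ⟨h x hx, fun h0 => AddSubmonoid.subset_closure (mem_coe.mpr (mem_filter.mpr ⟨hx, h0⟩))⟩
      | zero => exact ⟨by simp, fun _ => zero_mem _⟩
      | add x y _ _ hx hy =>
        rw [map_add]
        exact ⟨add_nonneg hx.1 hy.1, fun h0 => add_mem (hx.2 (by omega)) (hy.2 (by omega))⟩
    exact key.2 h4

theorem stab {f : Module.Dual ℤ (La ι)} (h : ∀ a ∈ Δ, 0 ≤ f a) {w : Aut ι} (hw : w ∈ R.WD Δ)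
    (hf : ∀ μ, f (w μ) = f μ) : w ∈ R.WD (Δ.filter (f · = 0)) := by
  obtain ⟨n, hn⟩ : ∃ n, len P w ≤ n := ⟨_, le_rfl⟩
  induction n generalizing w with
  | zero =>
    by_cases h1 : ∀ a ∈ Δ, 0 ≤ w a
    · rw [hS.eq_one hw h1]; exact one_mem _
    push Not at h1
    obtain ⟨a, ha, h1⟩ := h1
    have := hS.len_mul_s (hS.le_W hw) ha h1
    omega
  | succ n ih =>
    by_cases h1 : ∀ a ∈ Δ, 0 ≤ w a
    · rw [hS.eq_one hw h1]; exact one_mem _
    push Not at h1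
    obtain ⟨a, ha, h1⟩ := h1
    have hl := hS.len_mul_s (hS.le_W hw) ha h1
    have hfa : f a = 0 := by
      have h2 := hS.dom h (hS.neg_mem_of_not hw (hS.sub ha) h1)
      rw [map_neg, hf] at h2
      have := h a ha
      omega
    have := ih (mul_mem hw (s_mem_WD ha)) (fun μ => by
      rw [LinearEquiv.mul_apply, hf, s_apply (hS.subΦ ha), map_sub, map_zsmul, hfa]; simp)
      (by omega)
    have h2 := mul_mem this (s_mem_WD (R := R) (mem_filter.mpr ⟨ha, hfa⟩ :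
      a ∈ Δ.filter (f · = 0)))
    rwa [mul_assoc, s_mul_s (hS.subΦ ha), mul_one] at h2

end Sys

theorem len_inv {w : Aut ι} (hw : w ∈ R.W) : len R.Pp w⁻¹ = len R.Pp w := by
  classical
  unfold len
  refine card_nbij' (fun r => -w⁻¹ r) (fun r => -w r) ?_ ?_ (fun r _ => by simp)
    (fun r _ => by simp)
  · intro r hr
    obtain ⟨h1, h2⟩ := mem_filter.mp (mem_coe.mp hr)
    refine mem_coe.mpr (mem_filter.mpr ⟨sys0.neg_mem_of_not (inv_mem hw) h1 h2, ?_⟩)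
    rw [map_neg, apply_inv_apply]
    exact not_neg_nonneg (mem_Pp.mp h1).1 (mem_Pp.mp h1).2
  · intro r hr
    obtain ⟨h1, h2⟩ := mem_filter.mp (mem_coe.mp hr)
    refine mem_coe.mpr (mem_filter.mpr ⟨sys0.neg_mem_of_not hw h1 h2, ?_⟩)
    rw [map_neg, inv_apply_apply]
    exact not_neg_nonneg (mem_Pp.mp h1).1 (mem_Pp.mp h1).2

end RS
end Ch
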